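import Mathlib
import Cfsg.Agent.Lib.Helper59.HTStmt

/-!
# S3371 / SCAL: an element fixing a non-zero vector of `Fix(a)` is `±1` on the `(-1)`-eigenspace.
-/

set_option autoImplicit false

namespace Cfsg.Agent.Lib.Helper59.HTSCAL

open Cfsg.Agent.Lib.Helper59.HTStmt

universe u v

section basic

variable {q : ℕ} [Fact q.Prime] {V : Type u} [AddCommGroup V] [Module (ZMod q) V]
  {G : Type v} [Group G] (ρ : G →* (V ≃ₗ[ZMod q] V))

theorem rho_mul (g h : G) (v : V) : ρ (g * h) v = ρ g (ρ h v) := by
  rw [map_mul]; rfl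

theorem rho_one (v : V) : ρ 1 v = v := by
  rw [map_one]; rfl

/-- in odd characteristic `v = -v` forces `v = 0` -/
theorem eq_zero_of_eq_neg (hq2 : q ≠ 2) {v : V} (h : v = -v) : v = 0 := by
  have h1 : v + v = 0 := by
    nth_rewrite 2 [h]
    exact add_neg_cancel v
  have h2 : (2 : ZMod q) • v = 0 := by rw [two_smul]; exact h1
  rcases smul_eq_zero.1 h2 with h3 | h3
  · exfalso
    have h4 : ((2 : ℕ) : ZMod q) = 0 := by exact_mod_cast h3
    rw [ZMod.natCast_eq_zero_iff] at h4
    have hq : q.Prime := Fact.out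
    exact hq2 ((Nat.prime_dvd_prime_iff_eq hq Nat.prime_two).1 h4)
  · exact h3

/-- a fixed point free involution is `-1` -/
theorem neg_of_fpf {z : G} (hzz : z * z = 1) (hfpf : ∀ v : V, v ≠ 0 → ρ z v ≠ v) (v : V) :
    ρ z v = -v := by
  have h1 : ρ z (v + ρ z v) = v + ρ z v := by
    rw [map_add, ← rho_mul, hzz, rho_one, add_comm]
  have h2 : v + ρ z v = 0 := by
    by_contra h
    exact hfpf _ h h1
  exact (neg_eq_of_add_eq_zero_right h2).symm

end basic

theorem main : ScalarOn.{u, v} := by
  intro q _ V _ _ _ _ G _ _ ρ hq2 hρ hES hZ a z hF v₁ hv₁ hav₁ u huv₁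
  classical
  have hzneg : ∀ v : V, ρ z v = -v := neg_of_fpf ρ hF.zz (hZ z hF.zc hF.z1)
  have hn0 : ∀ v : V, v = -v → v = 0 := fun v h => eq_zero_of_eq_neg hq2 h
  -- the two kinds of elements
  have hcomm : ∀ g : G, g * a * g⁻¹ = a → ∀ w : V, ρ a (ρ g w) = ρ g (ρ a w) := by
    intro g hg w
    have h1 : g * a = a * g := by
      have := congrArg (fun t => t * g) hg
      simpa [mul_assoc] using this
    rw [← rho_mul, ← rho_mul, h1]
  have hanti : ∀ g : G, g * a * g⁻¹ = a * z → ∀ w : V, ρ a (ρ g w) = -ρ g (ρ a w) := by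
    intro g hg w
    have h1 : g * a = a * z * g := by
      have := congrArg (fun t => t * g) hg
      simpa [mul_assoc] using this
    have h2 : ρ g (ρ a w) = ρ a (ρ z (ρ g w)) := by
      rw [← rho_mul, ← rho_mul, ← rho_mul, h1, mul_assoc]
    rw [h2, hzneg, map_neg, neg_neg]
  -- an element fixing a non-zero vector of `Fix(a)` commutes with `a`
  have hstabH : ∀ g : G, ρ g v₁ = v₁ → g * a * g⁻¹ = a := by
    intro g hg
    rcases hF.nrm g with h | h
    · exact h
    · exfalso
      have h1 := hanti g h v₁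
      rw [hg, hav₁, hg] at h1
      exact hv₁ (hn0 v₁ h1)
  have key : ∀ w : V, ρ a w = -w → ρ u w = w ∨ ρ u w = -w := by
    intro w haw
    by_cases hw0 : w = 0
    · left; rw [hw0, map_zero]
    by_contra hcon
    push Not at hcon
    obtain ⟨hc1, hc2⟩ := hcon
    have hx0 : v₁ + w ≠ 0 := by
      intro h
      have h1 : w = -v₁ := (neg_eq_of_add_eq_zero_right h).symm
      have h2 : ρ a w = w := by rw [h1, map_neg, hav₁]
      rw [haw] at h2
      exact hw0 (hn0 w h2.symm)
    have haw' : ρ a w ≠ w := by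
      intro h
      rw [haw] at h
      exact hw0 (hn0 w h.symm)
    -- the sets
    set A : Set G := {g | ρ g (v₁ + w) = v₁ + w} with hA
    set B : Set G := {g | ρ g v₁ = v₁} with hB
    set K : Set G := {g | ρ g v₁ = v₁ ∧ ρ g w = w} with hK
    have hAB : A.ncard = B.ncard := by
      have h := hES (v₁ + w) v₁ hx0 hv₁
      have e1 : Nat.card {g : G // ρ g (v₁ + w) = v₁ + w} = A.ncard :=
        Nat.card_coe_set_eq A
      have e2 : Nat.card {g : G // ρ g v₁ = v₁} = B.ncard := Nat.card_coe_set_eq B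
      rw [← e1, ← e2]
      exact h
    have hfin : ∀ s : Set G, s.Finite := fun s => Set.toFinite s
    have h1K : (1 : G) ∈ K := ⟨rho_one ρ v₁, rho_one ρ w⟩
    have hKpos : 0 < K.ncard := (Set.ncard_pos (hfin K)).2 ⟨1, h1K⟩
    -- elements of `A` commuting with `a` lie in `K`
    have hAH : ∀ g ∈ A, g * a * g⁻¹ = a → g ∈ K := by
      intro g hg hga
      have hg' : ρ g v₁ + ρ g w = v₁ + w := by rw [← map_add]; exact hg
      have hd : ρ g v₁ - v₁ = w - ρ g w := by
        rw [sub_eq_sub_iff_add_eq_add, hg', add_comm]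
      have h1 : ρ a (ρ g v₁ - v₁) = ρ g v₁ - v₁ := by
        rw [map_sub, hcomm g hga, hav₁]
      have h2 : ρ a (w - ρ g w) = -(w - ρ g w) := by
        rw [map_sub, hcomm g hga, haw, map_neg]
        abel
      rw [hd] at h1
      rw [h1] at h2
      have h3 : w - ρ g w = 0 := hn0 _ h2
      have h4 : ρ g v₁ - v₁ = 0 := by rw [hd, h3]
      exact ⟨sub_eq_zero.1 h4, (sub_eq_zero.1 h3).symm⟩
    -- `|A| ≤ 2 |K|`
    have hA2 : A.ncard ≤ 2 * K.ncard := by
      by_cases hsub : ∀ g ∈ A, g * a * g⁻¹ = a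
      · have : A ⊆ K := fun g hg => hAH g hg (hsub g hg)
        have := Set.ncard_le_ncard this (hfin K)
        omega
      · push Not at hsub
        obtain ⟨g₀, hg₀, hg₀a⟩ := hsub
        have hg₀z : g₀ * a * g₀⁻¹ = a * z := (hF.nrm g₀).resolve_left hg₀a
        have hsubset : A ⊆ K ∪ (fun k => g₀ * k) '' K := by
          intro g hg
          by_cases hga : g * a * g⁻¹ = a
          · exact Or.inl (hAH g hg hga)
          · right
            have hgz : g * a * g⁻¹ = a * z := (hF.nrm g).resolve_left hga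
            refine ⟨g₀⁻¹ * g, ?_, by group⟩
            apply hAH
            · show ρ (g₀⁻¹ * g) (v₁ + w) = v₁ + w
              rw [rho_mul, hg]
              have h1 : ρ g₀⁻¹ (ρ g₀ (v₁ + w)) = v₁ + w := by
                rw [← rho_mul, inv_mul_cancel, rho_one]
              rw [hg₀] at h1
              exact h1
            · have hzc : ∀ y : G, y * z = z * y := fun y =>
                (Subgroup.mem_center_iff.1 hF.zc y)
              have e1 : g * a = a * z * g := by
                have := congrArg (fun t => t * g) hgz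
                simpa [mul_assoc] using this
              have e2 : g₀⁻¹ * (a * z) = a * g₀⁻¹ := by
                have h1 : a * z * g₀ = g₀ * a := by
                  have := congrArg (fun t => t * g₀) hg₀z
                  simpa [mul_assoc] using this.symm
                calc g₀⁻¹ * (a * z) = g₀⁻¹ * (a * z * g₀) * g₀⁻¹ := by group
                  _ = g₀⁻¹ * (g₀ * a) * g₀⁻¹ := by rw [h1]
                  _ = a * g₀⁻¹ := by group
              calc g₀⁻¹ * g * a * (g₀⁻¹ * g)⁻¹ = g₀⁻¹ * (g * a) * g⁻¹ * g₀ := by group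
                _ = g₀⁻¹ * (a * z * g) * g⁻¹ * g₀ := by rw [e1]
                _ = g₀⁻¹ * (a * z) * g₀ := by group
                _ = a * g₀⁻¹ * g₀ := by rw [e2]
                _ = a := by group
        have h1 := Set.ncard_le_ncard hsubset (hfin _)
        have h2 := Set.ncard_union_le K ((fun k => g₀ * k) '' K)
        have h3 : ((fun k => g₀ * k) '' K).ncard = K.ncard :=
          Set.ncard_image_of_injective K (mul_right_injective g₀)
        omega
    -- `3 |K| ≤ |B|`
    have hB3 : 3 * K.ncard ≤ B.ncard := by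
      have haK : ((fun k => a * k) '' K).ncard = K.ncard :=
        Set.ncard_image_of_injective K (mul_right_injective a)
      have huK : ((fun k => u * k) '' K).ncard = K.ncard :=
        Set.ncard_image_of_injective K (mul_right_injective u)
      have hd1 : Disjoint K ((fun k => a * k) '' K) := by
        rw [Set.disjoint_left]
        rintro g hg ⟨k, hk, rfl⟩
        have h1 : ρ (a * k) w = w := hg.2
        rw [rho_mul, hk.2] at h1
        exact haw' h1
      have hd2 : Disjoint (K ∪ (fun k => a * k) '' K) ((fun k => u * k) '' K) := by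
        rw [Set.disjoint_left]
        rintro g hg ⟨k, hk, rfl⟩
        rcases hg with hg | ⟨k', hk', hkk⟩
        · have h1 : ρ (u * k) w = w := hg.2
          rw [rho_mul, hk.2] at h1
          exact hc1 h1
        · have hkk' : a * k' = u * k := hkk
          have h1 : ρ (a * k') w = ρ (u * k) w := by rw [hkk']
          rw [rho_mul, rho_mul, hk.2, hk'.2, haw] at h1
          exact hc2 h1.symm
      have hsub : (K ∪ (fun k => a * k) '' K) ∪ ((fun k => u * k) '' K) ⊆ B := by
        rintro g ((hg | ⟨k, hk, rfl⟩) | ⟨k, hk, rfl⟩)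
        · exact hg.1
        · show ρ (a * k) v₁ = v₁
          rw [rho_mul, hk.1, hav₁]
        · show ρ (u * k) v₁ = v₁
          rw [rho_mul, hk.1, huv₁]
      have h1 := Set.ncard_le_ncard hsub (hfin B)
      rw [Set.ncard_union_eq hd2 (hfin _) (hfin _), Set.ncard_union_eq hd1 (hfin _) (hfin _),
        haK, huK] at h1
      omega
    omega
  -- the sign does not depend on `w`
  by_contra hcon
  push Not at hcon
  obtain ⟨⟨w₁, hw₁, hne₁⟩, ⟨w₂, hw₂, hne₂⟩⟩ := hcon
  have h1 : ρ u w₁ = -w₁ := (key w₁ hw₁).resolve_left hne₁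
  have h2 : ρ u w₂ = w₂ := (key w₂ hw₂).resolve_right hne₂
  have hw₁0 : w₁ ≠ 0 := by
    rintro rfl
    exact hne₁ (map_zero _)
  have hw₂0 : w₂ ≠ 0 := by
    rintro rfl
    apply hne₂
    rw [map_zero, neg_zero]
  have h12 : ρ a (w₁ + w₂) = -(w₁ + w₂) := by rw [map_add, hw₁, hw₂]; abel
  rcases key (w₁ + w₂) h12 with h | h
  · rw [map_add, h1, h2] at h
    have : -w₁ = w₁ := add_right_cancel h
    exact hw₁0 (hn0 w₁ this.symm)
  · rw [map_add, h1, h2] at h
    have : w₂ = -w₂ := by
      have h' : -w₁ + w₂ = -w₁ + -w₂ := by rw [h]; abel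
      exact add_left_cancel h'
    exact hw₂0 (hn0 w₂ this)

end Cfsg.Agent.Lib.Helper59.HTSCAL
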