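import Cfsg.Agent.Lib.Helper37.HypStmt
import Cfsg.Agent.Lib.Helper44.OCls4
import Cfsg.Agent.Lib.Helper44.NegPairs
import Cfsg.Agent.Lib.Helper14.OrthIndex

set_option autoImplicit false

namespace Cfsg.Agent.Lib.Helper59.HypDERELT

open Polynomial UniqueFactorizationMonoid Matrix
open Cfsg.Agent.Lib.Helper40.RecipPoly Cfsg.Agent.Lib.Helper44.OCls2 Cfsg.Agent.Lib.Helper44.OCls3
  Cfsg.Agent.Lib.Helper44.OCls4
open Cfsg.Agent.Lib.Helper37.HypStmt

universe u

theorem not_dvd_card (F : Type u) [Field F] [Fintype F] (p : ℕ) [Fact p.Prime] [CharP F p]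
    (r : ℕ) (hr : r.Prime) (hrp : r ≠ p) : ¬ r ∣ Fintype.card F := by
  obtain ⟨n, -, hn⟩ := FiniteField.card F p
  rw [hn]
  intro h
  have h1 := hr.dvd_of_dvd_pow h
  exact hrp ((Nat.prime_dvd_prime_iff_eq hr (Fact.out : p.Prime)).mp h1)

theorem order_facts (F : Type u) [Field F] [Fintype F] (p : ℕ) [Fact p.Prime] [CharP F p]
    (r : ℕ) (hr : r.Prime) (hrp : r ≠ p) :
    0 < orderOf ((Fintype.card F : ℕ) : ZMod r) ∧
      orderOf ((Fintype.card F : ℕ) : ZMod r) ∣ r - 1 := by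
  have : Fact r.Prime := ⟨hr⟩
  have hne : ((Fintype.card F : ℕ) : ZMod r) ≠ 0 := by
    rw [Ne, ZMod.natCast_eq_zero_iff]
    exact not_dvd_card F p r hr hrp
  have h1 : ((Fintype.card F : ℕ) : ZMod r) ^ (r - 1) = 1 := ZMod.pow_card_sub_one_eq_one hne
  have hr1 : 0 < r - 1 := by have := hr.two_le; omega
  refine ⟨?_, orderOf_dvd_of_pow_eq_one h1⟩
  exact orderOf_pos_iff.mpr (isOfFinOrder_iff_pow_eq_one.mpr ⟨r - 1, hr1, h1⟩)

theorem exists_block (F : Type u) [Field F] [Fintype F] (p : ℕ) [Fact p.Prime] [CharP F p]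
    (r : ℕ) (hr : r.Prime) (hr2 : r ≠ 2) (hrp : r ≠ p) :
    ∃ c' : F[X], Real r c' ∧ c'.natDegree = cc (orderOf ((Fintype.card F : ℕ) : ZMod r)) ∧
      ¬ (X - C (1 : F)) ∣ c' := by
  classical
  obtain ⟨i, hi⟩ : ∃ i, i = orderOf ((Fintype.card F : ℕ) : ZMod r) := ⟨_, rfl⟩
  obtain ⟨hipos, hidvd⟩ := order_facts F p r hr hrp
  rw [← hi] at hipos hidvd ⊢
  obtain ⟨t, ht'⟩ := hidvd
  have ht : t * i = r - 1 := by rw [ht', mul_comm]
  have hr3 : 3 ≤ r := by
    have := hr.two_le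
    omega
  have hrodd : Odd r := hr.odd_of_ne_two hr2
  have htpos : 1 ≤ t := by
    rcases Nat.eq_zero_or_pos t with h | h
    · subst h
      omega
    · exact h
  obtain ⟨S, hLS, hSp, hSdvd, hcount, hdec⟩ := setup (F := F) (p := p) r i t hr hr2 hrp hi ht
  have hk : 1 < (D S (cc i)).ncard := by
    rw [hcount]
    unfold cc
    by_cases hodd : Odd i
    · have hne : ¬ Even i := Nat.not_even_iff_odd.mpr hodd
      rw [if_pos hodd, if_neg hne]
      have h1 : 2 * i / (2 * i) = 1 := Nat.div_self (by omega)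
      rw [h1]
      have ht2 : 2 ≤ t := by
        rcases Nat.even_or_odd t with hte | hto
        · obtain ⟨a, ha⟩ := hte
          omega
        · exfalso
          have h3 : Odd (t * i) := hto.mul hodd
          rw [ht] at h3
          obtain ⟨a, ha⟩ := hrodd
          obtain ⟨b, hb⟩ := h3
          omega
      have h2 : 1 ≤ t / 2 := by omega
      rw [Nat.add_comm 1 (t / 2), Nat.choose_succ_self_right]
      omega
    · have he : Even i := Nat.not_odd_iff_even.mp hodd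
      rw [if_neg hodd, if_pos he]
      have h1 : i / i = 1 := Nat.div_self hipos
      rw [h1, Nat.add_comm 1 t, Nat.choose_succ_self_right]
      omega
  obtain ⟨c, hcD, hcne⟩ := Set.exists_ne_of_one_lt_ncard hk ((X - C (1 : F)) ^ (cc i))
  obtain ⟨c', hcc', hle, heven, hreal, hnd⟩ := hdec (cc i) c hcD
  obtain ⟨hcm, hcdeg, hcfac, hcs⟩ := hcD
  have hLm : (X - C (1 : F)).Monic := monic_X_sub_C 1
  have hc'm : c'.Monic := by
    have h1 : ((X - C (1 : F)) ^ (cc i - c'.natDegree) * c').Monic := hcc' ▸ hcm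
    exact (hLm.pow _).of_mul_monic_left h1
  have hc'0 : c' ≠ 0 := hc'm.ne_zero
  have hfac : ∀ P ∈ normalizedFactors c', P ∈ S := by
    intro P hP
    have hPc : P ∈ normalizedFactors c := by
      rw [hcc', normalizedFactors_mul (pow_ne_zero _ hLm.ne_zero) hc'0]
      exact Multiset.mem_add.mpr (Or.inr hP)
    rcases hcfac P hPc with h | h
    · exact absurd (h ▸ dvd_of_mem_normalizedFactors hP) hnd
    · exact h
  have hXr0 : (X ^ r - C (1 : F)).coeff 0 ≠ 0 := by
    rw [coeff_sub, coeff_X_pow, coeff_C_zero, if_neg hr.ne_zero.symm, zero_sub]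
    exact neg_ne_zero.mpr one_ne_zero
  have hS' : ∀ P ∈ S, Irreducible P ∧ P.Monic ∧ P.natDegree = i ∧ P.coeff 0 ≠ 0 := by
    intro P hP
    obtain ⟨h1, h2, h3⟩ := hSp P hP
    exact ⟨h1, h2, h3, coeff0_of_dvd ((hSdvd P h1 h2).mpr (Or.inr hP)) hXr0⟩
  obtain ⟨hvm, hvdeg, -, -⟩ := prod_facts S i hS' hLS (normalizedFactors c') hfac
  have hprod : (normalizedFactors c').prod = c' :=
    eq_of_monic_of_associated hvm hc'm (prod_normalizedFactors hc'0)
  rw [hprod] at hvdeg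
  obtain ⟨m, hm⟩ : ∃ m, m = Multiset.card (normalizedFactors c') := ⟨_, rfl⟩
  rw [← hm] at hvdeg
  have hm1 : 1 ≤ m := by
    rcases Nat.eq_zero_or_pos m with h | h
    · exfalso
      rw [h, mul_zero] at hvdeg
      have h1 : c' = 1 := Polynomial.eq_one_of_monic_natDegree_zero hc'm hvdeg
      apply hcne
      rw [hcc', h1, mul_one, natDegree_one, Nat.sub_zero]
    · exact h
  refine ⟨c', hreal, ?_, hnd⟩
  unfold cc at hle ⊢
  by_cases he : Even i
  · rw [if_pos he] at hle ⊢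
    rw [hvdeg] at hle ⊢
    have : m ≤ 1 := by
      by_contra h
      have h2 : 2 ≤ m := by omega
      have : i * 2 ≤ i * m := Nat.mul_le_mul_left i h2
      omega
    have hm' : m = 1 := by omega
    rw [hm', mul_one]
  · rw [if_neg he] at hle ⊢
    rw [hvdeg] at hle heven ⊢
    have hm2 : m ≤ 2 := by
      by_contra h
      have h2 : 3 ≤ m := by omega
      have : i * 3 ≤ i * m := Nat.mul_le_mul_left i h2
      omega
    have hm' : m = 2 := by
      rcases Nat.lt_or_ge m 2 with h | h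
      · exfalso
        have hm1' : m = 1 := by omega
        rw [hm1', mul_one] at heven
        exact he heven
      · omega
    rw [hm', mul_comm]

theorem real_pow {F : Type u} [Field F] {r : ℕ} {c : F[X]} (h : Real r c) (b : ℕ) :
    Real r (c ^ b) := by
  induction b with
  | zero =>
    rw [pow_zero]
    exact real_one r
  | succ b ih =>
    rw [pow_succ]
    exact real_mul ih h

theorem finrank_Fx {F : Type u} [Field F] {d : ℕ} (x : Matrix (I d) (I d) F) (r : ℕ)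
    (hr0 : (r : F) ≠ 0) (hx : x ^ r = 1) :
    Module.finrank F ↥(Fx x) = x.charpoly.rootMultiplicity 1 := by
  have hss : Module.End.IsSemisimple (Matrix.toLin' x) :=
    Cfsg.Agent.Lib.Helper40.SSConj.isSemisimple_toLin' x r hr0 hx
  have h1 : Fx x = Module.End.eigenspace (Matrix.toLin' x) 1 := by
    rw [Module.End.eigenspace_def, one_smul]
    rfl
  rw [h1, ← hss.isFinitelySemisimple.maxGenEigenspace_eq_eigenspace 1,
    LinearMap.finrank_maxGenEigenspace_eq, Matrix.charpoly_toLin']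

theorem main : DerElt.{u} := by
  classical
  intro F _ _ p _ _ hodd d hd r _ hr2 hrp hcle
  have hr : r.Prime := Fact.out
  have hrodd : Odd r := hr.odd_of_ne_two hr2
  obtain ⟨c', hreal, hdeg, hnd⟩ := exists_block F p r hr hr2 hrp
  obtain ⟨hipos, -⟩ := order_facts F p r hr hrp
  obtain ⟨c0, hc0⟩ : ∃ c0, c0 = cc (orderOf ((Fintype.card F : ℕ) : ZMod r)) := ⟨_, rfl⟩
  rw [← hc0] at hdeg hcle ⊢
  have hc0even : Even c0 := by
    rw [hc0]
    unfold cc
    split_ifs with h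
    · exact h
    · exact even_two_mul _
  have hc0pos : 0 < c0 := by
    rw [hc0]
    unfold cc
    split_ifs with h
    · exact hipos
    · omega
  obtain ⟨b, hb⟩ : ∃ b, b = (2 * d + 1) / c0 := ⟨_, rfl⟩
  obtain ⟨ι, _, _, s, N, hsc, hsr, hsN, hNdet⟩ := real_pow hreal b
  have hcard : Fintype.card ι = b * c0 := by
    have h1 := Matrix.charpoly_natDegree_eq_dim s
    rw [hsc, natDegree_pow, hdeg] at h1
    exact h1.symm
  have hbc : b * c0 + (2 * d + 1) % c0 = 2 * d + 1 := by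
    rw [hb]
    exact Nat.div_add_mod' _ _
  have hbceven : Even (b * c0) := hc0even.mul_left b
  have hlt : b * c0 < 2 * d + 1 := by
    obtain ⟨a, ha⟩ := hbceven
    omega
  have hcardI : Fintype.card (I d) = 2 * d + 1 := by
    simp [I]
    omega
  have h2 : (2 : F) ≠ 0 := Cfsg.Agent.Lib.Helper44.FinSq.two_ne_zero_of_odd_card hodd
  have hSQ : Cfsg.Agent.Lib.Helper44.QSpace.Sep (Cfsg.Agent.Lib.Helper44.NegPairs.oddQ d F) :=
    Cfsg.Agent.Lib.Helper44.NegPairs.sep_oddQ h2 d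
  have hSN : Cfsg.Agent.Lib.Helper44.QSpace.Sep (Cfsg.Agent.Lib.Helper44.OExt.qN N) :=
    Cfsg.Agent.Lib.Helper44.OExt.sep_qN hNdet
  obtain ⟨k, hk⟩ := hbceven
  obtain ⟨j, hj⟩ := Cfsg.Agent.Lib.Helper44.OEmb.exists_embedding (F := F) k (ι → F)
    (Cfsg.Agent.Lib.Helper44.OExt.qN N) (I d → F) (Cfsg.Agent.Lib.Helper44.NegPairs.oddQ d F)
    (by rw [Module.finrank_fintype_fun_eq_card, hcard]; omega)
    (by rw [Module.finrank_fintype_fun_eq_card, Module.finrank_fintype_fun_eq_card, hcard,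
          hcardI]; exact hlt) hSN hSQ
  obtain ⟨g, hgiso, hgcp, hgr⟩ := Cfsg.Agent.Lib.Helper44.OExt.exists_ext
    (Cfsg.Agent.Lib.Helper44.NegPairs.oddQ d F) N s hNdet hsN r hr.pos hsr j hj
    (by rw [hcard, hcardI]; omega)
  have hr0 : (r : F) ≠ 0 := by
    rw [Ne, CharP.cast_eq_zero_iff F p]
    intro h
    exact hrp ((Nat.prime_dvd_prime_iff_eq (Fact.out : p.Prime) hr).mp h).symm
  have hgrM : (g : Matrix (I d) (I d) F) ^ r = 1 := by
    rw [← Units.val_pow_eq_pow_val, hgr]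
    rfl
  have hLp : Prime (X - C (1 : F)) := (irreducible_X_sub_C 1).prime
  have hfix : Module.finrank F ↥(Fx (g : Matrix (I d) (I d) F)) = (2 * d + 1) % c0 := by
    rw [finrank_Fx _ r hr0 hgrM, hgcp, hsc, hcard, hcardI]
    have hc'0 : c' ≠ 0 := by
      intro h
      exact hnd (h ▸ dvd_zero _)
    have hne : (X - C (1 : F)) ^ (2 * d + 1 - b * c0) * c' ^ b ≠ 0 :=
      mul_ne_zero (pow_ne_zero _ (X_sub_C_ne_zero 1)) (pow_ne_zero _ hc'0)
    rw [rootMultiplicity_mul hne, rootMultiplicity_X_sub_C_pow]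
    have h3 : rootMultiplicity 1 (c' ^ b) = 0 := by
      apply rootMultiplicity_eq_zero
      intro hroot
      have h4 : (X - C (1 : F)) ∣ c' ^ b := dvd_iff_isRoot.mpr hroot
      exact hnd (hLp.dvd_of_dvd_pow h4)
    rw [h3]
    omega
  have hg1 : g ≠ 1 := by
    intro h
    rw [h] at hfix
    have h3 : Fx ((1 : Matrix.GeneralLinearGroup (I d) F) : Matrix (I d) (I d) F) = ⊤ := by
      rw [eq_top_iff]
      intro v _
      rw [mem_Fx]
      simp
    rw [h3, finrank_top, Module.finrank_fintype_fun_eq_card, hcardI] at hfix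
    have := Nat.mod_lt (2 * d + 1) hc0pos
    omega
  refine ⟨g, ?_, orderOf_eq_prime hgr hg1, hfix⟩
  obtain ⟨a, ha⟩ := hrodd
  obtain ⟨g', hg'⟩ : ∃ g' : ↥(Cfsg.isometryGroup F ⇑(Cfsg.Agent.Lib.Helper44.NegPairs.oddQ d F)),
      g' = ⟨g, hgiso⟩ := ⟨_, rfl⟩
  have hg'r : g' ^ r = 1 := by
    apply Subtype.ext
    rw [Subgroup.coe_pow, hg']
    exact hgr
  have hsq : g' = g' ^ (a + 1) * g' ^ (a + 1) := by
    rw [← pow_add]
    have h3 : a + 1 + (a + 1) = r + 1 := by omega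
    rw [h3, pow_succ, hg'r, one_mul]
  have hmem : g' ∈ Cfsg.Omega F ⇑(Cfsg.Agent.Lib.Helper44.NegPairs.oddQ d F) := by
    rw [hsq]
    exact Cfsg.Agent.Lib.Helper14.OrthIndex.sq_mem_omega h2
      (Cfsg.Agent.Lib.Helper44.NegPairs.oddQ d F) hSQ (by rw [hcardI]; omega) _
  exact Subgroup.mem_map.mpr ⟨g', hmem, by rw [hg']; rfl⟩

end Cfsg.Agent.Lib.Helper59.HypDERELT
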