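import Mathlib
import Cfsg.Agent.Lib.Helper16.P2pStmt
import Cfsg.Agent.Lib.Helper76.GaloisConj

/-! Piece [INTV] of S4707: the character `χ` of degree `p - 1` has integer values. -/

set_option autoImplicit false

namespace Cfsg.Agent.Lib.Helper59.P2INTV

open Cfsg Subgroup MulAction
open Cfsg.Agent.Lib.CT.Wedderburn
open Cfsg.Agent.Lib.Helper17.ExcMain Cfsg.Agent.Lib.Helper17.ExcCor
open Cfsg.Agent.Lib.Helper16.P2pStmt
open scoped ComplexConjugate

universe u

theorem main : Cfsg.Agent.Lib.Helper16.P2pStmt.IntV.{u} := by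
  intro hRat G _ _ _ P p hp hp5 hP n θ χ i₀ hE hdχ hdθ
  obtain ⟨hn, hθinj, hother, hε, hδ, hχT, hθχ, hθT, ⟨a, ha⟩, heq, hθvan, hθone, hform⟩ := hE
  apply hRat G (χ : G → ℂ) (isCharacter_of_irr χ.2)
  intro k hk g
  have hψ : IsIrrCharacter G (fun g => (χ : G → ℂ) (g ^ k)) :=
    Cfsg.Agent.Lib.Helper76.GaloisConj.isIrrCharacter_pow χ.2 k hk
  obtain ⟨ψ, hψdef⟩ : ∃ ψ : IrrCharacter G, (ψ : G → ℂ) = fun g => (χ : G → ℂ) (g ^ k) :=
    ⟨⟨_, hψ⟩, rfl⟩
  have hψdeg : charDegree (ψ : G → ℂ) = p - 1 := by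
    have h1 : (ψ : G → ℂ) 1 = (χ : G → ℂ) 1 := by rw [hψdef]; simp
    rw [deg_eq, deg_eq, hdχ] at h1
    exact_mod_cast h1
  have hdT : charDegree ((trivIrr G : IrrCharacter G) : G → ℂ) = 1 := by
    have h1 := deg_eq (trivIrr G)
    rw [trivIrr_apply] at h1
    exact_mod_cast h1.symm
  have hψχ : ψ = χ := by
    by_contra hne
    by_cases hT : ψ = trivIrr G
    · rw [hT, hdT] at hψdeg
      omega
    · by_cases hθ : ∃ i, θ i = ψ
      · obtain ⟨i, hi⟩ := hθ
        have h2 : charDegree ((θ i : IrrCharacter G) : G → ℂ) = p - 2 := by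
          unfold charDegree
          rw [hθone i i₀]
          exact hdθ
        rw [← hi, h2] at hψdeg
        omega
      · push Not at hθ
        obtain ⟨b, hb⟩ := hother ψ hT hne hθ
        rw [hψdeg] at hb
        push_cast [Nat.cast_sub hp.one_lt.le] at hb
        have h3 : (p : ℤ) ∣ 1 := ⟨1 - b, by linarith⟩
        have h4 := Int.le_of_dvd one_pos h3
        omega
  have h5 := congrFun hψdef g
  rw [hψχ] at h5
  exact h5.symm

end Cfsg.Agent.Lib.Helper59.P2INTV
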