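import Mathlib
import Cfsg.Agent.Lib.Helper16.P2pStmt
import Cfsg.Agent.S0137

/-! Piece [XCARD] of S4707: the order of the group from the moment argument. -/

set_option autoImplicit false

namespace Cfsg.Agent.Lib.Helper59.P2XCARD

open Cfsg Subgroup MulAction
open Cfsg.Agent.Lib.CT.Wedderburn Cfsg.Agent.Lib.CT.Orth
open Cfsg.Agent.Lib.Helper17.ExcMain Cfsg.Agent.Lib.Helper17.ExcCor
open Cfsg.Agent.Lib.Helper16.P2pStmt
open scoped ComplexConjugate

universe u

/-- The values of a character are bounded by its degree. -/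
theorem norm_le_one {G : Type u} [Group G] [Finite G] {χ : G → ℂ} (hχ : IsCharacter G χ)
    (g : G) : ‖χ g‖ ≤ (χ 1).re := by
  obtain ⟨n, ρ, rfl⟩ := hχ
  rw [Representation.char_one]
  simp only [Complex.natCast_re]
  exact Cfsg.Agent.S0137.result ρ g

theorem main : Cfsg.Agent.Lib.Helper16.P2pStmt.XCard.{u} := by
  intro hCube hIntV hRat hCnt hMom G _ _ _ P p hp hp5 hP hN n θ χ i₀ hE hdχ hdθ hfaith
  classical
  have hint := hIntV hRat G P p hp hp5 hP n θ χ i₀ hE hdχ hdθ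
  have hcube := hCube G P p hp hp5 hP n θ χ i₀ hE hdχ hdθ
  have hcnt := hCnt G P p hp hP hN
  obtain ⟨hn, hθinj, hother, hε, hδ, hχT, hθχ, hθT, ⟨a, ha⟩, heq, hθvan, hθone, hform⟩ := hE
  choose c hc using hint
  have hGne : (Nat.card G : ℂ) ≠ 0 := Nat.cast_ne_zero.mpr Nat.card_pos.ne'
  have hχ1 : (χ : G → ℂ) 1 = ((p - 1 : ℕ) : ℂ) := by rw [deg_eq, hdχ]
  have hc1 : c 1 = (p : ℤ) - 1 := by
    have h1 : ((c 1 : ℤ) : ℂ) = (((p : ℤ) - 1 : ℤ) : ℂ) := by
      rw [← hc 1, hχ1]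
      push_cast [Nat.cast_sub hp.one_lt.le]
      ring
    exact_mod_cast h1
  have hcle : ∀ g, c g ≤ (p : ℤ) - 1 := by
    intro g
    have h1 := norm_le_one (isCharacter_of_irr χ.2) g
    rw [hc g, hχ1] at h1
    have h2 : ‖((c g : ℤ) : ℂ)‖ = |(c g : ℝ)| := by
      rw [← Complex.ofReal_intCast, Complex.norm_real]
      rfl
    simp only [Complex.natCast_re] at h1
    rw [h2] at h1
    have h3 : (c g : ℝ) ≤ ((p - 1 : ℕ) : ℝ) := le_trans (le_abs_self _) h1
    have h4 : (c g : ℝ) ≤ (((p : ℤ) - 1 : ℤ) : ℝ) := by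
      push_cast [Nat.cast_sub hp.one_lt.le] at h3 ⊢
      linarith
    exact_mod_cast h4
  have hfaith' : ∀ g, c g = (p : ℤ) - 1 → g = 1 := by
    intro g hg
    apply hfaith
    rw [hc g, hc 1, hg, hc1]
  have hP1 : ∀ y ∈ P, y ≠ 1 → (χ : G → ℂ) y = -1 := by
    intro y hy hy1
    have h1 := hform y hy hy1 (fun ψ => if ψ = χ then 1 else 0)
      (by intro i j; rw [if_neg (hθχ i), if_neg (hθχ j)])
    have h2 : ∑ ψ : IrrCharacter G, (if ψ = χ then (1 : ℂ) else 0) * conj ((ψ : G → ℂ) y)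
        = conj ((χ : G → ℂ) y) := by
      rw [Finset.sum_eq_single χ]
      · rw [if_pos rfl, one_mul]
      · intro ψ _ hψ
        rw [if_neg hψ, zero_mul]
      · intro h
        exact absurd (Finset.mem_univ _) h
    rw [h2, if_neg hχT.symm, if_pos rfl, if_neg (hθχ i₀)] at h1
    have h3 : conj ((χ : G → ℂ) y) = -1 := by
      rw [h1]
      push_cast
      ring
    have h4 := congrArg conj h3
    rw [Complex.conj_conj, map_neg, map_one] at h4
    exact h4
  have hcl := irr_isClassFunction χ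
  have hconjP : ∀ g, g ≠ 1 → (∃ u : G, u⁻¹ * g * u ∈ P) → c g = -1 := by
    intro g hg1 ⟨u, hu⟩
    have h1 : (χ : G → ℂ) (u⁻¹ * g * u) = (χ : G → ℂ) g := by
      have := hcl g u⁻¹
      rwa [inv_inv] at this
    have h2 : u⁻¹ * g * u ≠ 1 := by
      intro h
      apply hg1
      have h3 : g = u * (u⁻¹ * g * u) * u⁻¹ := by group
      rw [h3, h]
      group
    have h3 := hP1 _ hu h2
    rw [h1, hc g] at h3
    have h4 : ((c g : ℤ) : ℂ) = ((-1 : ℤ) : ℂ) := by rw [h3]; push_cast; ring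
    exact_mod_cast h4
  have hcount : Nat.card {g : G // g ≠ 1 ∧ ∃ u : G, u⁻¹ * g * u ∈ P}
      ≤ Nat.card {g : G // c g = -1} :=
    Nat.card_le_card_of_injective (fun g => ⟨g.1, hconjP g.1 g.2.1 g.2.2⟩)
      (by
        intro a b h
        have h' : (a : G) = (b : G) := congrArg (fun z : {g : G // c g = -1} => (z : G)) h
        exact Subtype.ext h')
  have hconjc : ∀ g, conj ((χ : G → ℂ) g) = (χ : G → ℂ) g := by
    intro g
    rw [hc g]
    exact map_intCast (starRingEnd ℂ) (c g)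
  have hsum1 : ∑ g, c g = 0 := by
    have h1 := irr_orthonormal χ (trivIrr G)
    rw [if_neg hχT] at h1
    unfold classInner at h1
    have h2 : ∑ g : G, (χ : G → ℂ) g * conj (((trivIrr G : IrrCharacter G) : G → ℂ) g) = 0 := by
      rcases mul_eq_zero.mp h1 with h | h
      · exact absurd (inv_eq_zero.mp h) hGne
      · exact h
    have h3 : ((∑ g, c g : ℤ) : ℂ) = 0 := by
      rw [← h2]
      push_cast
      apply Finset.sum_congr rfl
      intro g _
      rw [trivIrr_apply, map_one, mul_one, hc g]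
    exact_mod_cast h3
  have hsum2 : ∑ g, c g ^ 2 = (Nat.card G : ℤ) := by
    have h1 := irr_orthonormal χ χ
    rw [if_pos rfl] at h1
    unfold classInner at h1
    have h2 : ∑ g : G, (χ : G → ℂ) g * conj ((χ : G → ℂ) g) = (Nat.card G : ℂ) := by
      have h3 : (Nat.card G : ℂ) * ((Nat.card G : ℂ)⁻¹ *
          ∑ g : G, (χ : G → ℂ) g * conj ((χ : G → ℂ) g)) = (Nat.card G : ℂ) * 1 := by
        rw [h1]
      rw [← mul_assoc, mul_inv_cancel₀ hGne, one_mul, mul_one] at h3
      exact h3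
    have h3 : ((∑ g, c g ^ 2 : ℤ) : ℂ) = ((Nat.card G : ℤ) : ℂ) := by
      push_cast
      rw [← h2]
      apply Finset.sum_congr rfl
      intro g _
      rw [hconjc g, hc g]
      ring
    exact_mod_cast h3
  have hsum3 : ∑ g, c g ^ 3 = (Nat.card G : ℤ) := by
    have h3 : ((∑ g, c g ^ 3 : ℤ) : ℂ) = ((Nat.card G : ℤ) : ℂ) := by
      push_cast
      rw [← hcube]
      apply Finset.sum_congr rfl
      intro g _
      rw [hc g]
    exact_mod_cast h3
  refine hMom G p hp5 c hc1 hcle hfaith' ?_ hsum1 hsum2 hsum3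
  have h1 : (p - 1) * Nat.card G ≤ 2 * p * Nat.card {g : G // c g = -1} :=
    le_trans hcnt (Nat.mul_le_mul_left _ hcount)
  have h2 : (((p - 1) * Nat.card G : ℕ) : ℤ) ≤ ((2 * p * Nat.card {g : G // c g = -1} : ℕ) : ℤ) := by
    exact_mod_cast h1
  push_cast [Nat.cast_sub hp.one_lt.le] at h2
  linarith

end Cfsg.Agent.Lib.Helper59.P2XCARD
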