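import Mathlib
import Cfsg.Agent.Lib.Helper24.ExStmt

/-!
# S5877 / EIG: eigenspaces of non-scalar elements of `R ⊔ Sc` have dimension `≤ n / r`.
-/

set_option autoImplicit false

namespace Cfsg.Agent.Lib.Helper59.ExEIG

open Cfsg Cfsg.Agent.Lib.Helper24.ExStmt

universe u

theorem sum_finrank_le {K : Type*} {V : Type*} [Field K] [AddCommGroup V] [Module K V]
    [FiniteDimensional K V] {ι : Type*} [Fintype ι] (p : ι → Submodule K V) (h : iSupIndep p) :
    ∑ i, Module.finrank K (p i) ≤ Module.finrank K V := by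
  classical
  have hinj := h.dfinsupp_lsum_injective
  have h1 := LinearMap.finrank_le_finrank_of_injective hinj
  have h2 : Module.finrank K (Π₀ i, p i) = ∑ i, Module.finrank K (p i) :=
    Module.finrank_directSum (R := K) (fun i => p i)
  omega

theorem main : BasA.{u} → EigBound.{u} := by
  intro hA F _ _ n r R S a ha hns c
  obtain ⟨h1, h2, h3⟩ := hA F n r R S
  have hrp := S.hr
  have : Fact r.Prime := ⟨hrp⟩
  have hn : n ≠ 0 := by
    rintro rfl
    apply hns
    have : a = 1 := Units.ext (Matrix.ext (fun i => i.elim0))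
    rw [this]; exact one_mem _
  obtain ⟨y, hy, hya⟩ : ∃ y ∈ R, a * y ≠ y * a := by
    by_contra hcon
    apply hns
    apply h1 a
    intro y hy
    by_contra hne
    exact hcon ⟨y, hy, hne⟩
  have hyRZ : y ∈ R ⊔ Sc n F := Subgroup.mem_sup_left hy
  obtain ⟨hzsc, -⟩ := h2 y hyRZ a ha
  have hcen : ∀ w ∈ Sc n F, ∀ g : GLn n F, w * g = g * w := by
    intro w hw g
    obtain ⟨t, ht⟩ := (Cfsg.Geo.mem_scalars_iff w).1 hw
    apply Units.ext
    simp only [Units.val_mul, ht]
    rw [Matrix.smul_mul, Matrix.mul_smul, one_mul, mul_one]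
  obtain ⟨z, hz⟩ : ∃ z, z = y * a * y⁻¹ * a⁻¹ := ⟨_, rfl⟩
  rw [← hz] at hzsc
  have hzc := hcen z hzsc
  have hya' : y * a = z * a * y := by rw [hz]; group
  have hz1 : z ≠ 1 := by
    intro h
    rw [h, one_mul] at hya'
    exact hya hya'.symm
  have hpow : ∀ k : ℕ, y ^ k * a = z ^ k * a * y ^ k := by
    intro k
    induction k with
    | zero => simp
    | succ k ih =>
      calc y ^ (k+1) * a = y ^ k * (y * a) := by rw [pow_succ, mul_assoc]
        _ = y ^ k * (z * a * y) := by rw [hya']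
        _ = (y ^ k * z) * a * y := by simp only [mul_assoc]
        _ = (z * y ^ k) * a * y := by rw [hzc]
        _ = z * (y ^ k * a) * y := by simp only [mul_assoc]
        _ = z * (z ^ k * a * y ^ k) * y := by rw [ih]
        _ = z ^ (k+1) * a * y ^ (k+1) := by rw [pow_succ' z, pow_succ y]; simp only [mul_assoc]
  have hzr : z ^ r = 1 := by
    have e1 := hpow r
    have e2 := hcen (y ^ r) (h3 y hyRZ) a
    rw [e2] at e1
    have e3 : 1 * (a * y ^ r) = z ^ r * (a * y ^ r) := by rw [one_mul, ← mul_assoc]; exact e1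
    exact (mul_right_cancel e3).symm
  obtain ⟨ζ, hζ⟩ := (Cfsg.Geo.mem_scalars_iff z).1 hzsc
  have hζ1 : ζ ≠ 1 := by
    intro h
    apply hz1
    apply Units.ext
    rw [hζ, h]
    simp
  have hζr : ζ ^ r = 1 := by
    have e1 : ((z ^ r : GLn n F) : Matrix (Fin n) (Fin n) F) = 1 := by rw [hzr]; rfl
    rw [Units.val_pow_eq_pow_val, hζ, smul_pow, one_pow] at e1
    have e2 := congrFun (congrFun e1 ⟨0, Nat.pos_of_ne_zero hn⟩) ⟨0, Nat.pos_of_ne_zero hn⟩
    simp only [Matrix.smul_apply, Matrix.one_apply_eq, smul_eq_mul, mul_one] at e2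
    apply Units.ext
    simpa using e2
  have hord : orderOf (ζ⁻¹ : Fˣ) = r := by
    rw [orderOf_inv]
    exact orderOf_eq_prime hζr hζ1
  -- matrix identity
  have hmat : (a : Matrix (Fin n) (Fin n) F) * (y : Matrix (Fin n) (Fin n) F)
      = ((ζ⁻¹ : Fˣ) : F) • ((y : Matrix (Fin n) (Fin n) F) * (a : Matrix (Fin n) (Fin n) F)) := by
    have e1 := congrArg (fun g : GLn n F => (g : Matrix (Fin n) (Fin n) F)) hya'
    simp only [Units.val_mul, hζ] at e1
    rw [e1, Matrix.smul_mul, Matrix.smul_mul, one_mul, smul_smul]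
    rw [Units.inv_mul, one_smul]
  obtain ⟨L, hL⟩ : ∃ L, L = Matrix.toLin' (a : Matrix (Fin n) (Fin n) F) := ⟨_, rfl⟩
  have hLv : ∀ v : Fin n → F, L v = (a : Matrix (Fin n) (Fin n) F).mulVec v := by
    intro v
    rw [hL, Matrix.toLin'_apply]
  have key : ∀ μ : F, Module.finrank F (Module.End.eigenspace L μ)
      ≤ Module.finrank F (Module.End.eigenspace L (((ζ⁻¹ : Fˣ) : F) * μ)) := by
    intro μ
    have hmem : ∀ v : Module.End.eigenspace L μ,
        (Matrix.toLin' (y : Matrix (Fin n) (Fin n) F)) (v : Fin n → F)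
          ∈ Module.End.eigenspace L (((ζ⁻¹ : Fˣ) : F) * μ) := by
      intro v
      have hv := Module.End.mem_eigenspace_iff.1 v.2
      rw [hLv] at hv
      rw [Module.End.mem_eigenspace_iff, hLv, Matrix.toLin'_apply,
        Matrix.mulVec_mulVec, hmat, Matrix.smul_mulVec, ← Matrix.mulVec_mulVec, hv,
        Matrix.mulVec_smul, smul_smul]
    let φ : Module.End.eigenspace L μ →ₗ[F] Module.End.eigenspace L (((ζ⁻¹ : Fˣ) : F) * μ) :=
      LinearMap.codRestrict _ ((Matrix.toLin' (y : Matrix (Fin n) (Fin n) F)).comp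
        (Submodule.subtype _)) hmem
    apply LinearMap.finrank_le_finrank_of_injective (f := φ)
    intro v w hvw
    have e1 : (Matrix.toLin' (y : Matrix (Fin n) (Fin n) F)) (v : Fin n → F)
        = (Matrix.toLin' (y : Matrix (Fin n) (Fin n) F)) (w : Fin n → F) :=
      congrArg Subtype.val hvw
    rw [Matrix.toLin'_apply, Matrix.toLin'_apply] at e1
    have e2 := congrArg (fun x => ((y⁻¹ : GLn n F) : Matrix (Fin n) (Fin n) F).mulVec x) e1
    simp only [Matrix.mulVec_mulVec] at e2
    rw [← Units.val_mul, inv_mul_cancel] at e2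
    simp only [Units.val_one, Matrix.one_mulVec] at e2
    exact Subtype.ext e2
  show r * Module.finrank F (Module.End.eigenspace
    (Matrix.toLin' (a : Matrix (Fin n) (Fin n) F)) c) ≤ n
  rw [← hL]
  by_cases hc : c = 0
  · subst hc
    have hbot : Module.End.eigenspace L 0 = ⊥ := by
      rw [eq_bot_iff]
      intro v hv
      have hv' := Module.End.mem_eigenspace_iff.1 hv
      rw [hLv, zero_smul] at hv'
      have e2 := congrArg (fun x => ((a⁻¹ : GLn n F) : Matrix (Fin n) (Fin n) F).mulVec x) hv'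
      simp only [Matrix.mulVec_mulVec] at e2
      rw [← Units.val_mul, inv_mul_cancel] at e2
      simp only [Units.val_one, Matrix.one_mulVec, Matrix.mulVec_zero] at e2
      rw [Submodule.mem_bot]
      exact e2
    rw [hbot, finrank_bot]
    simp
  · have chain : ∀ j : ℕ, Module.finrank F (Module.End.eigenspace L c)
        ≤ Module.finrank F (Module.End.eigenspace L ((((ζ⁻¹ : Fˣ) ^ j : Fˣ) : F) * c)) := by
      intro j
      induction j with
      | zero => rw [pow_zero, Units.val_one, one_mul]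
      | succ j ih =>
        refine ih.trans ?_
        have := key ((((ζ⁻¹ : Fˣ) ^ j : Fˣ) : F) * c)
        rw [← mul_assoc, ← Units.val_mul, ← pow_succ'] at this
        exact this
    let f : Fin r → F := fun j => (((ζ⁻¹ : Fˣ) ^ (j : ℕ) : Fˣ) : F) * c
    have hf : Function.Injective f := by
      intro j k hjk
      have e1 : (((ζ⁻¹ : Fˣ) ^ (j : ℕ) : Fˣ) : F) = (((ζ⁻¹ : Fˣ) ^ (k : ℕ) : Fˣ) : F) :=
        mul_right_cancel₀ hc hjk
      have e2 : (ζ⁻¹ : Fˣ) ^ (j : ℕ) = (ζ⁻¹ : Fˣ) ^ (k : ℕ) := Units.ext e1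
      have hj : (j : ℕ) ∈ Set.Iio (orderOf (ζ⁻¹ : Fˣ)) := by rw [hord]; exact j.2
      have hk : (k : ℕ) ∈ Set.Iio (orderOf (ζ⁻¹ : Fˣ)) := by rw [hord]; exact k.2
      exact Fin.ext (pow_injOn_Iio_orderOf hj hk e2)
    have hind : iSupIndep (fun j : Fin r => Module.End.eigenspace L (f j)) :=
      (Module.End.eigenspaces_iSupIndep L).comp hf
    have hsum := sum_finrank_le _ hind
    rw [Module.finrank_fin_fun] at hsum
    calc r * Module.finrank F (Module.End.eigenspace L c)
        = ∑ _j : Fin r, Module.finrank F (Module.End.eigenspace L c) := by simp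
      _ ≤ ∑ j : Fin r, Module.finrank F (Module.End.eigenspace L (f j)) :=
          Finset.sum_le_sum (fun j _ => chain j)
      _ ≤ n := hsum

end Cfsg.Agent.Lib.Helper59.ExEIG
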