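import Mathlib
import Cfsg.Agent.Lib.Helper96.AltStmt2

/-! Piece [C2] of S5165: two `p`-cycles of a `p`-group moving a common point generate the
same subgroup. -/

set_option autoImplicit false

namespace Cfsg.Agent.Lib.Helper59.AltC2

open Equiv Cfsg.Agent.Lib.Helper96.AltStmt Cfsg.Agent.Lib.Helper96.AltModel
  Cfsg.Agent.Lib.Helper96.AltStmt2

/-- a permutation of `p`-power order moving fewer than `p` points is trivial -/
theorem eq_one_of_small_support {α : Type} [DecidableEq α] [Fintype α] {p : ℕ} [Fact p.Prime]
    (u : Perm α) (e : ℕ) (hu : u ^ p ^ e = 1) (hs : u.support.card < p) : u = 1 := by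
  have hp : p.Prime := Fact.out
  by_contra hne
  have h0 : u.cycleType ≠ 0 := fun h => hne (Perm.cycleType_eq_zero.mp h)
  obtain ⟨n, hn⟩ := Multiset.exists_mem_of_ne_zero h0
  have h1 : n ∣ orderOf u := Perm.dvd_of_mem_cycleType hn
  have h2 : orderOf u ∣ p ^ e := orderOf_dvd_of_pow_eq_one hu
  obtain ⟨i, -, hi⟩ := (Nat.dvd_prime_pow hp).mp (h1.trans h2)
  have h3 : 2 ≤ n := Perm.two_le_of_mem_cycleType hn
  have h4 : p ≤ n := by
    rw [hi]
    rcases Nat.eq_zero_or_pos i with h | h
    · rw [h, pow_zero] at hi
      omega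
    · exact Nat.le_self_pow h.ne' p
  have h5 : n ≤ u.support.card := by
    rw [← Perm.sum_cycleType]
    exact Multiset.le_sum_of_mem hn
  omega

theorem main : Cfsg.Agent.Lib.Helper96.AltStmt2.Cyc2 := by
  intro α _ _ p _ P hP c c' hc hc' hcyc hcard hcyc' hcard' x hx hx'
  classical
  have hp : p.Prime := Fact.out
  have hxs : x ∈ c.support := Perm.mem_support.mpr hx
  have hxs' : x ∈ c'.support := Perm.mem_support.mpr hx'
  -- the subgroup generated by `c` and `c'`
  obtain ⟨H, hHdef⟩ : ∃ H : Subgroup (Perm α), H = Subgroup.closure {c, c'} := ⟨_, rfl⟩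
  have hcH : c ∈ H := by rw [hHdef]; exact Subgroup.subset_closure (by simp)
  have hcH' : c' ∈ H := by rw [hHdef]; exact Subgroup.subset_closure (by simp)
  have hHP : H ≤ P := by
    rw [hHdef, Subgroup.closure_le]
    intro g hg
    rcases hg with rfl | rfl
    · exact hc
    · exact hc'
  have hHp : IsPGroup p H := hP.to_le hHP
  -- the union of the supports is invariant
  have hinv : ∀ h ∈ H, ∀ y, h y ∈ c.support ∪ c'.support ↔ y ∈ c.support ∪ c'.support := by
    intro h hh
    rw [hHdef] at hh
    induction hh using Subgroup.closure_induction with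
    | mem g hg =>
      intro y
      rcases hg with rfl | rfl
      · by_cases hy : y ∈ g.support
        · have h1 : g y ∈ g.support := Perm.apply_mem_support.mpr hy
          simp [Finset.mem_union, hy, h1]
        · rw [Perm.notMem_support.mp hy]
      · by_cases hy : y ∈ g.support
        · have h1 : g y ∈ g.support := Perm.apply_mem_support.mpr hy
          simp [Finset.mem_union, hy, h1]
        · rw [Perm.notMem_support.mp hy]
    | one => intro y; rfl
    | mul a b _ _ iha ihb =>
      intro y
      rw [Perm.mul_apply, iha, ihb]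
    | inv a _ iha =>
      intro y
      have h1 : a (a⁻¹ y) = y := by simp
      rw [← iha (a⁻¹ y), h1]
  -- the orbit of `x`
  have horb_sub : MulAction.orbit H x ⊆ ((c.support ∪ c'.support : Finset α) : Set α) := by
    rintro y ⟨h, rfl⟩
    have h1 := (hinv h.1 h.2 x).mpr (Finset.mem_union_left _ hxs)
    exact h1
  have hsupp_sub : ((c.support : Finset α) : Set α) ⊆ MulAction.orbit H x := by
    intro y hy
    obtain ⟨i, hi⟩ := hcyc.sameCycle hx (Perm.mem_support.mp hy)
    exact ⟨⟨c ^ i, H.zpow_mem hcH i⟩, hi⟩
  have hsupp_sub' : ((c'.support : Finset α) : Set α) ⊆ MulAction.orbit H x := by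
    intro y hy
    obtain ⟨i, hi⟩ := hcyc'.sameCycle hx' (Perm.mem_support.mp hy)
    exact ⟨⟨c' ^ i, H.zpow_mem hcH' i⟩, hi⟩
  obtain ⟨n, hn⟩ := hHp.card_orbit x
  have hncard : (MulAction.orbit H x).ncard = p ^ n := by
    rw [← hn]
    rfl
  have hle : p ≤ (MulAction.orbit H x).ncard := by
    have h1 := Set.ncard_le_ncard hsupp_sub (Set.toFinite _)
    rw [Set.ncard_coe_finset, hcard] at h1
    exact h1
  have hub : (MulAction.orbit H x).ncard ≤ 2 * p - 1 := by
    have h1 := Set.ncard_le_ncard horb_sub (Set.toFinite _)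
    rw [Set.ncard_coe_finset] at h1
    have h2 := Finset.card_union_add_card_inter c.support c'.support
    have h3 : 1 ≤ (c.support ∩ c'.support).card :=
      Finset.card_pos.mpr ⟨x, Finset.mem_inter.mpr ⟨hxs, hxs'⟩⟩
    omega
  have horbp : (MulAction.orbit H x).ncard = p := by
    have hle' : p ≤ p ^ n := by rw [← hncard]; exact hle
    have hub' : p ^ n ≤ 2 * p - 1 := by rw [← hncard]; exact hub
    rw [hncard]
    have hn1 : n = 1 := by
      by_contra hne
      rcases Nat.lt_or_gt_of_ne hne with h | h
      · have h0 : n = 0 := by omega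
        rw [h0, pow_zero] at hle'
        have := hp.two_le
        omega
      · have h2 : p ^ 2 ≤ p ^ n := Nat.pow_le_pow_right hp.pos h
        have h3 : p ^ 2 = p * p := by ring
        have h4 : 2 * p ≤ p * p := Nat.mul_le_mul_right p hp.two_le
        have h5 := hp.two_le
        omega
    rw [hn1, pow_one]
  have heq : ((c.support : Finset α) : Set α) = MulAction.orbit H x := by
    apply Set.eq_of_subset_of_ncard_le hsupp_sub _ (Set.toFinite _)
    rw [Set.ncard_coe_finset, hcard, horbp]
  have heq' : ((c'.support : Finset α) : Set α) = MulAction.orbit H x := by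
    apply Set.eq_of_subset_of_ncard_le hsupp_sub' _ (Set.toFinite _)
    rw [Set.ncard_coe_finset, hcard', horbp]
  have hss : c.support = c'.support := by
    apply Finset.coe_injective
    rw [heq, heq']
  -- a power of `c` agreeing with `c'` at `x`
  have hc'x : c' x ∈ c.support := by
    rw [hss]
    exact Perm.apply_mem_support.mpr hxs'
  obtain ⟨i, hi⟩ := hcyc.sameCycle hx (Perm.mem_support.mp hc'x)
  obtain ⟨u, hudef⟩ : ∃ u : Perm α, u = (c ^ i)⁻¹ * c' := ⟨_, rfl⟩
  have huP : u ∈ P := by
    rw [hudef]
    exact P.mul_mem (P.inv_mem (P.zpow_mem hc i)) hc'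
  have hux : u x = x := by
    rw [hudef, Perm.mul_apply, ← hi]
    simp
  have husupp : u.support ⊆ c.support.erase x := by
    intro y hy
    rw [Finset.mem_erase]
    refine ⟨fun h => ?_, ?_⟩
    · rw [h] at hy
      exact (Perm.mem_support.mp hy) hux
    · by_contra hyc
      have h1 : c' y = y := Perm.notMem_support.mp (by rw [← hss]; exact hyc)
      have h2 : (c ^ i) y = y := Perm.zpow_apply_eq_self_of_apply_eq_self
        (Perm.notMem_support.mp hyc) i
      have h3 : u y = y := by
        rw [hudef, Perm.mul_apply, h1, Perm.inv_eq_iff_eq, h2]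
      exact (Perm.mem_support.mp hy) h3
  have hucard : u.support.card < p := by
    have h1 := Finset.card_le_card husupp
    rw [Finset.card_erase_of_mem hxs, hcard] at h1
    have := hp.two_le
    omega
  obtain ⟨e, he⟩ := hP ⟨u, huP⟩
  have he' : u ^ p ^ e = 1 := by
    have := congrArg Subtype.val he
    simpa using this
  have hu1 := eq_one_of_small_support u e he' hucard
  rw [hudef] at hu1
  have hfin : c' = c ^ i := by
    have h1 : (c ^ i) * ((c ^ i)⁻¹ * c') = c ^ i * 1 := by rw [hu1]
    rw [mul_inv_cancel_left, mul_one] at h1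
    exact h1
  rw [hfin]
  exact Subgroup.zpow_mem_zpowers c i

end Cfsg.Agent.Lib.Helper59.AltC2
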