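import Mathlib
import Cfsg.Agent.Lib.Helper96.AltStmt2

/-! Piece [SYL] of S5165: a maximal `p`-subgroup of `Perm α` (`p` odd) gives a Sylow
`p`-subgroup of the alternating group. -/

set_option autoImplicit false

namespace Cfsg.Agent.Lib.Helper59.AltSYL

open Equiv Cfsg.Agent.Lib.Helper96.AltStmt Cfsg.Agent.Lib.Helper96.AltModel
  Cfsg.Agent.Lib.Helper96.AltStmt2

/-- a `p`-element of `Perm α` is even for odd `p` -/
theorem sign_eq_one_of_pow {α : Type} [DecidableEq α] [Fintype α] {p : ℕ} [Fact p.Prime]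
    (hp2 : p ≠ 2) (g : Perm α) (k : ℕ) (hg : g ^ p ^ k = 1) : Perm.sign g = 1 := by
  have hp : p.Prime := Fact.out
  have hodd : Odd (p ^ k) := (hp.odd_of_ne_two hp2).pow
  have h1 : Perm.sign g ^ p ^ k = 1 := by rw [← map_pow, hg, map_one]
  rcases Int.units_eq_one_or (Perm.sign g) with h | h
  · exact h
  · rw [h, hodd.neg_one_pow] at h1
    exact absurd h1 (by decide)

theorem main : Cfsg.Agent.Lib.Helper96.AltStmt2.SylOfPerm := by
  intro α _ _ p _ hp2 S hS hmax
  have hSA : S ≤ alternatingGroup α := by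
    intro g hg
    obtain ⟨k, hk⟩ := hS ⟨g, hg⟩
    have hk' : g ^ p ^ k = 1 := by
      have := congrArg Subtype.val hk
      simpa using this
    exact Perm.mem_alternatingGroup.mpr (sign_eq_one_of_pow hp2 g k hk')
  have hpg : IsPGroup p (S.subgroupOf (alternatingGroup α)) := hS.comap_subtype
  refine ⟨⟨S.subgroupOf (alternatingGroup α), hpg, ?_⟩, rfl⟩
  intro Q hQ hle
  apply le_antisymm _ hle
  have hQmap : IsPGroup p (Q.map (alternatingGroup α).subtype) := hQ.map _
  have hSle : S ≤ Q.map (alternatingGroup α).subtype := by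
    intro g hg
    exact ⟨⟨g, hSA hg⟩, hle (Subgroup.mem_subgroupOf.mpr hg), rfl⟩
  have h2 := hmax _ hQmap hSle
  intro q hq
  exact Subgroup.mem_subgroupOf.mpr (h2 ⟨q, hq, rfl⟩)

end Cfsg.Agent.Lib.Helper59.AltSYL
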