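import Mathlib
import Cfsg.Agent.Lib.Helper96.AltStmt2
import Cfsg.Agent.Lib.Helper23.AltWP
import Cfsg.Agent.Lib.Helper59.AltSYL

/-! Piece [OR] of S5165: `O_p` of the normalizer of `R2` (for even normalizing elements). -/

set_option autoImplicit false

namespace Cfsg.Agent.Lib.Helper59.AltOR

open Equiv Cfsg.Agent.Lib.Helper96.AltStmt Cfsg.Agent.Lib.Helper96.AltModel
  Cfsg.Agent.Lib.Helper96.AltStmt2

section

variable (p : ℕ) [Fact p.Prime] {Γ Λ E : Type} [DecidableEq Γ] [Fintype Γ]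

theorem xm_inl_inl (c : ZMod p) (γ : Γ) (i j : ZMod p) :
    xm p Λ E (Finset.univ : Finset Γ) c (Sum.inl (Sum.inl (γ, i), j)) =
      Sum.inl (Sum.inl (γ, i + c * j), j) := by
  show (if γ ∈ (Finset.univ : Finset Γ) then _ else _) = _
  rw [if_pos (Finset.mem_univ γ)]

theorem xm_inl_inr (c : ZMod p) (l : Λ) (j : ZMod p) :
    xm p Λ E (Finset.univ : Finset Γ) c (Sum.inl (Sum.inr l, j)) = Sum.inl (Sum.inr l, j) := rfl

theorem xm_inr (c : ZMod p) (x : E) :
    xm p Λ E (Finset.univ : Finset Γ) c (Sum.inr x) = Sum.inr x := rfl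

theorem xm_mul (c c' : ZMod p) :
    xm p Λ E (Finset.univ : Finset Γ) c * xm p Λ E (Finset.univ : Finset Γ) c' =
      xm p Λ E (Finset.univ : Finset Γ) (c + c') := by
  ext x
  rcases x with ⟨⟨γ, i⟩ | l, j⟩ | x
  · simp only [Perm.mul_apply, xm_inl_inl]
    have : i + c' * j + c * j = i + (c + c') * j := by ring
    rw [this]
  · rfl
  · rfl

theorem xm_zero : xm p Λ E (Finset.univ : Finset Γ) 0 = 1 := by
  ext x
  rcases x with ⟨⟨γ, i⟩ | l, j⟩ | x
  · rw [xm_inl_inl, zero_mul, add_zero]; rfl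
  · rfl
  · rfl

theorem xm_pow (c : ZMod p) (n : ℕ) :
    xm p Λ E (Finset.univ : Finset Γ) c ^ n = xm p Λ E (Finset.univ : Finset Γ) (n * c) := by
  induction n with
  | zero => rw [pow_zero, Nat.cast_zero, zero_mul, xm_zero]
  | succ n ih => rw [pow_succ, ih, xm_mul, Nat.cast_succ, add_mul, one_mul]

theorem xm_inv (c : ZMod p) :
    (xm p Λ E (Finset.univ : Finset Γ) c)⁻¹ = xm p Λ E (Finset.univ : Finset Γ) (-c) := by
  rw [inv_eq_iff_mul_eq_one, xm_mul, add_neg_cancel, xm_zero]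

theorem xm_conj (c : ZMod p) (e f : Γ → ZMod p) (h : Λ → ZMod p) :
    xm p Λ E (Finset.univ : Finset Γ) c * r2 p Λ E e f h *
      (xm p Λ E (Finset.univ : Finset Γ) c)⁻¹ = r2 p Λ E (fun γ => e γ + c * f γ) f h := by
  rw [xm_inv]
  ext x
  rcases x with ⟨⟨γ, i⟩ | l, j⟩ | x
  · simp only [Perm.mul_apply, xm_inl_inl, r2_inl_inl]
    have : i + -c * j + e γ + c * (j + f γ) = i + (e γ + c * f γ) := by ring
    rw [this]
  · simp only [Perm.mul_apply, xm_inl_inr, r2_inl_inr]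
  · rfl

theorem xm_mem_normalizer (c : ZMod p) :
    xm p Λ E (Finset.univ : Finset Γ) c ∈
      Subgroup.normalizer (R2 p Γ Λ E : Set (Perm (Pt p Γ Λ E))) := by
  rw [Subgroup.mem_normalizer_iff]
  intro g
  constructor
  · rintro ⟨e, f, h, rfl⟩
    exact ⟨_, _, _, xm_conj p c e f h⟩
  · rintro ⟨e, f, h, hg⟩
    have h1 : g = (xm p Λ E (Finset.univ : Finset Γ) c)⁻¹ * r2 p Λ E e f h *
        (xm p Λ E (Finset.univ : Finset Γ) c)⁻¹⁻¹ := by
      rw [← hg]
      group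
    rw [h1, xm_inv]
    exact ⟨_, _, _, xm_conj p (-c) e f h⟩

theorem xm_sign [DecidableEq Λ] [Fintype Λ] [DecidableEq E] [Fintype E] (hp2 : p ≠ 2)
    (c : ZMod p) : Perm.sign (xm p Λ E (Finset.univ : Finset Γ) c) = 1 := by
  apply Cfsg.Agent.Lib.Helper59.AltSYL.sign_eq_one_of_pow hp2 _ 1
  rw [pow_one, xm_pow, ZMod.natCast_self, zero_mul, xm_zero]

end

theorem Opp_le_normalizer (p : ℕ) {G : Type} [Group G] (R : Subgroup G) :
    Opp p R ≤ Subgroup.normalizer (R : Set G) := by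
  unfold Opp
  rw [Subgroup.closure_le]
  intro k hk
  exact hk.1

theorem sign_of_mem_Opp (p : ℕ) [Fact p.Prime] (hp : p ≠ 2) {α : Type} [DecidableEq α]
    [Fintype α] (R : Subgroup (Perm α)) {h : Perm α} (hh : h ∈ Opp p R) : Perm.sign h = 1 := by
  induction hh using Subgroup.closure_induction with
  | mem x hx =>
    obtain ⟨-, e, he⟩ := hx
    apply Cfsg.Agent.Lib.Helper59.AltSYL.sign_eq_one_of_pow hp x e
    rw [← he, pow_orderOf_eq_one]
  | one => exact map_one _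
  | mul x y _ _ hx hy => rw [map_mul, hx, hy, mul_one]
  | inv x _ hx => rw [map_inv, hx, inv_one]

theorem main : CoreR2 := by
  intro hMax hDO p _ hp2 Γ Λ E _ _ _ _ _ _ _ hΛ P₂ hP₂ hP₂max P hP hPN hPnorm
  have hp : p.Prime := Fact.out
  have hS0 : IsPGroup p (S0 p Λ E P₂) :=
    Cfsg.Agent.Lib.Helper23.AltWP.main p _ _ _ (Cfsg.Agent.Lib.Helper23.AltWP.main p _ _ P₂ hP₂)
  have hsignS0 : ∀ n ∈ S0 p Λ E P₂, Perm.sign n = 1 := by
    intro n hn
    obtain ⟨k, hk⟩ := hS0 ⟨n, hn⟩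
    have hk' : n ^ p ^ k = 1 := by
      have := congrArg Subtype.val hk
      simpa using this
    exact Cfsg.Agent.Lib.Helper59.AltSYL.sign_eq_one_of_pow hp2 n k hk'
  -- Step A: `P ≤ S0`
  have hPS0 : P ≤ S0 p Λ E P₂ := by
    have hT₀p : IsPGroup p (S0 p Λ E P₂ ⊓
        Subgroup.normalizer (R2 p Γ Λ E : Set (Perm (Pt p Γ Λ E))) :
          Subgroup (Perm (Pt p Γ Λ E))) := hS0.to_le inf_le_left
    have hT₀N : S0 p Λ E P₂ ⊓ Subgroup.normalizer (R2 p Γ Λ E : Set (Perm (Pt p Γ Λ E))) ≤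
        Subgroup.normalizer (P : Set (Perm (Pt p Γ Λ E))) := by
      intro n hn
      rw [Subgroup.mem_normalizer_iff]
      intro x
      constructor
      · intro hx
        exact hPnorm n hn.2 (hsignS0 n hn.1) x hx
      · intro hx
        have hn' := Subgroup.inv_mem _ hn
        have h1 := hPnorm n⁻¹ hn'.2 (hsignS0 _ hn'.1) _ hx
        have h2 : n⁻¹ * (n * x * n⁻¹) * n⁻¹⁻¹ = x := by group
        rwa [h2] at h1
    have hsup := IsPGroup.to_sup_of_normal_right' hT₀p hP hT₀N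
    have h3 := hMax p hp2 Γ Λ E hΛ P₂ hP₂ hP₂max _ hsup (sup_le inf_le_right hPN) le_sup_left
    exact le_trans le_sup_right h3
  -- a unit different from one
  have hu : ∃ u : (ZMod p)ˣ, u ≠ 1 := by
    refine ⟨-1, ?_⟩
    intro h
    have h2 : ((-1 : (ZMod p)ˣ) : ZMod p) = 1 := by rw [h]; rfl
    rw [Units.val_neg, Units.val_one] at h2
    have : Fact (2 < p) := ⟨lt_of_le_of_ne hp.two_le (Ne.symm hp2)⟩
    exact ZMod.neg_one_ne_one h2
  obtain ⟨u, hu⟩ := hu
  -- Step B (i): the permutation of the superblocks is trivial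
  have key : ∀ g ∈ P, ∃ (e : Γ → ZMod p) (b : Blk p Γ Λ → ZMod p),
      g = mk p E (mk p Λ 1 (fun _ => 1) e) (fun _ => 1) b := by
    intro g hg
    obtain ⟨τ, ⟨π, hπ, e, rfl⟩, b, rfl⟩ := hPS0 hg
    have hπ1 : π = 1 := by
      ext γ₀
      by_contra hne
      have hy := hDO p Γ Λ E {γ₀} u
      have hyN := Opp_le_normalizer p _ hy
      have hys : Perm.sign (dd p Λ E {γ₀} u) = 1 := sign_of_mem_Opp p hp2 _ hy
      have h1 := hPnorm _ hyN hys _ hg
      obtain ⟨τ', _, b', h2⟩ := hPS0 h1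
      have h3 : dd p Λ E {γ₀} u * mk p E (mk p Λ π (fun _ => 1) e) (fun _ => 1) b =
          mk p E τ' (fun _ => 1) b' * dd p Λ E {γ₀} u := by
        rw [← h2]; group
      unfold dd at h3
      simp only [mk_mul] at h3
      rw [mk_eq_iff] at h3
      have h4 := congrFun h3.2.1 (Sum.inl (γ₀, 0))
      simp only [mk_inl, Sum.elim_inl, Finset.mem_singleton, if_true, mul_one, one_mul] at h4
      have hne' : ¬ π γ₀ = γ₀ := hne
      rw [if_neg hne'] at h4
      exact hu (inv_eq_one.mp h4.symm)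
    subst hπ1
    exact ⟨e, b, rfl⟩
  -- Step B (ii): the translation part is constant on the superblocks
  intro g hg
  obtain ⟨e, b, rfl⟩ := key g hg
  have hyN := xm_mem_normalizer p (Γ := Γ) (Λ := Λ) (E := E) 1
  have hys := xm_sign p (Γ := Γ) (Λ := Λ) (E := E) hp2 1
  have h1 := hPnorm _ hyN hys _ hg
  obtain ⟨e', b', h2⟩ := key _ h1
  have h3 : xm p Λ E (Finset.univ : Finset Γ) 1 *
      mk p E (mk p Λ 1 (fun _ => 1) e) (fun _ => 1) b =
      mk p E (mk p Λ 1 (fun _ => 1) e') (fun _ => 1) b' *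
        xm p Λ E (Finset.univ : Finset Γ) 1 := by
    rw [← h2]; group
  have hconst : ∀ γ i, b (Sum.inl (γ, i)) = e' γ - e γ := by
    intro γ i
    have h4 := congrArg (fun q : Perm (Pt p Γ Λ E) => q (Sum.inl (Sum.inl (γ, i), 0))) h3
    simp only [Perm.mul_apply, mk_inl, xm_inl_inl, Units.val_one, Perm.coe_one, id_eq,
      Sum.inl.injEq, Prod.mk.injEq] at h4
    linear_combination h4.1.2
  show ∃ (e₁ f₁ : Γ → ZMod p) (h₁ : Λ → ZMod p), _ = r2 p Λ E e₁ f₁ h₁
  refine ⟨e, fun γ => b (Sum.inl (γ, 0)), fun l => b (Sum.inr l), ?_⟩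
  unfold r2
  congr 1
  funext x
  rcases x with ⟨γ, i⟩ | l
  · show b (Sum.inl (γ, i)) = b (Sum.inl (γ, 0))
    rw [hconst γ i, hconst γ 0]
  · rfl

end Cfsg.Agent.Lib.Helper59.AltOR
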