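import Mathlib
import Cfsg.Agent.Lib.Lead.BrHalfStmt

/-!
# S4504 part C, piece SumP: sums over the Sylow subgroup `P = ⟨x⟩`.
-/

set_option autoImplicit false

namespace Cfsg.Agent.Lib.Helper59.BrCSumP

open Cfsg Cfsg.Agent.Lib.Lead
open scoped Classical

universe u

theorem orderOf_x {L : Type u} [Group L] [Fintype L] {p : ℕ} [Fact p.Prime]
    (c : BrHalf.Ctx L p) : orderOf c.x = p := by
  have hp := (Fact.out : p.Prime)
  have h1 : orderOf c.x ∣ p := by
    have := Subgroup.orderOf_dvd_natCard (c.P : Subgroup L) c.hx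
    rwa [c.hP] at this
  rcases (Nat.dvd_prime hp).1 h1 with h | h
  · exact absurd (orderOf_eq_one_iff.1 h) c.hx1
  · exact h

theorem P_eq_zpowers {L : Type u} [Group L] [Fintype L] {p : ℕ} [Fact p.Prime]
    (c : BrHalf.Ctx L p) : (c.P : Subgroup L) = Subgroup.zpowers c.x := by
  symm
  apply Subgroup.eq_of_le_of_card_ge (Subgroup.zpowers_le.2 c.hx)
  rw [c.hP, Nat.card_zpowers, orderOf_x c]

theorem main : BrHalf.SumP.{u} := by
  intro L _ _ p _ c F
  have hp := (Fact.out : p.Prime)
  have hord := orderOf_x c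
  have hzp := P_eq_zpowers c
  rw [← Finset.sum_filter]
  have himg : (Finset.univ.filter (fun u : L => u ∈ (c.P : Subgroup L))) =
      (Finset.range p).image (fun a => c.x ^ a) := by
    ext u
    simp only [Finset.mem_filter, Finset.mem_univ, true_and, Finset.mem_image, Finset.mem_range]
    rw [hzp]
    constructor
    · intro hu
      obtain ⟨k, rfl⟩ := Subgroup.mem_zpowers_iff.1 hu
      refine ⟨(k % (p : ℤ)).toNat, ?_, ?_⟩
      · have h1 : 0 ≤ k % (p : ℤ) := Int.emod_nonneg _ (by exact_mod_cast hp.ne_zero)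
        have h2 : k % (p : ℤ) < p := Int.emod_lt_of_pos _ (by exact_mod_cast hp.pos)
        omega
      · have h1 : 0 ≤ k % (p : ℤ) := Int.emod_nonneg _ (by exact_mod_cast hp.ne_zero)
        rw [← zpow_natCast, Int.toNat_of_nonneg h1]
        have h3 := zpow_mod_orderOf c.x k
        rw [hord] at h3
        exact h3
    · rintro ⟨a, _, rfl⟩
      exact Subgroup.npow_mem_zpowers _ _
  rw [himg, Finset.sum_image]
  intro a ha b hb hab
  have ha' : a < orderOf c.x := by rw [hord]; simpa using ha
  have hb' : b < orderOf c.x := by rw [hord]; simpa using hb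
  exact pow_injOn_Iio_orderOf (by simpa using ha') (by simpa using hb') hab

end Cfsg.Agent.Lib.Helper59.BrCSumP
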