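import Mathlib
import Cfsg.Agent.Lib.Lead.BrHalfStmt
import Cfsg.Agent.Lib.CT.Kernel
import Cfsg.Agent.Lib.CT.Wedderburn
import Cfsg.Agent.Lib.Helper59.BrCSumP

/-!
# S4504 part C, piece CentP: the centre is a `p'`-group.
-/

set_option autoImplicit false

namespace Cfsg.Agent.Lib.Helper59.BrCCentP

open Cfsg Cfsg.Agent.Lib.Lead
open scoped Classical ComplexConjugate Pointwise

universe u

theorem main : BrHalf.CentP.{u} := by
  intro L _ _ p _ c z hz hdvd
  have hp := (Fact.out : p.Prime)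
  have hp5 := c.hp5
  -- a central element `w` of order `p`
  obtain ⟨d, hd⟩ := hdvd
  set w : L := z ^ d with hw
  have hwc : w ∈ Subgroup.center L := Subgroup.pow_mem _ hz d
  have hword : orderOf w = p := by
    have hpos : 0 < orderOf z := orderOf_pos z
    have hd0 : d ≠ 0 := by
      rintro rfl
      rw [mul_zero] at hd
      omega
    have h1 : orderOf w = orderOf z / Nat.gcd (orderOf z) d := orderOf_pow (n := d) z
    rw [h1]
    have h2 : Nat.gcd (orderOf z) d = d := by
      apply Nat.gcd_eq_right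
      exact ⟨p, by rw [hd, mul_comm]⟩
    rw [h2]
    conv_lhs => rw [hd]
    exact Nat.mul_div_cancel _ (Nat.pos_of_ne_zero hd0)
  -- `w ∈ P`
  have hwP : w ∈ (c.P : Subgroup L) := by
    have hpg : IsPGroup p (Subgroup.zpowers w) := by
      apply IsPGroup.of_card (n := 1)
      rw [Nat.card_zpowers, hword, pow_one]
    obtain ⟨Q, hQ⟩ := hpg.exists_le_sylow
    obtain ⟨g, hg⟩ := MulAction.exists_smul_eq L Q c.P
    have h1 : w ∈ (Q : Subgroup L) := hQ (Subgroup.mem_zpowers w)
    have h3 : g * w * g⁻¹ = w := by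
      rw [Subgroup.mem_center_iff.1 hwc g, mul_assoc, mul_inv_cancel, mul_one]
    have h2 : MulAut.conj g • w ∈ MulAut.conj g • (Q : Subgroup L) :=
      Subgroup.smul_mem_pointwise_smul _ _ _ h1
    rw [← Sylow.coe_subgroup_smul, hg, MulAut.smul_def, MulAut.conj_apply, h3] at h2
    exact h2
  -- `x` is central
  have hxc : c.x ∈ Subgroup.center L := by
    have h1 : Subgroup.zpowers w = (c.P : Subgroup L) := by
      apply Subgroup.eq_of_le_of_card_ge (Subgroup.zpowers_le.2 hwP)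
      rw [c.hP, Nat.card_zpowers, hword]
    have h2 : c.x ∈ Subgroup.zpowers w := by rw [h1]; exact c.hx
    exact (Subgroup.zpowers_le.2 hwc) h2
  -- everything is central
  have hall : ∀ g : L, g ∈ Subgroup.center L := by
    intro g
    obtain ⟨a, z', hz', rfl⟩ := c.hC g (Subgroup.mem_center_iff.1 hxc g)
    exact Subgroup.mul_mem _ (Subgroup.pow_mem _ hxc a) hz'
  -- `|ξ g| = e` for all `g`, so `|L| e² = |L|`
  have hchar : IsCharacter L c.ξ := Cfsg.Agent.Lib.CT.Wedderburn.isCharacter_of_irr c.hξ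
  have h1 : c.ξ 1 = (c.e : ℂ) :=
    (Cfsg.Agent.Lib.CT.Wedderburn.char_natCast_charDegree hchar).symm
  have hnorm : ∀ g : L, c.ξ g * conj (c.ξ g) = ((c.e : ℂ)) ^ 2 := by
    intro g
    have hn : ‖c.ξ g‖ = (c.ξ 1).re :=
      Cfsg.Agent.Lib.CT.Kernel.norm_eq_of_mem_center c.hξ (hall g)
    rw [h1] at hn
    rw [Complex.mul_conj, Complex.normSq_eq_norm_sq, hn]
    simp
  have horth := Cfsg.Agent.Lib.CT.Wedderburn.irr_orthonormal
    (⟨c.ξ, c.hξ⟩ : IrrCharacter L) ⟨c.ξ, c.hξ⟩
  rw [if_pos rfl, classInner] at horth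
  simp only [hnorm, Finset.sum_const, Finset.card_univ, nsmul_eq_mul] at horth
  have hne : (Nat.card L : ℂ) ≠ 0 := Nat.cast_ne_zero.mpr Nat.card_pos.ne'
  rw [← Nat.card_eq_fintype_card, ← mul_assoc, inv_mul_cancel₀ hne, one_mul] at horth
  have he : c.e = 1 := by
    have h2 : ((c.e ^ 2 : ℕ) : ℂ) = ((1 : ℕ) : ℂ) := by push_cast; exact horth
    have h3 : c.e ^ 2 = 1 := Nat.cast_injective h2
    exact Nat.eq_one_of_mul_eq_one_left (by rw [← sq]; exact h3)
  have hdeg := c.hdeg
  have he' : charDegree c.ξ = 1 := he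
  omega

end Cfsg.Agent.Lib.Helper59.BrCCentP
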