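import Mathlib
import Cfsg.Agent.Lib.Lead.BrHalfStmt

/-!
# S4504 part C, piece KEx: a Galois exponent exists.
-/

set_option autoImplicit false

namespace Cfsg.Agent.Lib.Helper59.BrCKEx

open Cfsg Cfsg.Agent.Lib.Lead
open scoped Classical

universe u

theorem main : BrHalf.KEx.{u} := by
  intro L _ _ p _ c
  have hp := (Fact.out : p.Prime)
  have hp5 := c.hp5
  obtain ⟨m, hm⟩ : p ∣ Nat.card L := by
    rw [← c.hP]; exact Subgroup.card_subgroup_dvd_card _
  have hpm : ¬ p ∣ m := by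
    intro h
    have h2 : p ^ 2 ∣ Nat.card L := by rw [hm, sq]; exact Nat.mul_dvd_mul_left p h
    have h3 := Sylow.pow_dvd_card_of_pow_dvd_card c.P h2
    rw [c.hP] at h3
    have h4 : p ^ 2 ≤ p := Nat.le_of_dvd hp.pos h3
    nlinarith [hp.two_le]
  obtain ⟨r, hr⟩ : ∃ r : ZMod p, ¬ IsSquare r := by
    apply FiniteField.exists_nonsquare
    rw [ZMod.ringChar_zmod_n]
    omega
  have hcop : Nat.Coprime p m := (Nat.Prime.coprime_iff_not_dvd hp).2 hpm
  obtain ⟨k, hk1, hk2⟩ := Nat.chineseRemainder hcop r.val 1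
  have hkr : ((k : ℕ) : ZMod p) = r := by
    rw [(ZMod.natCast_eq_natCast_iff k r.val p).2 hk1, ZMod.natCast_zmod_val]
  refine ⟨k, ?_, ?_, ?_⟩
  · rw [hm]
    apply Nat.Coprime.mul_right
    · rw [Nat.coprime_comm, Nat.Prime.coprime_iff_not_dvd hp]
      intro hdvd
      have h0 : ((k : ℕ) : ZMod p) = 0 := (ZMod.natCast_eq_zero_iff k p).2 hdvd
      rw [hkr] at h0
      exact hr (h0 ▸ IsSquare.zero)
    · have h1 := Nat.ModEq.gcd_eq hk2
      unfold Nat.Coprime
      rw [h1]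
      exact Nat.gcd_one_left m
  · rw [hkr]; exact hr
  · intro g hg
    have h1 : orderOf g ∣ p * m := by rw [← hm]; exact orderOf_dvd_natCard g
    have h2 : Nat.Coprime (orderOf g) p := by
      rw [Nat.coprime_comm, Nat.Prime.coprime_iff_not_dvd hp]; exact hg
    have h3 : orderOf g ∣ m := h2.dvd_of_dvd_mul_left h1
    have h4 : k ≡ 1 [MOD orderOf g] := Nat.ModEq.of_dvd h3 hk2
    have h5 := (pow_eq_pow_iff_modEq (x := g)).2 h4
    rw [h5, pow_one]

end Cfsg.Agent.Lib.Helper59.BrCKEx
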