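import Mathlib
import Cfsg.Agent.Lib.Lead.BrHalfStmt
import Cfsg.Agent.Lib.CT.Kernel
import Cfsg.Agent.Lib.CT.Wedderburn

/-!
# S4504 part C, piece XiCent: `ξ` on central translates.
-/

set_option autoImplicit false

namespace Cfsg.Agent.Lib.Helper59.BrCXiCent

open Cfsg Cfsg.Agent.Lib.Lead
open scoped Classical ComplexConjugate

universe u

theorem main : BrHalf.XiCent.{u} := by
  intro L _ _ p _ c
  have hchar : IsCharacter L c.ξ := Cfsg.Agent.Lib.CT.Wedderburn.isCharacter_of_irr c.hξ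
  have h1 : c.ξ 1 = (c.e : ℂ) :=
    (Cfsg.Agent.Lib.CT.Wedderburn.char_natCast_charDegree hchar).symm
  refine ⟨h1, ?_⟩
  intro z hz
  have hn : ‖c.ξ z‖ = (c.ξ 1).re := Cfsg.Agent.Lib.CT.Kernel.norm_eq_of_mem_center c.hξ hz
  refine ⟨?_, ?_⟩
  · rw [hn, h1]; simp
  · intro g
    obtain ⟨ω, -, h2, h3⟩ := Cfsg.Agent.Lib.CT.Kernel.exists_scalar_of_norm_eq hchar hn
    have hne : c.ξ 1 ≠ 0 := Cfsg.Agent.Lib.CT.Wedderburn.irr_apply_one_ne_zero c.hξ
    rw [h2 g, h3]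
    field_simp

end Cfsg.Agent.Lib.Helper59.BrCXiCent
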