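import Mathlib
import Cfsg.Agent.Lib.Helper74.DixStmt
import Cfsg.Agent.Lib.CT.KnUtil
import Cfsg.Agent.Lib.CT.Clifford

/-!
# S4472 / CHARFIN (second seat; call by helper74)

`main (hS : StabProp) : CharProp`: replace `χ` by the character `Ψ` of `L` restricting to `K` as
the sum of the distinct irreducible constituents of `χ|K`.
-/

set_option autoImplicit false

universe u

namespace Cfsg.Agent.Lib.Helper59.DixCHARFIN

open Cfsg Cfsg.Agent.Lib.Helper74.DixStmt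
open Cfsg.Agent.Lib.CT Cfsg.Agent.Lib.CT.Wedderburn Cfsg.Agent.Lib.Helper81.Mult

theorem im_eq_zero_of_norm_le_re {z : ℂ} (h : ‖z‖ ≤ z.re) : z.im = 0 := by
  have h0 : 0 ≤ ‖z‖ := norm_nonneg z
  have h1 : ‖z‖ ^ 2 = z.re * z.re + z.im * z.im := by
    rw [Complex.sq_norm, Complex.normSq_apply]
  have h2 : z.im * z.im ≤ 0 := by nlinarith
  have h3 : 0 ≤ z.im * z.im := mul_self_nonneg _
  exact mul_self_eq_zero.mp (le_antisymm h2 h3)

theorem re_natCast_mul' (m : ℕ) (z : ℂ) : ((m : ℂ) * z).re = (m : ℝ) * z.re := by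
  simp [Complex.mul_re]

theorem eq_of_norm_le_re {z w : ℂ} (h1 : ‖z‖ ≤ w.re) (h2 : z.re = w.re) (hw : w.im = 0) :
    z = w := by
  have h3 : z.im = 0 := im_eq_zero_of_norm_le_re (h2 ▸ h1)
  exact Complex.ext h2 (h3.trans hw.symm)

theorem main (hS : StabProp.{u}) : CharProp.{u} := by
  intro L _ _ p _ K hK hcop hidx χ hχ hfaith
  classical
  letI : Fintype K := Fintype.ofFinite K
  have : Finite (IrrCharacter K) := finite_irrCharacter K
  letI : Fintype (IrrCharacter K) := Fintype.ofFinite _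
  obtain ⟨χK, hχKdef⟩ : ∃ χK : K → ℂ, χK = fun k : K => χ k := ⟨_, rfl⟩
  have hχK : IsCharacter K χK := hχKdef ▸ Ops.isCharacter_restrict K hχ
  have hχcl : IsClassFunction L χ := char_isClassFunction hχ
  obtain ⟨S, hS'⟩ : ∃ S : Finset (IrrCharacter K),
      S = Finset.univ.filter (fun φ : IrrCharacter K => mult χK φ ≠ 0) := ⟨_, rfl⟩
  obtain ⟨C, hC⟩ : ∃ C : Finset (K → ℂ), C = S.image Subtype.val := ⟨_, rfl⟩
  have hCirr : ∀ φ ∈ C, IsIrrCharacter K φ := by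
    intro φ hφ
    rw [hC, Finset.mem_image] at hφ
    obtain ⟨ψ, -, rfl⟩ := hφ
    exact ψ.2
  have hCstab : ∀ φ ∈ C, ∀ g : L,
      (fun k : K => φ ⟨g * k * g⁻¹, hK.conj_mem k k.2 g⟩) ∈ C := by
    intro φ hφ g
    rw [hC, Finset.mem_image] at hφ
    obtain ⟨ψ, hψ, rfl⟩ := hφ
    rw [hS', Finset.mem_filter] at hψ
    have hirr : IsIrrCharacter K (Clifford.conjFun K hK ψ.1 g) :=
      Clifford.isIrrCharacter_conjFun K hK ψ.2 g
    rw [hC, Finset.mem_image]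
    refine ⟨⟨Clifford.conjFun K hK ψ.1 g, hirr⟩, ?_, rfl⟩
    rw [hS', Finset.mem_filter]
    refine ⟨Finset.mem_univ _, ?_⟩
    rw [← KnUtil.classInner_ne_zero_iff_mult hχK]
    have h1 := Clifford.classInner_restrict_conjFun K hK hχcl ψ.1 g
    have h2 := (KnUtil.classInner_ne_zero_iff_mult hχK ψ).mpr hψ.2
    rw [hχKdef]
    show classInner (fun n : K => χ n) (Clifford.conjFun K hK ψ.1 g) ≠ 0
    rw [h1]
    rw [hχKdef] at h2
    exact h2
  obtain ⟨Ψ, hΨ, hΨcyc, hΨK⟩ := hS p K hcop hidx C hCirr hCstab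
  have hsumC : ∀ k : K, ∑ φ ∈ C, φ k = ∑ ψ ∈ S, ψ.1 k := by
    intro k
    rw [hC, Finset.sum_image]
    intro a _ b _ hab
    exact Subtype.ext hab
  have hexp : ∀ k : K, χ k = ∑ ψ : IrrCharacter K, (mult χK ψ : ℂ) * ψ.1 k := by
    intro k
    have := char_expand hχK k
    rw [hχKdef] at this
    rw [hχKdef]
    exact this
  have hdeg : ∀ ψ : IrrCharacter K, ‖ψ.1 1‖ ≤ (ψ.1 1).re :=
    fun ψ => KnUtil.norm_le_apply_one (isCharacter_of_irr ψ.2) 1
  have hdeg0 : ∀ ψ : IrrCharacter K, 0 ≤ (ψ.1 1).re :=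
    fun ψ => (norm_nonneg _).trans (hdeg ψ)
  refine ⟨Ψ, hΨ, ?_, ?_, hΨcyc⟩
  · -- degrees
    unfold charDegree
    apply Nat.floor_le_floor
    have h1 : Ψ 1 = ∑ ψ ∈ S, ψ.1 1 := by
      have := hΨK 1
      rw [hsumC] at this
      exact this
    have h2 : χ 1 = ∑ ψ : IrrCharacter K, (mult χK ψ : ℂ) * ψ.1 1 := hexp 1
    rw [h1, h2, Complex.re_sum, Complex.re_sum]
    have h3 : ∑ ψ ∈ S, (ψ.1 1).re ≤ ∑ ψ ∈ S, ((mult χK ψ : ℂ) * ψ.1 1).re := by
      apply Finset.sum_le_sum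
      intro ψ hψ
      rw [hS', Finset.mem_filter] at hψ
      have h4 : (1 : ℝ) ≤ (mult χK ψ : ℝ) := by
        exact_mod_cast Nat.one_le_iff_ne_zero.mpr hψ.2
      rw [re_natCast_mul']
      nlinarith [hdeg0 ψ]
    refine h3.trans ?_
    apply Finset.sum_le_sum_of_subset_of_nonneg (Finset.subset_univ _)
    intro ψ _ _
    rw [re_natCast_mul']
    exact mul_nonneg (Nat.cast_nonneg _) (hdeg0 ψ)
  · -- faithful on `K`
    intro k hk hΨk
    apply hfaith k hk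
    have h1 : ∑ ψ ∈ S, ψ.1 ⟨k, hk⟩ = ∑ ψ ∈ S, ψ.1 1 := by
      rw [← hsumC, ← hsumC, ← hΨK, ← hΨK]
      exact hΨk
    have hle : ∀ ψ ∈ S, (ψ.1 ⟨k, hk⟩).re ≤ (ψ.1 1).re := by
      intro ψ _
      exact (Complex.re_le_norm _).trans
        (KnUtil.norm_le_apply_one (isCharacter_of_irr ψ.2) _)
    have h2 : ∑ ψ ∈ S, (ψ.1 ⟨k, hk⟩).re = ∑ ψ ∈ S, (ψ.1 1).re := by
      rw [← Complex.re_sum, ← Complex.re_sum, h1]
    have h3 := (Finset.sum_eq_sum_iff_of_le hle).mp h2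
    have h4 : ∀ ψ ∈ S, ψ.1 ⟨k, hk⟩ = ψ.1 1 := by
      intro ψ hψ
      exact eq_of_norm_le_re (KnUtil.norm_le_apply_one (isCharacter_of_irr ψ.2) _) (h3 ψ hψ)
        (im_eq_zero_of_norm_le_re (hdeg ψ))
    have h5 := hexp ⟨k, hk⟩
    have h6 := hexp 1
    have h7 : χ k = χ ((⟨k, hk⟩ : K) : L) := rfl
    have h8 : χ 1 = χ ((1 : K) : L) := rfl
    rw [h7, h8, h5, h6]
    apply Finset.sum_congr rfl
    intro ψ _
    by_cases hψ : ψ ∈ S
    · rw [h4 ψ hψ]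
    · have h9 : mult χK ψ = 0 := by
        by_contra hne
        apply hψ
        rw [hS', Finset.mem_filter]
        exact ⟨Finset.mem_univ _, hne⟩
      rw [h9]
      simp

end Cfsg.Agent.Lib.Helper59.DixCHARFIN
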