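import Mathlib
import Cfsg.Agent.Lib.Helper59.FrobLin

/-!
# Frobenius actions with one-dimensional fixed points: the kernel acts commutatively

`A ⊴ F` acts on `V` by commuting operators without nonzero fixed vectors, `E` acts
fixed-point-freely on `A`, `dim V ≤ |E|`.  Then any two elements of `F` whose images commute with
the image of `A` have commuting images (`comm_of_frobenius`).
-/

set_option autoImplicit false

namespace Cfsg.Agent.Lib.Helper59.FrobLin2

open Module Cfsg.Agent.Lib.Helper59.FrobLin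

section weights

variable {K V : Type*} [Field K] [AddCommGroup V] [Module K V]
variable {F : Type*} [Group F] [Finite F]

theorem comm_of_weights [IsAlgClosed K] [FiniteDimensional K V] (ρ : F →* Module.End K V)
    (A E : Subgroup F) [hAn : A.Normal] (hF : (Nat.card F : K) ≠ 0)
    (hcomm : ∀ a ∈ A, ∀ b ∈ A, ρ a * ρ b = ρ b * ρ a)
    (hfpf : ∀ e ∈ E, e ≠ 1 → ∀ a ∈ A, e * a = a * e → a = 1)
    (hz : ∀ v : V, (∀ a ∈ A, ρ a v = v) → v = 0)
    (hdim : finrank K V ≤ Nat.card E)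
    (u u' : F) (hu : ∀ a ∈ A, ρ a * ρ u = ρ u * ρ a) (hu' : ∀ a ∈ A, ρ a * ρ u' = ρ u' * ρ a) :
    ρ u * ρ u' = ρ u' * ρ u := by
  classical
  have hρ1 : ∀ v : V, ρ 1 v = v := by
    intro v; rw [map_one]; rfl
  have hρmul : ∀ (g h : F) (v : V), ρ g (ρ h v) = ρ (g * h) v := by
    intro g h v; rw [map_mul]; rfl
  let f : ↥A → Module.End K V := fun a => ρ a
  have hss : ∀ g : F, (ρ g).IsSemisimple := by
    intro g
    have hsq : Squarefree (Polynomial.X ^ Nat.card F - Polynomial.C (1 : K)) :=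
      (Polynomial.separable_X_pow_sub_C (1 : K) hF one_ne_zero).squarefree
    apply Module.End.isSemisimple_of_squarefree_aeval_eq_zero hsq
    have h1 : ρ g ^ Nat.card F = 1 := by
      rw [← map_pow, pow_card_eq_one', map_one]
    simp [h1]
  have hcomm' : Pairwise fun i j : ↥A => Commute (f i) (f j) := fun i j _ => hcomm i i.2 j j.2
  let Wt : (↥A → K) → Submodule K V := fun χ => ⨅ a : ↥A, (f a).eigenspace (χ a)
  have hmemWt : ∀ (χ : ↥A → K) (v : V), v ∈ Wt χ ↔ ∀ a : ↥A, ρ a v = χ a • v := by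
    intro χ v
    simp only [Wt, Submodule.mem_iInf, Module.End.mem_eigenspace_iff, f]
  have hgen : ∀ (a : ↥A) (μ : K), (f a).maxGenEigenspace μ = (f a).eigenspace μ := fun a μ =>
    (hss a).isFinitelySemisimple.maxGenEigenspace_eq_eigenspace μ
  have htop : ⨆ χ : ↥A → K, Wt χ = ⊤ := by
    have := Module.End.iSup_iInf_maxGenEigenspace_eq_top_of_iSup_maxGenEigenspace_eq_top_of_commute
      f hcomm' (fun a => Module.End.iSup_maxGenEigenspace_eq_top (f a))
    simpa only [hgen] using this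
  have hind : iSupIndep Wt := by
    have := Module.End.independent_iInf_maxGenEigenspace_of_forall_mapsTo f
      (fun i j φ => Module.End.mapsTo_maxGenEigenspace_of_comm (hcomm j j.2 i i.2) φ)
    simpa only [hgen] using this
  have hconj : ∀ (g : F) (a : ↥A), g⁻¹ * (a : F) * g ∈ A := by
    intro g a
    have := hAn.conj_mem a a.2 g⁻¹
    simpa using this
  let tw : F → (↥A → K) → (↥A → K) := fun g χ a => χ ⟨g⁻¹ * (a : F) * g, hconj g a⟩
  have htw1 : ∀ χ : ↥A → K, tw 1 χ = χ := by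
    intro χ; funext a
    show χ ⟨(1 : F)⁻¹ * (a : F) * 1, _⟩ = χ a
    congr 1
    apply Subtype.ext
    simp
  have htwmul : ∀ (g h : F) (χ : ↥A → K), tw (g * h) χ = tw g (tw h χ) := by
    intro g h χ; funext a
    show χ ⟨(g * h)⁻¹ * (a : F) * (g * h), _⟩ = χ ⟨h⁻¹ * (g⁻¹ * (a : F) * g) * h, _⟩
    congr 1
    apply Subtype.ext
    show (g * h)⁻¹ * (a : F) * (g * h) = h⁻¹ * (g⁻¹ * (a : F) * g) * h
    group
  have hmapWt : ∀ (g : F) (χ : ↥A → K) (v : V), v ∈ Wt χ → ρ g v ∈ Wt (tw g χ) := by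
    intro g χ v hv
    rw [hmemWt] at hv ⊢
    intro a
    have h1 : (a : F) * g = g * (g⁻¹ * (a : F) * g) := by group
    rw [hρmul, h1, ← hρmul]
    have := hv ⟨g⁻¹ * (a : F) * g, hconj g a⟩
    rw [this, map_smul]
  have hinj : ∀ (g : F) (v : V), ρ g v = 0 → v = 0 := by
    intro g v hv
    have := congrArg (ρ g⁻¹) hv
    rwa [hρmul, inv_mul_cancel, hρ1, map_zero] at this
  have hne : ∀ (g : F) (χ : ↥A → K), Wt χ ≠ ⊥ → Wt (tw g χ) ≠ ⊥ := by
    intro g χ h
    obtain ⟨v, hv, hv0⟩ := (Submodule.ne_bot_iff _).mp h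
    exact (Submodule.ne_bot_iff _).mpr ⟨ρ g v, hmapWt g χ v hv, fun h0 => hv0 (hinj g v h0)⟩
  let S := {χ : ↥A → K // Wt χ ≠ ⊥}
  have hSfin : Finite S := (Submodule.finite_ne_bot_of_iSupIndep hind).to_subtype
  letI : Fintype S := Fintype.ofFinite S
  letI : Fintype ↥E := Fintype.ofFinite ↥E
  letI : MulAction ↥E S :=
    { smul := fun e χ => ⟨tw (e : F) χ.1, hne _ _ χ.2⟩
      one_smul := fun χ => Subtype.ext (htw1 χ.1)
      mul_smul := fun e e' χ => Subtype.ext (htwmul e e' χ.1) }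
  have hsmul : ∀ (e : ↥E) (χ : S), (e • χ).1 = tw (e : F) χ.1 := fun e χ => rfl
  have hfree : ∀ (e : ↥E) (χ : S), e • χ = χ → e = 1 := by
    intro e χ h
    by_contra hne1
    have hne1' : (e : F) ≠ 1 := fun h1 => hne1 (Subtype.ext h1)
    have htw : tw (e : F) χ.1 = χ.1 := by rw [← hsmul, h]
    obtain ⟨v, hv, hv0⟩ := (Submodule.ne_bot_iff _).mp χ.2
    rw [hmemWt] at hv
    apply hv0
    apply hz
    let m : ↥A → ↥A := fun a =>
      ⟨(a : F)⁻¹ * ((e : F)⁻¹ * (a : F) * e), A.mul_mem (A.inv_mem a.2) (hconj e a)⟩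
    have hminj : Function.Injective m := by
      intro a a' haa
      have h1 : (a : F)⁻¹ * ((e : F)⁻¹ * (a : F) * e) = (a' : F)⁻¹ * ((e : F)⁻¹ * (a' : F) * e) :=
        congrArg Subtype.val haa
      have h2 : (e : F) * ((a' : F) * (a : F)⁻¹) = ((a' : F) * (a : F)⁻¹) * e := by
        have h3 : (a' : F) * (a : F)⁻¹ * (e : F)⁻¹ = (e : F)⁻¹ * ((a' : F) * (a : F)⁻¹) := by
          calc (a' : F) * (a : F)⁻¹ * (e : F)⁻¹
              = (a' : F) * ((a : F)⁻¹ * ((e : F)⁻¹ * (a : F) * e)) * (e : F)⁻¹ * (a : F)⁻¹ := by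
                group
            _ = (a' : F) * ((a' : F)⁻¹ * ((e : F)⁻¹ * (a' : F) * e)) * (e : F)⁻¹ * (a : F)⁻¹ := by
                rw [h1]
            _ = (e : F)⁻¹ * ((a' : F) * (a : F)⁻¹) := by group
        calc (e : F) * ((a' : F) * (a : F)⁻¹)
            = e * (((a' : F) * (a : F)⁻¹) * (e : F)⁻¹) * e := by group
          _ = e * ((e : F)⁻¹ * ((a' : F) * (a : F)⁻¹)) * e := by rw [h3]
          _ = ((a' : F) * (a : F)⁻¹) * e := by group
      have h5 := hfpf e e.2 hne1' _ (A.mul_mem a'.2 (A.inv_mem a.2)) h2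
      apply Subtype.ext
      have h6 : (a' : F) = a := by
        have := congrArg (fun x => x * (a : F)) h5
        simpa using this
      exact h6.symm
    have hmsurj : Function.Surjective m := Finite.injective_iff_surjective.mp hminj
    intro b hb
    obtain ⟨a, ha⟩ := hmsurj ⟨b, hb⟩
    have hb' : b = (a : F)⁻¹ * ((e : F)⁻¹ * (a : F) * e) := (congrArg Subtype.val ha).symm
    have h1 : ρ ((e : F)⁻¹ * (a : F) * e) v = χ.1 a • v := by
      have := hv ⟨(e : F)⁻¹ * (a : F) * e, hconj e a⟩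
      rw [this]
      congr 1
      exact congrFun htw a
    have h2 : ρ (a : F)⁻¹ (χ.1 a • v) = v := by
      rw [← hv a, hρmul, inv_mul_cancel, hρ1]
    rw [hb', ← hρmul, h1, h2]
  have hindS : iSupIndep (fun χ : S => Wt χ.1) := hind.comp Subtype.val_injective
  have htopS : ⨆ χ : S, Wt χ.1 = ⊤ := by
    rw [← htop]
    exact iSup_ne_bot_subtype Wt
  have hcompl : ∀ χ : S, IsCompl (Wt χ.1) (⨆ (ψ : S) (_ : ψ ≠ χ), Wt ψ.1) := by
    intro χ
    refine ⟨hindS χ, ?_⟩
    rw [codisjoint_iff, ← iSup_split_single (fun ψ : S => Wt ψ.1) χ]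
    exact htopS
  let c : S → Module.End K V := fun χ => (Wt χ.1).projection _ (hcompl χ)
  have hc_same : ∀ (χ : S) (v : V), v ∈ Wt χ.1 → c χ v = v := fun χ v hv =>
    Submodule.projection_apply_of_mem_left (hcompl χ) hv
  have hc_ne : ∀ (χ ψ : S) (v : V), ψ ≠ χ → v ∈ Wt ψ.1 → c χ v = 0 := by
    intro χ ψ v hne hv
    apply Submodule.projection_apply_of_mem_right (hcompl χ)
    exact Submodule.mem_iSup_of_mem ψ (Submodule.mem_iSup_of_mem hne hv)
  have hext : ∀ T T' : Module.End K V, (∀ (ψ : S) (v : V), v ∈ Wt ψ.1 → T v = T' v) → T = T' := by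
    intro T T' h
    apply LinearMap.ext
    intro v
    have hv : v ∈ ⨆ ψ : S, Wt ψ.1 := by rw [htopS]; exact Submodule.mem_top
    refine Submodule.iSup_induction (fun ψ : S => Wt ψ.1) (motive := fun v => T v = T' v) hv
      (fun ψ x hx => h ψ x hx) (by simp) (fun x y hx hy => by simp [hx, hy])
  -- the fixed space of `E` is at most one-dimensional
  have hmain := finrank_of_weights ρ A E hF hcomm hfpf hz
  have hEpos : 0 < Nat.card E := Nat.card_pos
  have hfix1 : finrank K (fixM ρ (E : Set F)) ≤ 1 := by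
    by_contra hcon
    push Not at hcon
    have : Nat.card E * 2 ≤ Nat.card E * finrank K (fixM ρ (E : Set F)) :=
      Nat.mul_le_mul_left _ hcon
    omega
  obtain ⟨z, hzspan⟩ := finrank_le_one_iff.mp hfix1
  -- averaging a weight vector
  have havg_mem : ∀ v : V, (∑ e : ↥E, ρ (e : F) v) ∈ fixM ρ (E : Set F) := by
    intro v g hg
    rw [map_sum]
    simp only [hρmul]
    exact Fintype.sum_equiv (Equiv.mulLeft (⟨g, hg⟩ : ↥E)) _ _ (fun a => rfl)
  have havg_proj : ∀ (χ : S) (v : V), v ∈ Wt χ.1 → c χ (∑ e : ↥E, ρ (e : F) v) = v := by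
    intro χ v hv
    rw [map_sum, Finset.sum_eq_single (1 : ↥E)]
    · rw [show ((1 : ↥E) : F) = 1 from rfl, hρ1, hc_same χ v hv]
    · intro e _ he1
      have hv' : ρ (e : F) v ∈ Wt (e • χ).1 := hmapWt e χ.1 v hv
      apply hc_ne χ (e • χ) _ _ hv'
      intro h
      exact he1 (hfree e χ h)
    · intro h; exact absurd (Finset.mem_univ _) h
  have h1dim : ∀ (χ : S) (v w : V), v ∈ Wt χ.1 → v ≠ 0 → w ∈ Wt χ.1 → ∃ t : K, w = t • v := by
    intro χ v w hv hv0 hw
    obtain ⟨a, ha⟩ := hzspan ⟨_, havg_mem v⟩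
    obtain ⟨b, hb⟩ := hzspan ⟨_, havg_mem w⟩
    have ha' : a • (z : V) = ∑ e : ↥E, ρ (e : F) v := congrArg Subtype.val ha
    have hb' : b • (z : V) = ∑ e : ↥E, ρ (e : F) w := congrArg Subtype.val hb
    have h1 : v = a • c χ (z : V) := by
      rw [← map_smul, ha', havg_proj χ v hv]
    have h2 : w = b • c χ (z : V) := by
      rw [← map_smul, hb', havg_proj χ w hw]
    have ha0 : a ≠ 0 := by
      intro h
      rw [h, zero_smul] at h1
      exact hv0 h1
    refine ⟨b * a⁻¹, ?_⟩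
    rw [h2, h1, smul_smul, mul_assoc, inv_mul_cancel₀ ha0, mul_one]
  have hpres : ∀ g : F, (∀ a ∈ A, ρ a * ρ g = ρ g * ρ a) → ∀ (χ : S) (v : V), v ∈ Wt χ.1 →
      ρ g v ∈ Wt χ.1 := by
    intro g hg χ v hv
    rw [hmemWt] at hv ⊢
    intro a
    have h1 := congrArg (fun T : Module.End K V => T v) (hg a a.2)
    have h2 : ρ (a : F) (ρ g v) = ρ g (ρ (a : F) v) := h1
    rw [h2, hv a, map_smul]
  apply hext
  intro ψ v hv
  show ρ u (ρ u' v) = ρ u' (ρ u v)
  by_cases hv0 : v = 0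
  · rw [hv0]; simp
  obtain ⟨t, ht⟩ := h1dim ψ v _ hv hv0 (hpres u hu ψ v hv)
  obtain ⟨t', ht'⟩ := h1dim ψ v _ hv hv0 (hpres u' hu' ψ v hv)
  rw [ht, ht', map_smul, map_smul, ht, ht', smul_smul, smul_smul, mul_comm]

end weights

section baseChange

open TensorProduct

variable {k W : Type*} [Field k] [AddCommGroup W] [Module k W]
variable {F : Type*} [Group F] [Finite F]

/-- `A ⊴ F` acts on `W` by commuting operators without nonzero common fixed vector, `E ≤ F` acts
fixed-point-freely on `A`, `|F|` is invertible in `k` and `dim W ≤ |E|`.  Then any two elements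
of `F` whose images commute with the image of `A` have commuting images. -/
theorem comm_of_frobenius [FiniteDimensional k W] (ρ : F →* Module.End k W)
    (A E : Subgroup F) [hAn : A.Normal] (hF : (Nat.card F : k) ≠ 0)
    (hcomm : ∀ a ∈ A, ∀ b ∈ A, ρ a * ρ b = ρ b * ρ a)
    (hfpf : ∀ e ∈ E, e ≠ 1 → ∀ a ∈ A, e * a = a * e → a = 1)
    (hz : ∀ w : W, (∀ a ∈ A, ρ a w = w) → w = 0)
    (hdim : finrank k W ≤ Nat.card E)
    (u u' : F) (hu : ∀ a ∈ A, ρ a * ρ u = ρ u * ρ a) (hu' : ∀ a ∈ A, ρ a * ρ u' = ρ u' * ρ a) :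
    ρ u * ρ u' = ρ u' * ρ u := by
  classical
  let L := AlgebraicClosure k
  let bc : Module.End k W →ₐ[k] Module.End L (L ⊗[k] W) := Module.End.baseChangeHom k L W
  let ρL : F →* Module.End L (L ⊗[k] W) := (bc : Module.End k W →* _).comp ρ
  have hρL : ∀ g : F, ρL g = bc (ρ g) := fun g => rfl
  have hρmul : ∀ (g h : F) (w : W), ρ g (ρ h w) = ρ (g * h) w := by
    intro g h w; rw [map_mul]; rfl
  have hinjL : Function.Injective (algebraMap k L) := (algebraMap k L).injective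
  have hcast : ∀ n : ℕ, (n : k) ≠ 0 → (n : L) ≠ 0 := by
    intro n hn h
    apply hn
    apply hinjL
    rw [map_natCast, map_zero]; exact h
  have hFL : (Nat.card F : L) ≠ 0 := hcast _ hF
  have hsub : ∀ B : Subgroup F, (Nat.card B : k) ≠ 0 := by
    intro B h
    apply hF
    obtain ⟨m, hm⟩ := Subgroup.card_subgroup_dvd_card B
    rw [hm, Nat.cast_mul, h, zero_mul]
  letI : Fintype ↥A := Fintype.ofFinite ↥A
  have hNA : ∑ a : ↥A, ρ (a : F) = 0 := by
    apply LinearMap.ext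
    intro w
    rw [LinearMap.sum_apply]
    apply hz
    intro b hb
    rw [map_sum]
    simp only [hρmul]
    exact Fintype.sum_equiv (Equiv.mulLeft (⟨b, hb⟩ : ↥A)) _ _ (fun a => rfl)
  have hNAL : ∑ a : ↥A, ρL (a : F) = 0 := by
    simp only [hρL]
    rw [← map_sum, hNA, map_zero]
  have hzL : ∀ v : L ⊗[k] W, (∀ a ∈ A, ρL a v = v) → v = 0 := by
    intro v hv
    have h1 : (∑ a : ↥A, ρL (a : F)) v = (Fintype.card ↥A : L) • v := by
      rw [LinearMap.sum_apply]
      simp only [fun a : ↥A => hv a a.2]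
      rw [Finset.sum_const, Finset.card_univ, Nat.cast_smul_eq_nsmul]
    rw [hNAL, LinearMap.zero_apply] at h1
    have h2 : (Fintype.card ↥A : L) ≠ 0 := by
      rw [← Nat.card_eq_fintype_card]
      exact hcast _ (hsub A)
    exact (smul_eq_zero.mp h1.symm).resolve_left h2
  have hcommL : ∀ a ∈ A, ∀ b ∈ A, ρL a * ρL b = ρL b * ρL a := by
    intro a ha b hb
    show bc (ρ a) * bc (ρ b) = bc (ρ b) * bc (ρ a)
    rw [← map_mul bc, ← map_mul bc, hcomm a ha b hb]
  have hdimL : finrank L (L ⊗[k] W) ≤ Nat.card E := by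
    rw [Module.finrank_baseChange]; exact hdim
  have hbcinj : Function.Injective bc := by
    intro T T' h
    apply LinearMap.ext
    intro w
    have h1 := congrArg (fun S : Module.End L (L ⊗[k] W) => S ((1 : L) ⊗ₜ[k] w)) h
    have h2 : (1 : L) ⊗ₜ[k] T w = (1 : L) ⊗ₜ[k] T' w := h1
    exact Module.FaithfullyFlat.tensorProduct_mk_injective (A := k) (B := L) W h2
  have key := comm_of_weights (K := L) ρL A E hFL hcommL hfpf hzL hdimL u u'
    (by
      intro a ha
      show bc (ρ a) * bc (ρ u) = bc (ρ u) * bc (ρ a)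
      rw [← map_mul bc, ← map_mul bc, hu a ha])
    (by
      intro a ha
      show bc (ρ a) * bc (ρ u') = bc (ρ u') * bc (ρ a)
      rw [← map_mul bc, ← map_mul bc, hu' a ha])
  apply hbcinj
  rw [map_mul, map_mul]
  exact key

end baseChange

end Cfsg.Agent.Lib.Helper59.FrobLin2
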