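import Mathlib
import Cfsg.Agent.Lib.Helper44.TPStmt
import Cfsg.Agent.Lib.Helper43.HypBFCore
import Cfsg.Agent.H41.FixFree

/-!
# S5973 / BFE (second seat): block finding, `i` even, any characteristic

`bfe'` is the char-free version of `Helper43.HypBFE.bfe`: instead of a vector `v` with
`Q v ≠ 0` (which gives `polar Q v v ≠ 0` only when `2 ≠ 0`) we find `v` killed by `P` with
`polar Q v (φ v) ≠ 0`.  If no such `v` existed, polarisation would give
`polar Q ((φ + φ⁻¹) u) y = 0` for all `y`, so `φ² u = -u`, and as `φ` has odd order `r`,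
`φ u = u`.
-/

set_option autoImplicit false

namespace Cfsg.Agent.Lib.Helper59.TPBFE

open Module QuadraticMap Polynomial
open Cfsg.Agent.Lib.Helper44.QSpace Cfsg.Agent.Lib.Helper44.OTyp2
open Cfsg.Agent.Lib.Helper40.RecipPoly Cfsg.Agent.Lib.Helper44.NegPairs
open Cfsg.Agent.Lib.Helper44.TPStmt

universe u

section abstract
variable {F : Type*} [Field F] [Fintype F] {V : Type*} [AddCommGroup V] [Module F V]
  [FiniteDimensional F V]

theorem bfe' {p : ℕ} [Fact p.Prime] [CharP F p] (r : ℕ) [Fact r.Prime]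
    (hr2 : r ≠ 2) (hrp : r ≠ p) (hev : Even (orderOf ((Fintype.card F : ℕ) : ZMod r)))
    (Q : QuadraticForm F V) (φ φ' : Module.End F V) (h1 : φ * φ' = 1) (h2 : φ' * φ = 1)
    (hφr : φ ^ r = 1) (hφ : ∀ v, Q (φ v) = Q v)
    (hInv : ∀ R : Submodule F V, (∀ v ∈ R, φ v ∈ R) → (∀ v ∈ R, φ v = v → v = 0) →
      orderOf ((Fintype.card F : ℕ) : ZMod r) ∣ finrank F R)
    (Y : Submodule F V) (hY : ∀ y ∈ Y, φ y ∈ Y) (hYfix : ∀ y ∈ Y, φ y = y → y = 0)
    (hYnd : ∀ u ∈ Y, u ≠ 0 → ∃ y ∈ Y, polar Q u y ≠ 0) (hYne : Y ≠ ⊥) :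
    ∃ B : Submodule F V, B ≤ Y ∧ (∀ v ∈ B, φ v ∈ B) ∧
      (∀ b ∈ B, (∀ z ∈ B, polar Q b z = 0) → b = 0) ∧
      finrank F B = orderOf ((Fintype.card F : ℕ) : ZMod r) := by
  have hr : r.Prime := Fact.out
  have hr0 : (r : F) ≠ 0 := by
    rw [Ne, CharP.cast_eq_zero_iff F p]
    intro h
    exact hrp ((Nat.prime_dvd_prime_iff_eq Fact.out hr).mp h).symm
  obtain ⟨P, hPirr, hPm, hPdvd, hP1, hPdeg, u, huY, hu0, hPu⟩ :=
    Cfsg.Agent.Lib.Helper43.HypBFCore.exists_P (p := p) r hrp φ hφr Y hY hYfix hYne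
  obtain ⟨i, hi⟩ : ∃ i, i = orderOf ((Fintype.card F : ℕ) : ZMod r) := ⟨_, rfl⟩
  rw [← hi] at hPdeg hInv hev ⊢
  have hipos : 0 < i := hPdeg ▸ hPirr.natDegree_pos
  obtain ⟨hP0, hrev1, -, -, -, -, -, -, -, -, hself, -⟩ :=
    Cfsg.Agent.Lib.Helper43.HypBFCore.recip_facts (p := p) r hr2 P hPirr hPm hPdvd hP1
  rw [← hi] at hself
  have hrs := hself hev hipos
  rw [hrs] at hrev1
  have hφ'pow : φ' = φ ^ (r - 1) := by
    have h3 : φ ^ r = φ ^ (r - 1) * φ := by
      rw [← pow_succ, Nat.sub_add_cancel hr.pos]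
    calc φ' = φ ^ r * φ' := by rw [hφr, one_mul]
      _ = φ ^ (r - 1) * (φ * φ') := by rw [h3, mul_assoc]
      _ = φ ^ (r - 1) := by rw [h1, mul_one]
  have hY' : ∀ y ∈ Y, φ' y ∈ Y := by
    intro y hy
    rw [hφ'pow]
    exact Cfsg.Agent.Lib.Helper43.HypBFCore.pow_mem φ Y hY _ y hy
  have hpolφ : ∀ a b, polar Q (φ a) (φ b) = polar Q a b := by
    intro a b
    unfold polar
    rw [← map_add, hφ, hφ, hφ]
  have hφφ' : ∀ v, φ (φ' v) = v := by
    intro v
    rw [← Module.End.mul_apply, h1]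
    rfl
  -- a vector killed by `P` not orthogonal to its image
  have key : ∃ v ∈ Y, aeval φ P v = 0 ∧ polar Q v (φ v) ≠ 0 := by
    by_contra hcon
    push Not at hcon
    have hPφu : aeval φ P (φ u) = 0 := by
      rw [Cfsg.Agent.Lib.Helper43.HypBFCore.aeval_X_apply, hPu, map_zero]
    have hPφ'u : aeval φ P (φ' u) = 0 := by
      rw [hφ'pow, Cfsg.Agent.Lib.Helper43.HypBFCore.aeval_pow_apply, hPu, map_zero]
    have hzY : φ u + φ' u ∈ Y := Y.add_mem (hY u huY) (hY' u huY)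
    have hPz : aeval φ P (φ u + φ' u) = 0 := by rw [map_add, hPφu, hPφ'u, add_zero]
    have hz0 : φ u + φ' u = 0 := by
      by_contra hne
      obtain ⟨y, hyY, hy⟩ := hYnd _ hzY hne
      apply hy
      obtain ⟨w, hwY, hPw, hpol⟩ := Cfsg.Agent.Lib.Helper43.HypBFCore.split_polar Q φ φ' h1 h2 hφ
        r hr0 hφr Y hY P P _ hrev1 hPdvd (φ u + φ' u) hPz y hyY
      rw [hpol, polar_add_left]
      have e1 : polar Q (φ' u) w = polar Q u (φ w) := by
        rw [← hpolφ (φ' u) w, hφφ']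
      have e2 : polar Q (φ u) w = polar Q w (φ u) := polar_comm _ _ _
      have e3 := hcon (u + w) (Y.add_mem huY hwY) (by rw [map_add, hPu, hPw, add_zero])
      rw [map_add, polar_add_left, polar_add_right, polar_add_right, hcon u huY hPu,
        hcon w hwY hPw, zero_add, add_zero] at e3
      rw [e1, e2, add_comm]
      exact e3
    have hsq : φ (φ u) = -u := by
      have h3 := congrArg φ hz0
      rw [map_add, hφφ', map_zero] at h3
      exact eq_neg_of_add_eq_zero_left h3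
    have hpow : ∀ a : ℕ, (φ ^ (2 * a)) u = (-1 : F) ^ a • u := by
      intro a
      induction a with
      | zero => simp
      | succ a ih =>
        rw [show 2 * (a + 1) = 2 * a + 2 by ring, pow_add, Module.End.mul_apply, pow_two,
          Module.End.mul_apply, hsq, map_neg, ih, pow_succ]
        simp
    obtain ⟨a, ha⟩ := hr.odd_of_ne_two hr2
    have hru : (φ ^ r) u = u := by
      rw [hφr]
      rfl
    rw [ha, pow_succ', Module.End.mul_apply, hpow a, map_smul] at hru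
    have hfix : φ u = u := by
      rcases neg_one_pow_eq_or F a with h | h
      · rw [h, one_smul] at hru
        exact hru
      · rw [h, neg_one_smul] at hru
        have h3 : φ u = -u := neg_eq_iff_eq_neg.mp hru
        have h4 : φ (φ u) = u := by rw [h3, map_neg, h3, neg_neg]
        rw [hsq] at h4
        rw [h3, h4]
    exact hu0 (hYfix u huY hfix)
  obtain ⟨v, hvY, hPv, hvφ⟩ := key
  have hv0 : v ≠ 0 := by
    rintro rfl
    apply hvφ
    simp [polar]
  obtain ⟨B, hB⟩ : ∃ B, B = Cfsg.Agent.Lib.Helper43.HypBFCore.cyc φ P.natDegree v := ⟨_, rfl⟩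
  have hBY : B ≤ Y := hB ▸ Cfsg.Agent.Lib.Helper43.HypBFCore.cyc_le φ Y hY _ v hvY
  have hBinv : ∀ w ∈ B, φ w ∈ B := hB ▸ Cfsg.Agent.Lib.Helper43.HypBFCore.cyc_inv φ P hPm v hPv
  have hBinv' : ∀ w ∈ B, φ' w ∈ B := by
    intro w hw
    rw [hφ'pow]
    exact Cfsg.Agent.Lib.Helper43.HypBFCore.pow_mem φ B hBinv _ w hw
  have hBle : finrank F B ≤ i := by
    rw [hB, ← hPdeg]
    exact Cfsg.Agent.Lib.Helper43.HypBFCore.finrank_cyc_le φ _ v
  have hvB : v ∈ B := by
    rw [hB]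
    exact Cfsg.Agent.Lib.Helper43.HypBFCore.mem_cyc_self φ _ (hPdeg ▸ hipos) v
  have hBfix : ∀ w ∈ B, φ w = w → w = 0 := fun w hw => hYfix w (hBY hw)
  refine ⟨B, hBY, hBinv, ?_, ?_⟩
  · exact Cfsg.Agent.Lib.Helper43.HypBFCore.lker_eq_bot Q i φ φ' h1 hφ hInv B B hBinv hBinv'
      hBfix hBle v (φ v) hvB (hBinv v hvB) hvφ
  · have hdvd := hInv B hBinv hBfix
    have hpos : 0 < finrank F B := by
      rcases Nat.eq_zero_or_pos (finrank F B) with h | h
      · exfalso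
        have hbot : B = ⊥ := Submodule.finrank_eq_zero.mp h
        rw [hbot] at hvB
        exact hv0 ((Submodule.mem_bot F).mp hvB)
      · exact h
    have := Nat.le_of_dvd hpos hdvd
    omega

end abstract

open scoped Matrix

theorem main : BlockFindE.{u} := by
  intro F _ _ p _ _ d r _ hr2 hrp hev x hx hxr Y hYs hYnd hYfix hYne
  obtain ⟨φ, hφdef⟩ : ∃ φ : Module.End F (J d → F),
      φ = Matrix.toLinAlgEquiv' (x : Matrix (J d) (J d) F) := ⟨_, rfl⟩
  obtain ⟨φ', hφ'def⟩ : ∃ φ' : Module.End F (J d → F),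
      φ' = Matrix.toLinAlgEquiv'
        ((x⁻¹ : Matrix.GeneralLinearGroup (J d) F) : Matrix (J d) (J d) F) := ⟨_, rfl⟩
  have h1 : φ * φ' = 1 := by
    rw [hφdef, hφ'def, ← map_mul, ← Units.val_mul, mul_inv_cancel, Units.val_one, map_one]
  have h2 : φ' * φ = 1 := by
    rw [hφdef, hφ'def, ← map_mul, ← Units.val_mul, inv_mul_cancel, Units.val_one, map_one]
  have hφr : φ ^ r = 1 := by
    rw [hφdef, ← map_pow, ← Units.val_pow_eq_pow_val, hxr, Units.val_one, map_one]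
  have hφa : ∀ v, φ v = (x : Matrix (J d) (J d) F) *ᵥ v := by
    intro v
    rw [hφdef, Matrix.toLinAlgEquiv'_apply]
  have hφQ : ∀ v, plusQ d F (φ v) = plusQ d F v := by
    intro v
    rw [hφa]
    exact hx v v
  have hInv : ∀ R : Submodule F (J d → F), (∀ v ∈ R, φ v ∈ R) → (∀ v ∈ R, φ v = v → v = 0) →
      orderOf ((Fintype.card F : ℕ) : ZMod r) ∣ finrank F R :=
    fun R hR hfix => Cfsg.Agent.H41.orderOf_dvd_finrank_of_fixedPointFree r φ hφr R hR hfix
  have hY : ∀ y ∈ Y, φ y ∈ Y := by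
    intro y hy
    rw [hφa, ← Matrix.toLin'_apply]
    exact hYs (Submodule.mem_map_of_mem hy)
  have hYfix' : ∀ y ∈ Y, φ y = y → y = 0 := by
    intro y hy hfix
    have h3 : y ∈ Y ⊓ Fx (x : Matrix (J d) (J d) F) := by
      refine ⟨hy, LinearMap.mem_ker.mpr ?_⟩
      rw [LinearMap.sub_apply, LinearMap.id_apply, sub_eq_zero, Matrix.toLin'_apply, ← hφa]
      exact hfix
    rw [hYfix] at h3
    exact (Submodule.mem_bot F).mp h3
  have hYnd' : ∀ u ∈ Y, u ≠ 0 → ∃ y ∈ Y, polar (plusQ d F) u y ≠ 0 :=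
    fun u hu hu0 => (hYnd u hu hu0).2
  obtain ⟨B, hBY, hBinv, hBrad, hBdim⟩ := bfe' (p := p) r hr2 hrp hev (plusQ d F) φ φ' h1 h2
    hφr hφQ hInv Y hY hYfix' hYnd' hYne
  refine ⟨B, hBY, ?_, ?_, hBdim⟩
  · apply Submodule.map_le_iff_le_comap.mpr
    intro v hv
    rw [Submodule.mem_comap, Matrix.toLin'_apply, ← hφa]
    exact hBinv v hv
  · intro w hw hw0
    have h3 : ∃ z ∈ B, polar (plusQ d F) w z ≠ 0 := by
      by_contra hcon
      push Not at hcon
      exact hw0 (hBrad w hw hcon)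
    obtain ⟨z, hz, hwz⟩ := h3
    refine ⟨⟨z, hz, ?_⟩, ⟨z, hz, hwz⟩⟩
    rw [polar_comm]
    exact hwz

end Cfsg.Agent.Lib.Helper59.TPBFE
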