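import Mathlib
import Cfsg.Prelude.Def_Classical
import Cfsg.Prelude.Def_GeometricClasses
import Cfsg.Agent.Lib.Helper59.TPBFE

/-!
# Generic block finding, `i` even, any quadratic form on `κ → F`, any characteristic

`gen`: for an isometry `x` of odd prime order `r ≠ p` of a quadratic form `Qf` on `κ → F`
(with `i = ord_r(q)` even), every nonzero `x`-invariant nondegenerate subspace `Y` meeting the
fixed space trivially contains an `x`-invariant nondegenerate subspace of dimension `i`.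
Wrapper of `TPBFE.bfe'`.
-/

set_option autoImplicit false

namespace Cfsg.Agent.Lib.Helper59.GenBFE

open Module QuadraticMap Polynomial

universe u

open scoped Matrix

theorem gen (F : Type u) [Field F] [Fintype F] (p : ℕ) [Fact p.Prime] [CharP F p]
    {κ : Type} [Fintype κ] [DecidableEq κ] (Qf : QuadraticForm F (κ → F))
    (r : ℕ) [Fact r.Prime] (hr2 : r ≠ 2) (hrp : r ≠ p)
    (hev : Even (orderOf ((Fintype.card F : ℕ) : ZMod r)))
    (x : Matrix.GeneralLinearGroup κ F) (hx : x ∈ Cfsg.isometryGroup F ⇑Qf) (hxr : x ^ r = 1)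
    (Y : Submodule F (κ → F)) (hYs : Y.map (Matrix.toLin' (x : Matrix κ κ F)) ≤ Y)
    (hYnd : Cfsg.Geo.IsNondegenerateOn (QuadraticMap.polar ⇑Qf) Y)
    (hYfix : Y ⊓ LinearMap.ker (Matrix.toLin' (x : Matrix κ κ F) - LinearMap.id) = ⊥)
    (hYne : Y ≠ ⊥) :
    ∃ B : Submodule F (κ → F), B ≤ Y ∧ B.map (Matrix.toLin' (x : Matrix κ κ F)) ≤ B ∧
      Cfsg.Geo.IsNondegenerateOn (QuadraticMap.polar ⇑Qf) B ∧
      Module.finrank F ↥B = orderOf ((Fintype.card F : ℕ) : ZMod r) := by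
  obtain ⟨φ, hφdef⟩ : ∃ φ : Module.End F (κ → F),
      φ = Matrix.toLinAlgEquiv' (x : Matrix κ κ F) := ⟨_, rfl⟩
  obtain ⟨φ', hφ'def⟩ : ∃ φ' : Module.End F (κ → F),
      φ' = Matrix.toLinAlgEquiv'
        ((x⁻¹ : Matrix.GeneralLinearGroup κ F) : Matrix κ κ F) := ⟨_, rfl⟩
  have h1 : φ * φ' = 1 := by
    rw [hφdef, hφ'def, ← map_mul, ← Units.val_mul, mul_inv_cancel, Units.val_one, map_one]
  have h2 : φ' * φ = 1 := by
    rw [hφdef, hφ'def, ← map_mul, ← Units.val_mul, inv_mul_cancel, Units.val_one, map_one]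
  have hφr : φ ^ r = 1 := by
    rw [hφdef, ← map_pow, ← Units.val_pow_eq_pow_val, hxr, Units.val_one, map_one]
  have hφa : ∀ v, φ v = (x : Matrix κ κ F) *ᵥ v := by
    intro v
    rw [hφdef, Matrix.toLinAlgEquiv'_apply]
  have hφQ : ∀ v, Qf (φ v) = Qf v := by
    intro v
    rw [hφa]
    exact hx v v
  have hInv : ∀ R : Submodule F (κ → F), (∀ v ∈ R, φ v ∈ R) → (∀ v ∈ R, φ v = v → v = 0) →
      orderOf ((Fintype.card F : ℕ) : ZMod r) ∣ finrank F R :=
    fun R hR hfix => Cfsg.Agent.H41.orderOf_dvd_finrank_of_fixedPointFree r φ hφr R hR hfix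
  have hY : ∀ y ∈ Y, φ y ∈ Y := by
    intro y hy
    rw [hφa, ← Matrix.toLin'_apply]
    exact hYs (Submodule.mem_map_of_mem hy)
  have hYfix' : ∀ y ∈ Y, φ y = y → y = 0 := by
    intro y hy hfix
    have h3 : y ∈ Y ⊓ LinearMap.ker (Matrix.toLin' (x : Matrix κ κ F) - LinearMap.id) := by
      refine ⟨hy, LinearMap.mem_ker.mpr ?_⟩
      rw [LinearMap.sub_apply, LinearMap.id_apply, sub_eq_zero, Matrix.toLin'_apply, ← hφa]
      exact hfix
    rw [hYfix] at h3
    exact (Submodule.mem_bot F).mp h3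
  have hYnd' : ∀ u ∈ Y, u ≠ 0 → ∃ y ∈ Y, polar Qf u y ≠ 0 :=
    fun u hu hu0 => (hYnd u hu hu0).2
  obtain ⟨B, hBY, hBinv, hBrad, hBdim⟩ :=
    Cfsg.Agent.Lib.Helper59.TPBFE.bfe' (p := p) r hr2 hrp hev Qf φ φ' h1 h2
      hφr hφQ hInv Y hY hYfix' hYnd' hYne
  refine ⟨B, hBY, ?_, ?_, hBdim⟩
  · apply Submodule.map_le_iff_le_comap.mpr
    intro v hv
    rw [Submodule.mem_comap, Matrix.toLin'_apply, ← hφa]
    exact hBinv v hv
  · intro w hw hw0
    have h3 : ∃ z ∈ B, polar Qf w z ≠ 0 := by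
      by_contra hcon
      push Not at hcon
      exact hw0 (hBrad w hw hcon)
    obtain ⟨z, hz, hwz⟩ := h3
    refine ⟨⟨z, hz, ?_⟩, ⟨z, hz, hwz⟩⟩
    rw [polar_comm]
    exact hwz

end Cfsg.Agent.Lib.Helper59.GenBFE
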