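import Mathlib
import Cfsg.Agent.Lib.Helper59.HHCore2

namespace Cfsg.Agent.Lib.Helper59.HHAux

open Module Cfsg.Agent.Lib.Helper59

/-- Number theory: if `p ^ m = 2 ^ d + 1` and `p ^ (m + j) ∣ 2 ^ f - 1` then `2 d p ^ j ≤ f`. -/
theorem nt_bound (p m j d f : ℕ) (hp : p.Prime) (hp2 : p ≠ 2) (hm : 0 < m) (hd : 0 < d)
    (hpm : p ^ m = 2 ^ d + 1) (hf : 0 < f) (hdiv : p ^ (m + j) ∣ 2 ^ f - 1) :
    2 * d * p ^ j ≤ f := by
  haveI : Fact p.Prime := ⟨hp⟩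
  have hodd : Odd p := hp.eq_two_or_odd'.resolve_left hp2
  have hpm_dvd : p ^ m ∣ 2 ^ f - 1 := (pow_dvd_pow p (Nat.le_add_right m j)).trans hdiv
  have h2d : 2 ^ (2 * d) - 1 = (2 ^ d - 1) * p ^ m := by
    rw [hpm, mul_comm 2 d, pow_mul]
    have h1 : 1 ≤ 2 ^ d := Nat.one_le_two_pow
    obtain ⟨t, ht⟩ : ∃ t, 2 ^ d = t + 1 := ⟨2 ^ d - 1, by omega⟩
    rw [ht]
    simp only [Nat.add_sub_cancel]
    have : (t + 1) ^ 2 - 1 = t * (t + 1 + 1) := by
      have h3 : (t + 1) ^ 2 = t * (t + 1 + 1) + 1 := by ring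
      rw [h3, Nat.add_sub_cancel]
    exact this
  have h2d_dvd : p ^ m ∣ 2 ^ (2 * d) - 1 := by rw [h2d]; exact dvd_mul_left _ _
  -- division
  obtain ⟨k, r, hr, hfk⟩ : ∃ k r, r < 2 * d ∧ f = 2 * d * k + r :=
    ⟨f / (2 * d), f % (2 * d), Nat.mod_lt _ (by omega), (Nat.div_add_mod f (2 * d)).symm⟩
  have hk_dvd : p ^ m ∣ (2 ^ (2 * d)) ^ k - 1 := by
    have h1 : 2 ^ (2 * d) - 1 ∣ (2 ^ (2 * d)) ^ k - 1 ^ k := Nat.sub_dvd_pow_sub_pow _ 1 k
    rw [one_pow] at h1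
    exact h2d_dvd.trans h1
  have hr0 : r = 0 := by
    by_contra hr0
    have hrpos : 0 < r := Nat.pos_of_ne_zero hr0
    have h1 : 2 ^ f - 1 = 2 ^ r * ((2 ^ (2 * d)) ^ k - 1) + (2 ^ r - 1) := by
      rw [hfk, pow_add, pow_mul]
      have ha : 1 ≤ (2 ^ (2 * d)) ^ k := Nat.one_le_pow _ _ (by positivity)
      have hb : 1 ≤ 2 ^ r := Nat.one_le_two_pow
      obtain ⟨A, hA⟩ : ∃ A, (2 ^ (2 * d)) ^ k = A + 1 := ⟨_, (Nat.sub_add_cancel ha).symm⟩
      obtain ⟨B, hB⟩ : ∃ B, 2 ^ r = B + 1 := ⟨_, (Nat.sub_add_cancel hb).symm⟩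
      rw [hA, hB]
      simp only [Nat.add_sub_cancel]
      have : (A + 1) * (B + 1) = (B + 1) * A + B + 1 := by ring
      rw [this, Nat.add_sub_cancel]
    have h2 : p ^ m ∣ 2 ^ r - 1 := by
      have h3 : p ^ m ∣ 2 ^ r * ((2 ^ (2 * d)) ^ k - 1) := (hk_dvd).mul_left _
      rw [h1] at hpm_dvd
      exact (Nat.dvd_add_right h3).mp hpm_dvd
    rcases Nat.lt_or_ge d r with hdr | hdr
    · -- d < r < 2d
      obtain ⟨r', rfl⟩ : ∃ r', r = d + r' := ⟨r - d, by omega⟩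
      have hr'pos : 0 < r' := by omega
      have hr'd : r' < d := by omega
      have h4 : 2 ^ r' * p ^ m = (2 ^ (d + r') - 1) + (2 ^ r' + 1) := by
        rw [hpm, pow_add]
        have hb : 1 ≤ 2 ^ d * 2 ^ r' := Nat.one_le_iff_ne_zero.mpr (by positivity)
        have : 2 ^ r' * (2 ^ d + 1) = 2 ^ d * 2 ^ r' + 2 ^ r' := by ring
        rw [this]
        omega
      have h5 : p ^ m ∣ 2 ^ r' + 1 := by
        have h6 : p ^ m ∣ 2 ^ r' * p ^ m := dvd_mul_left _ _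
        rw [h4] at h6
        exact (Nat.dvd_add_right h2).mp h6
      have h7 := Nat.le_of_dvd (by positivity) h5
      have h8 : 2 ^ r' < 2 ^ d := Nat.pow_lt_pow_right (by norm_num) hr'd
      omega
    · -- 0 < r ≤ d
      have h4 : 2 ^ r ≤ 2 ^ d := Nat.pow_le_pow_right (by norm_num) hdr
      have h5 : 2 ≤ 2 ^ r := by
        calc 2 = 2 ^ 1 := (pow_one 2).symm
          _ ≤ 2 ^ r := Nat.pow_le_pow_right (by norm_num) hrpos
      have h7 := Nat.le_of_dvd (by omega) h2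
      omega
  subst hr0
  rw [add_zero] at hfk
  have hk0 : k ≠ 0 := by
    rintro rfl
    rw [mul_zero] at hfk
    omega
  -- LTE
  have hx : ¬ p ∣ 2 ^ (2 * d) := by
    intro h
    have h1 := hp.dvd_of_dvd_pow h
    exact hp2 ((Nat.prime_dvd_prime_iff_eq hp Nat.prime_two).mp h1)
  have hxy : p ∣ 2 ^ (2 * d) - 1 := (dvd_pow_self p hm.ne').trans h2d_dvd
  have hlt : 1 < 2 ^ (2 * d) := Nat.one_lt_two_pow (by omega)
  have hlte := padicValNat.pow_sub_pow hodd hlt hxy hx hk0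
  rw [one_pow] at hlte
  have hval : padicValNat p (2 ^ (2 * d) - 1) = m := by
    rw [h2d]
    have hnd : ¬ p ∣ 2 ^ d - 1 := by
      intro h
      have h1 : p ∣ p ^ m := dvd_pow_self p hm.ne'
      rw [hpm] at h1
      have h2 : p ∣ (2 ^ d + 1) - (2 ^ d - 1) := Nat.dvd_sub h1 h
      have h3 : (2 ^ d + 1) - (2 ^ d - 1) = 2 := by
        have : 1 ≤ 2 ^ d := Nat.one_le_two_pow
        omega
      rw [h3] at h2
      exact hp2 ((Nat.prime_dvd_prime_iff_eq hp Nat.prime_two).mp h2)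
    have hne1 : 2 ^ d - 1 ≠ 0 := by
      have : 2 ≤ 2 ^ d := by
        calc 2 = 2 ^ 1 := (pow_one 2).symm
          _ ≤ 2 ^ d := Nat.pow_le_pow_right (by norm_num) hd
      omega
    rw [padicValNat.mul hne1 (pow_ne_zero _ hp.pos.ne'), padicValNat.eq_zero_of_not_dvd hnd,
      padicValNat.prime_pow, zero_add]
  rw [hval] at hlte
  have hne : (2 ^ (2 * d)) ^ k - 1 ≠ 0 := by
    have : 1 < (2 ^ (2 * d)) ^ k := Nat.one_lt_pow hk0 hlt
    omega
  have hdiv' : p ^ (m + j) ∣ (2 ^ (2 * d)) ^ k - 1 := by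
    rw [← pow_mul, ← hfk]; exact hdiv
  have hle := (padicValNat_dvd_iff_le hne).mp hdiv'
  rw [hlte] at hle
  have hj : j ≤ padicValNat p k := by omega
  have hpk : p ^ j ∣ k := (padicValNat_dvd_iff_le hk0).mpr hj
  have hkle := Nat.le_of_dvd (Nat.pos_of_ne_zero hk0) hpk
  rw [hfk]
  exact Nat.mul_le_mul_left _ hkle

section weights

variable {K : Type*} [Field K] {M : Type*} [AddCommGroup M] [Module K M]

/-- A finite commuting family of operators of finite order prime to the characteristic is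
simultaneously diagonalisable. -/
theorem weights_top [IsAlgClosed K] [FiniteDimensional K M] {ι : Type*}
    (f : ι → Module.End K M) (N : ℕ) (hN : (N : K) ≠ 0) (hpow : ∀ i, f i ^ N = 1)
    (hcomm : ∀ i j, f i * f j = f j * f i) :
    ⨆ χ : ι → K, ⨅ i, (f i).eigenspace (χ i) = ⊤ := by
  have hss : ∀ i, (f i).IsSemisimple := by
    intro i
    have hsq : Squarefree (Polynomial.X ^ N - Polynomial.C (1 : K)) :=
      (Polynomial.separable_X_pow_sub_C (1 : K) hN one_ne_zero).squarefree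
    apply Module.End.isSemisimple_of_squarefree_aeval_eq_zero hsq
    simp [hpow i]
  have hgen : ∀ (i : ι) (μ : K), (f i).maxGenEigenspace μ = (f i).eigenspace μ := fun i μ =>
    (hss i).isFinitelySemisimple.maxGenEigenspace_eq_eigenspace μ
  have := Module.End.iSup_iInf_maxGenEigenspace_eq_top_of_iSup_maxGenEigenspace_eq_top_of_commute
    f (fun i j _ => hcomm i j) (fun i => Module.End.iSup_maxGenEigenspace_eq_top (f i))
  simpa only [hgen] using this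

/-- Stabiliser of a weight space in a cyclic group: if `g` has no fixed vectors on `U`, then the
least power `g ^ s` stabilising the weight space `W ≤ U` of `A` is not trivial and has no fixed
vectors on `W`. -/
theorem stab_orbit {Γ : Type*} [Group Γ] (ρ : Γ →* Module.End K M) (A : Subgroup Γ) (lam : Γ → K)
    (U W : Submodule K M) (hW : ∀ w, w ∈ W ↔ w ∈ U ∧ ∀ z ∈ A, ρ z w = lam z • w) (hW0 : W ≠ ⊥)
    (g : Γ) (hgA : ∀ z, z ∈ A ↔ g * z * g⁻¹ ∈ A) (hgU : ∀ w ∈ U, ρ g w ∈ U)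
    (N : ℕ) (hN : 0 < N) (hgN : g ^ N = 1)
    (hfix : ∀ v ∈ U, ρ g v = v → v = 0) :
    ∃ s, 0 < s ∧ s ∣ N ∧ s ≠ N ∧ (∀ z ∈ A, lam (g ^ s * z * (g ^ s)⁻¹) = lam z) ∧
      (∀ w ∈ W, ρ (g ^ s) w ∈ W) ∧ (∀ w ∈ W, ρ (g ^ s) w = w → w = 0) := by
  classical
  have hρmul : ∀ (a b : Γ) (w : M), ρ a (ρ b w) = ρ (a * b) w := by
    intro a b w; rw [map_mul]; rfl
  have hρ1 : ∀ w : M, ρ 1 w = w := by
    intro w; rw [map_one]; rfl
  have hgAk : ∀ (k : ℕ) (z : Γ), z ∈ A → g ^ k * z * (g ^ k)⁻¹ ∈ A := by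
    intro k
    induction k with
    | zero => intro z hz; simpa using hz
    | succ k ih =>
      intro z hz
      have h1 := (hgA _).mp (ih z hz)
      have h2 : g ^ (k + 1) * z * (g ^ (k + 1))⁻¹ = g * (g ^ k * z * (g ^ k)⁻¹) * g⁻¹ := by
        rw [pow_succ']; group
      rw [h2]; exact h1
  have hgAk' : ∀ (k : ℕ) (z : Γ), z ∈ A → (g ^ k)⁻¹ * z * g ^ k ∈ A := by
    intro k
    induction k with
    | zero => intro z hz; simpa using hz
    | succ k ih =>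
      intro z hz
      have h0 : g⁻¹ * z * g ∈ A := by
        rw [hgA]; simpa [mul_assoc] using hz
      have h1 := ih _ h0
      have h2 : (g ^ (k + 1))⁻¹ * z * g ^ (k + 1) = (g ^ k)⁻¹ * (g⁻¹ * z * g) * g ^ k := by
        rw [pow_succ']; group
      rw [h2]; exact h1
  have hgUk : ∀ (k : ℕ), ∀ w ∈ U, ρ (g ^ k) w ∈ U := by
    intro k
    induction k with
    | zero => intro w hw; rw [pow_zero, hρ1]; exact hw
    | succ k ih =>
      intro w hw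
      rw [pow_succ, ← hρmul]
      exact ih _ (hgU w hw)
  let S : Set ℕ := {d | ∀ z ∈ A, lam (g ^ d * z * (g ^ d)⁻¹) = lam z}
  have hSN : N ∈ S := by
    intro z _
    rw [hgN]; simp
  have hSadd : ∀ d e, d ∈ S → e ∈ S → d + e ∈ S := by
    intro d e hd he z hz
    have h1 : g ^ (d + e) * z * (g ^ (d + e))⁻¹ = g ^ d * (g ^ e * z * (g ^ e)⁻¹) * (g ^ d)⁻¹ := by
      rw [pow_add]; group
    rw [h1, hd _ (hgAk e z hz), he z hz]
  have hSsub : ∀ d e, d + e ∈ S → e ∈ S → d ∈ S := by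
    intro d e hde he z hz
    have h1 := he _ (hgAk d z hz)
    have h2 : g ^ e * (g ^ d * z * (g ^ d)⁻¹) * (g ^ e)⁻¹ = g ^ (d + e) * z * (g ^ (d + e))⁻¹ := by
      rw [add_comm, pow_add]; group
    rw [h2, hde z hz] at h1
    exact h1.symm
  have hex : ∃ d, 0 < d ∧ d ∈ S := ⟨N, hN, hSN⟩
  let s := Nat.find hex
  have hs : 0 < s ∧ s ∈ S := Nat.find_spec hex
  have hsmin : ∀ d, 0 < d → d < s → d ∉ S := fun d hd hds hdS => Nat.find_min hex hds ⟨hd, hdS⟩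
  have hSmul : ∀ k, s * k ∈ S := by
    intro k
    induction k with
    | zero =>
      intro z _
      simp
    | succ k ih => rw [Nat.mul_succ]; exact hSadd _ _ ih hs.2
  have hsdvd : ∀ d ∈ S, s ∣ d := by
    intro d hd
    have h1 : d % s + s * (d / s) ∈ S := by rw [Nat.mod_add_div]; exact hd
    have h2 := hSsub _ _ h1 (hSmul _)
    by_contra hnd
    have h3 : 0 < d % s := Nat.pos_of_ne_zero (fun h => hnd (Nat.dvd_of_mod_eq_zero h))
    exact hsmin _ h3 (Nat.mod_lt _ hs.1) h2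
  have hconj : ∀ (d : ℕ) (z : Γ) (w : M), z ∈ A → w ∈ W →
      ρ z (ρ (g ^ d) w) = lam ((g ^ d)⁻¹ * z * g ^ d) • ρ (g ^ d) w := by
    intro d z w hz hw
    have h1 : z * g ^ d = g ^ d * ((g ^ d)⁻¹ * z * g ^ d) := by group
    rw [hρmul, h1, ← hρmul, ((hW w).mp hw).2 _ (hgAk' d z hz), map_smul]
  have hstab : ∀ d ∈ S, ∀ w ∈ W, ρ (g ^ d) w ∈ W := by
    intro d hd w hw
    rw [hW]
    refine ⟨hgUk d w ((hW w).mp hw).1, fun z hz => ?_⟩
    rw [hconj d z w hz hw]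
    have h2 := hd _ (hgAk' d z hz)
    have h3 : g ^ d * ((g ^ d)⁻¹ * z * g ^ d) * (g ^ d)⁻¹ = z := by group
    rw [h3] at h2
    rw [h2]
  have hfixs : ∀ w ∈ W, ρ (g ^ s) w = w → w = 0 := by
    intro w hw hws
    let F : ℕ → M := fun i => ρ (g ^ i) w
    let u : M := ∑ i ∈ Finset.range s, F i
    have hu : ρ g u = u := by
      show ρ g (∑ i ∈ Finset.range s, F i) = ∑ i ∈ Finset.range s, F i
      rw [map_sum]
      have h1 : ∀ i ∈ Finset.range s, ρ g (F i) = F (i + 1) := by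
        intro i _
        show ρ g (ρ (g ^ i) w) = ρ (g ^ (i + 1)) w
        rw [hρmul, pow_succ']
      rw [Finset.sum_congr rfl h1]
      have h2 := Finset.sum_range_succ' F s
      have h3 := Finset.sum_range_succ F s
      have h4 : F s = F 0 := by
        show ρ (g ^ s) w = ρ (g ^ 0) w
        rw [hws, pow_zero, hρ1]
      rw [h3, h4] at h2
      exact (add_right_cancel h2).symm
    have huU : u ∈ U := Submodule.sum_mem _ (fun i _ => hgUk i w ((hW w).mp hw).1)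
    have hu0 : u = 0 := hfix u huU hu
    have hdist : ∀ i j : Fin s, i ≠ j → ∃ b : ↥A,
        lam ((g ^ (i : ℕ))⁻¹ * (b : Γ) * g ^ (i : ℕ)) ≠ lam ((g ^ (j : ℕ))⁻¹ * (b : Γ) * g ^ (j : ℕ)) := by
      have key : ∀ i j : ℕ, i < j → j < s →
          ¬ (∀ b ∈ A, lam ((g ^ i)⁻¹ * b * g ^ i) = lam ((g ^ j)⁻¹ * b * g ^ j)) := by
        intro i j hij hjs hall
        apply hsmin (j - i) (by omega) (by omega)
        intro z hz
        have h1 := hall _ (hgAk j z hz)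
        have h2 : (g ^ i)⁻¹ * (g ^ j * z * (g ^ j)⁻¹) * g ^ i
            = g ^ (j - i) * z * (g ^ (j - i))⁻¹ := by
          have h3 : g ^ j = g ^ i * g ^ (j - i) := by
            rw [← pow_add]; congr 1; omega
          rw [h3]; group
        have h4 : (g ^ j)⁻¹ * (g ^ j * z * (g ^ j)⁻¹) * g ^ j = z := by group
        rw [h2, h4] at h1
        exact h1
      intro i j hij
      by_contra hno
      push Not at hno
      rcases Nat.lt_or_gt_of_ne (fun h => hij (Fin.ext h)) with h | h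
      · exact key i j h j.2 (fun b hb => hno ⟨b, hb⟩)
      · exact key j i h i.2 (fun b hb => (hno ⟨b, hb⟩).symm)
    have hsep := HHCore.weight_sep (fun b : ↥A => ρ (b : Γ)) (fun i : Fin s => F i)
      (fun (i : Fin s) (b : ↥A) => lam ((g ^ (i : ℕ))⁻¹ * (b : Γ) * g ^ (i : ℕ)))
      (fun i b => hconj i b w b.2 hw) hdist ⊥ (fun b u hu => by
        rw [Submodule.mem_bot] at hu ⊢
        rw [hu, map_zero]) Finset.univ (fun _ => 1) (by
        rw [Submodule.mem_bot]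
        simp only [one_smul]
        rw [Fin.sum_univ_eq_sum_range F s]
        exact hu0) ⟨0, hs.1⟩ (Finset.mem_univ _)
    rw [Submodule.mem_bot, one_smul] at hsep
    have h5 : F 0 = w := by
      show ρ (g ^ 0) w = w
      rw [pow_zero, hρ1]
    rw [← h5]; exact hsep
  refine ⟨s, hs.1, hsdvd N hSN, ?_, hs.2, hstab s hs.2, hfixs⟩
  intro hsN
  apply hW0
  rw [eq_bot_iff]
  intro w hw
  rw [Submodule.mem_bot]
  apply hfixs w hw
  rw [hsN, hgN, hρ1]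

end weights

section cyclic

/-- In a cyclic group of order dividing `p ^ n`, a subgroup containing a nontrivial power of the
generator `y` contains `y ^ (p ^ (n - 1))`. -/
theorem pow_mem_of_zpow_mem {Γ : Type*} [Group Γ] (y : Γ) (p n : ℕ) (hp : p.Prime) (hn : 0 < n)
    (hyn : y ^ (p ^ n) = 1) (H : Subgroup Γ) (k : ℤ) (hk : y ^ k ∈ H) (hk1 : y ^ k ≠ 1) :
    y ^ (p ^ (n - 1)) ∈ H := by
  have hyz : y ^ ((p ^ n : ℕ) : ℤ) = 1 := by rw [zpow_natCast]; exact hyn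
  have hgcd : y ^ ((Int.gcd k ((p ^ n : ℕ) : ℤ) : ℕ) : ℤ) ∈ H := by
    rw [Int.gcd_eq_gcd_ab, zpow_add, zpow_mul, zpow_mul, hyz, one_zpow, mul_one]
    exact H.zpow_mem hk _
  have hdvd : Int.gcd k ((p ^ n : ℕ) : ℤ) ∣ p ^ n :=
    Int.natCast_dvd_natCast.mp (Int.gcd_dvd_right k ((p ^ n : ℕ) : ℤ))
  obtain ⟨t, ht, hgt⟩ := (Nat.dvd_prime_pow hp).mp hdvd
  have htn : t < n := by
    rcases Nat.lt_or_ge t n with h | h
    · exact h
    · exfalso
      have htn : t = n := le_antisymm ht h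
      apply hk1
      have h1 : ((p ^ n : ℕ) : ℤ) ∣ k := by
        have h2 := Int.gcd_dvd_left k ((p ^ n : ℕ) : ℤ)
        rw [hgt, htn] at h2
        exact h2
      obtain ⟨c, rfl⟩ := h1
      rw [zpow_mul, hyz, one_zpow]
  have h3 : y ^ (p ^ t) ∈ H := by
    rw [hgt, zpow_natCast] at hgcd
    exact hgcd
  have h5 : p ^ (n - 1) = p ^ t * p ^ (n - 1 - t) := by
    rw [← pow_add]; congr 1; omega
  rw [h5, pow_mul]
  exact H.pow_mem h3 _

end cyclic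

section fpfquot

/-- A fixed-point-free automorphism of a finite abelian group: `a ↦ φ a * a⁻¹` is onto on every
invariant subgroup, and the quotient by an invariant subgroup has no fixed points. -/
theorem fpf_abelian {I : Type*} [Group I] [Finite I] (hI : ∀ a b : I, a * b = b * a)
    (φ : I ≃* I) (hfpf : ∀ a, φ a = a → a = 1) (R : Subgroup I) (hR : ∀ a ∈ R, φ a ∈ R) :
    (∀ a ∈ R, ∃ b ∈ R, a = φ b * b⁻¹) ∧ (∀ a, φ a * a⁻¹ ∈ R → a ∈ R) := by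
  let δ : I →* I :=
    { toFun := fun a => φ a * a⁻¹
      map_one' := by simp
      map_mul' := by
        intro a b
        rw [map_mul, mul_inv_rev, mul_assoc, ← mul_assoc (φ b), hI (φ b * b⁻¹) a⁻¹, ← mul_assoc] }
  have hδ : ∀ a, δ a = φ a * a⁻¹ := fun a => rfl
  have hinj : Function.Injective δ := by
    rw [injective_iff_map_eq_one]
    intro a ha
    apply hfpf
    rw [hδ] at ha
    exact mul_inv_eq_one.mp ha
  have hmap : R.map δ = R := by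
    apply Subgroup.eq_of_le_of_card_ge
    · rintro _ ⟨a, ha, rfl⟩
      exact R.mul_mem (hR a ha) (R.inv_mem ha)
    · rw [Subgroup.card_map_of_injective hinj]
  refine ⟨?_, ?_⟩
  · intro a ha
    rw [← hmap] at ha
    obtain ⟨b, hb, rfl⟩ := ha
    exact ⟨b, hb, rfl⟩
  · intro a ha
    have h1 : δ a ∈ R.map δ := by rw [hmap]; exact ha
    obtain ⟨b, hb, hba⟩ := h1
    rw [← hinj hba]; exact hb

/-- Group form: `ψ` acts on `Q / Z` (abelian) without fixed points; `R` an invariant subgroup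
between `Z` and `Q`. -/
theorem fpf_quot {Γ : Type*} [Group Γ] (Q Z R : Subgroup Γ) [Finite Q] (hZR : Z ≤ R)
    (hRQ : R ≤ Q) (ψ : Γ) (hψQ : ∀ a, a ∈ Q ↔ ψ * a * ψ⁻¹ ∈ Q)
    (hψZ : ∀ a, a ∈ Z ↔ ψ * a * ψ⁻¹ ∈ Z) (hψR : ∀ a ∈ R, ψ * a * ψ⁻¹ ∈ R)
    (hZn : ∀ z ∈ Z, ∀ a ∈ Q, a * z * a⁻¹ ∈ Z)
    (hcomm : ∀ a ∈ Q, ∀ b ∈ Q, a * b * a⁻¹ * b⁻¹ ∈ Z)
    (hfpf : ∀ a ∈ Q, ψ * a * ψ⁻¹ * a⁻¹ ∈ Z → a ∈ Z) :
    (∀ a ∈ R, ∃ b ∈ R, ∃ z ∈ Z, a = ψ * b * ψ⁻¹ * b⁻¹ * z) ∧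
      (∀ a ∈ Q, ψ * a * ψ⁻¹ * a⁻¹ ∈ R → a ∈ R) := by
  classical
  have hZQ : Z ≤ Q := hZR.trans hRQ
  haveI hZn' : (Z.subgroupOf Q).Normal := by
    constructor
    intro n hn g
    rw [Subgroup.mem_subgroupOf] at hn ⊢
    exact hZn (n : Γ) hn (g : Γ) g.2
  have hmk : ∀ a b : ↥Q, (QuotientGroup.mk a : ↥Q ⧸ Z.subgroupOf Q) = QuotientGroup.mk b
      ↔ (a : Γ)⁻¹ * (b : Γ) ∈ Z := by
    intro a b
    rw [QuotientGroup.eq, Subgroup.mem_subgroupOf]; rfl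
  have hI : ∀ a b : ↥Q ⧸ Z.subgroupOf Q, a * b = b * a := by
    intro a b
    induction a using QuotientGroup.induction_on with
    | H a =>
      induction b using QuotientGroup.induction_on with
      | H b =>
        rw [← QuotientGroup.mk_mul, ← QuotientGroup.mk_mul, hmk]
        have h1 := hcomm (b : Γ)⁻¹ (inv_mem b.2) (a : Γ)⁻¹ (inv_mem a.2)
        have h2 : ((a * b : ↥Q) : Γ)⁻¹ * ((b * a : ↥Q) : Γ)
            = (b : Γ)⁻¹ * (a : Γ)⁻¹ * (b : Γ)⁻¹⁻¹ * (a : Γ)⁻¹⁻¹ := by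
          simp [mul_assoc]
        rw [h2]; exact h1
  let eQ : ↥Q ≃* ↥Q :=
    { toFun := fun a => ⟨ψ * a * ψ⁻¹, (hψQ a).mp a.2⟩
      invFun := fun a => ⟨ψ⁻¹ * a * ψ, (hψQ _).mpr (by simpa [mul_assoc] using a.2)⟩
      left_inv := fun a => Subtype.ext (by simp [mul_assoc])
      right_inv := fun a => Subtype.ext (by simp [mul_assoc])
      map_mul' := fun a b => Subtype.ext (by simp [mul_assoc]) }
  have heQ : ∀ a : ↥Q, ((eQ a : ↥Q) : Γ) = ψ * a * ψ⁻¹ := fun a => rfl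
  have heQZ : (Z.subgroupOf Q).map (eQ : ↥Q →* ↥Q) = Z.subgroupOf Q := by
    ext a
    constructor
    · rintro ⟨z, hz, rfl⟩
      have hz' : (z : Γ) ∈ Z := Subgroup.mem_subgroupOf.mp hz
      show eQ z ∈ Z.subgroupOf Q
      rw [Subgroup.mem_subgroupOf, heQ]
      exact (hψZ _).mp hz'
    · intro ha
      have ha' : (a : Γ) ∈ Z := Subgroup.mem_subgroupOf.mp ha
      refine ⟨eQ.symm a, ?_, eQ.apply_symm_apply a⟩
      show eQ.symm a ∈ Z.subgroupOf Q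
      rw [Subgroup.mem_subgroupOf]
      have h1 : ((eQ.symm a : ↥Q) : Γ) = ψ⁻¹ * a * ψ := rfl
      rw [h1, hψZ]
      simpa [mul_assoc] using ha'
  let φ : (↥Q ⧸ Z.subgroupOf Q) ≃* (↥Q ⧸ Z.subgroupOf Q) := QuotientGroup.congr _ _ eQ heQZ
  have hφ : ∀ a : ↥Q, φ (QuotientGroup.mk a) = QuotientGroup.mk (eQ a) := fun a => rfl
  have hfpfφ : ∀ a, φ a = a → a = 1 := by
    intro a
    induction a using QuotientGroup.induction_on with
    | H a =>
      intro h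
      rw [hφ, hmk, heQ] at h
      have h3 := Z.inv_mem h
      have h4 := hZn _ h3 (a : Γ) a.2
      have h5 : (a : Γ) * ((ψ * (a : Γ) * ψ⁻¹)⁻¹ * (a : Γ))⁻¹ * (a : Γ)⁻¹
          = ψ * (a : Γ) * ψ⁻¹ * (a : Γ)⁻¹ := by group
      rw [h5] at h4
      have h6 := hfpf a a.2 h4
      exact (QuotientGroup.eq_one_iff _).mpr (Subgroup.mem_subgroupOf.mpr h6)
  let Rb : Subgroup (↥Q ⧸ Z.subgroupOf Q) :=
    (R.subgroupOf Q).map (QuotientGroup.mk' (Z.subgroupOf Q))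
  have hRb : ∀ a ∈ Rb, φ a ∈ Rb := by
    rintro _ ⟨b, hb, rfl⟩
    refine ⟨eQ b, ?_, rfl⟩
    show eQ b ∈ R.subgroupOf Q
    rw [Subgroup.mem_subgroupOf, heQ]
    exact hψR _ (Subgroup.mem_subgroupOf.mp hb)
  obtain ⟨hD1, hD2⟩ := fpf_abelian hI φ hfpfφ Rb hRb
  refine ⟨?_, ?_⟩
  · intro a ha
    have h1 : (QuotientGroup.mk (⟨a, hRQ ha⟩ : ↥Q) : ↥Q ⧸ Z.subgroupOf Q) ∈ Rb :=
      ⟨⟨a, hRQ ha⟩, Subgroup.mem_subgroupOf.mpr ha, rfl⟩
    obtain ⟨_, ⟨b, hb, rfl⟩, h2⟩ := hD1 _ h1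
    have hb' : (b : Γ) ∈ R := Subgroup.mem_subgroupOf.mp hb
    have h3 : (QuotientGroup.mk (⟨a, hRQ ha⟩ : ↥Q) : ↥Q ⧸ Z.subgroupOf Q)
        = QuotientGroup.mk (eQ b * b⁻¹) := by
      rw [h2]; rfl
    have h4 := (hmk _ _).mp h3.symm
    refine ⟨b, hb', _, h4, ?_⟩
    show a = ψ * (b : Γ) * ψ⁻¹ * (b : Γ)⁻¹ * (((eQ b * b⁻¹ : ↥Q) : Γ)⁻¹ * a)
    have h5 : ((eQ b * b⁻¹ : ↥Q) : Γ) = ψ * (b : Γ) * ψ⁻¹ * (b : Γ)⁻¹ := rfl
    rw [h5]; group
  · intro a ha har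
    have h1 : φ (QuotientGroup.mk (⟨a, ha⟩ : ↥Q)) * (QuotientGroup.mk (⟨a, ha⟩ : ↥Q))⁻¹ ∈ Rb := by
      refine ⟨eQ ⟨a, ha⟩ * (⟨a, ha⟩ : ↥Q)⁻¹, ?_, rfl⟩
      show eQ ⟨a, ha⟩ * (⟨a, ha⟩ : ↥Q)⁻¹ ∈ R.subgroupOf Q
      rw [Subgroup.mem_subgroupOf]
      exact har
    obtain ⟨b, hb, h2⟩ := hD2 _ h1
    have hb' : (b : Γ) ∈ R := Subgroup.mem_subgroupOf.mp hb
    have h3 := (hmk _ _).mp h2
    have h4 : a = (b : Γ) * ((b : Γ)⁻¹ * a) := by group
    rw [h4]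
    exact R.mul_mem hb' (hZR h3)

end fpfquot

end Cfsg.Agent.Lib.Helper59.HHAux
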