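import Mathlib
import Cfsg.Agent.Lib.Helper59.HHCore2
import Cfsg.Agent.Lib.Helper59.HHAux

/-!
# Hall–Higman type theorem for cyclic groups of odd prime power order: weight space form
-/

namespace Cfsg.Agent.Lib.Helper59.HHLin2

open Module Cfsg.Agent.Lib.Helper59

section weight

set_option maxHeartbeats 1600000 in
/-- Algebraically closed version on a subspace `W` on which `Z` acts by scalars. -/
theorem hh_weight_pp {K : Type*} [Field K] [IsAlgClosed K] {M : Type*} [AddCommGroup M]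
    [Module K M] [FiniteDimensional K M] {Γ : Type*} [Group Γ] (ρ : Γ →* Module.End K M)
    (Q Z : Subgroup Γ) [Finite Q] (hZQ : Z ≤ Q) (x : Γ) (p m : ℕ) (hp : p.Prime) (hp2 : p ≠ 2)
    (hm : 0 < m) (hxr : x ^ (p ^ m) = 1) (hpK : (p : K) ≠ 0)
    (hxQ : ∀ a, a ∈ Q ↔ x * a * x⁻¹ ∈ Q)
    (hxZ : ∀ a, a ∈ Z ↔ x * a * x⁻¹ ∈ Z)
    (hZn : ∀ z ∈ Z, ∀ a ∈ Q, a * z * a⁻¹ ∈ Z)
    (hcomm : ∀ a ∈ Q, ∀ b ∈ Q, a * b * a⁻¹ * b⁻¹ ∈ Z)
    (hfpf : ∀ a ∈ Q, x ^ (p ^ (m - 1)) * a * (x ^ (p ^ (m - 1)))⁻¹ * a⁻¹ ∈ Z → a ∈ Z)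
    (lam : Γ → K) (W : Submodule K M) (hWQ : ∀ a ∈ Q, ∀ w ∈ W, ρ a w ∈ W)
    (hWx : ∀ w ∈ W, ρ x w ∈ W)
    (hlam : ∀ z ∈ Z, ∀ w ∈ W, ρ z w = lam z • w) (hW0 : W ≠ ⊥)
    (hnd : ∀ a ∈ Q, a ∉ Z → ∃ b ∈ Q, lam (a * b * a⁻¹ * b⁻¹) ≠ 1)
    (hQZ : ∃ a ∈ Q, a ∉ Z)
    (hfix : ∀ w ∈ W, ρ x w = w → w = 0) :
    Nat.card Q = (p ^ m - 1) ^ 2 * Nat.card Z := by
  classical
  haveI : Nontrivial ↥W := Submodule.nontrivial_iff_ne_bot.mpr hW0
  have hρmul : ∀ (g h : Γ) (w : M), ρ g (ρ h w) = ρ (g * h) w := by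
    intro g h w; rw [map_mul]; rfl
  have hρ1 : ∀ w : M, ρ 1 w = w := by
    intro w; rw [map_one]; rfl
  let Γ₀ : Subgroup Γ :=
    { carrier := {g | ∀ w ∈ W, ρ g w ∈ W ∧ ρ g⁻¹ w ∈ W}
      mul_mem' := by
        intro g h hg hh w hw
        refine ⟨?_, ?_⟩
        · rw [← hρmul]; exact (hg _ (hh w hw).1).1
        · rw [mul_inv_rev, ← hρmul]; exact (hh _ (hg w hw).2).2
      one_mem' := by
        intro w hw
        rw [inv_one, hρ1]; exact ⟨hw, hw⟩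
      inv_mem' := by
        intro g hg w hw
        rw [inv_inv]
        exact ⟨(hg w hw).2, (hg w hw).1⟩ }
  have hQΓ₀ : ∀ a ∈ Q, a ∈ Γ₀ := fun a ha w hw => ⟨hWQ a ha w hw, hWQ a⁻¹ (Q.inv_mem ha) w hw⟩
  have hxpow : ∀ (k : ℕ), ∀ w ∈ W, ρ (x ^ k) w ∈ W := by
    intro k
    induction k with
    | zero => intro w hw; rw [pow_zero, hρ1]; exact hw
    | succ k ih =>
      intro w hw
      rw [pow_succ, ← hρmul]
      exact ih _ (hWx w hw)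
  have hxinv : x⁻¹ = x ^ (p ^ m - 1) := by
    apply inv_eq_of_mul_eq_one_right
    rw [← pow_succ', Nat.sub_add_cancel (Nat.one_le_iff_ne_zero.mpr (pow_ne_zero _ hp.pos.ne'))]
    exact hxr
  have hxΓ₀ : x ∈ Γ₀ := fun w hw => ⟨hWx w hw, by rw [hxinv]; exact hxpow _ w hw⟩
  have hZΓ₀ : ∀ z ∈ Z, z ∈ Γ₀ := fun z hz => hQΓ₀ z (hZQ hz)
  have hst : ∀ g ∈ Γ₀, ∀ w ∈ W, ρ g w ∈ W := fun g hg w hw => (hg w hw).1
  let ρW : ↥Γ₀ →* Module.End K ↥W :=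
    { toFun := fun g => (ρ (g : Γ)).restrict (hst g g.2)
      map_one' := by
        apply LinearMap.ext; intro w; apply Subtype.ext
        show ρ 1 (w : M) = w
        exact hρ1 _
      map_mul' := by
        intro g h
        apply LinearMap.ext; intro w; apply Subtype.ext
        show ρ ((g : Γ) * (h : Γ)) (w : M) = ρ (g : Γ) (ρ (h : Γ) (w : M))
        rw [hρmul] }
  have hρW : ∀ (g : ↥Γ₀) (w : ↥W), ((ρW g w : ↥W) : M) = ρ (g : Γ) w := fun g w => rfl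
  let R : ↥Γ₀ →* (Module.End K ↥W)ˣ := ρW.toHomUnits
  have hR : ∀ (g : ↥Γ₀), ((R g : (Module.End K ↥W)ˣ) : Module.End K ↥W) = ρW g := fun g => rfl
  have hRz : ∀ (z : Γ) (hz : z ∈ Z),
      ((R ⟨z, hZΓ₀ z hz⟩ : (Module.End K ↥W)ˣ) : Module.End K ↥W) = lam z • 1 := by
    intro z hz
    apply LinearMap.ext; intro w; apply Subtype.ext
    rw [hR, hρW]
    exact hlam z hz w w.2
  have hRmul : ∀ (b : Γ) (hb : b ∈ Γ₀) (z : Γ) (hz : z ∈ Z),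
      ((R ⟨b * z, Γ₀.mul_mem hb (hZΓ₀ z hz)⟩ : (Module.End K ↥W)ˣ) : Module.End K ↥W)
        = lam z • ((R ⟨b, hb⟩ : (Module.End K ↥W)ˣ) : Module.End K ↥W) := by
    intro b hb z hz
    have h1 : (⟨b * z, Γ₀.mul_mem hb (hZΓ₀ z hz)⟩ : ↥Γ₀) = ⟨b, hb⟩ * ⟨z, hZΓ₀ z hz⟩ := rfl
    rw [h1, map_mul, Units.val_mul, hRz z hz, mul_smul_comm, mul_one]
  -- the quotient
  haveI hZn' : (Z.subgroupOf Q).Normal := by
    constructor
    intro n hn g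
    rw [Subgroup.mem_subgroupOf] at hn ⊢
    exact hZn (n : Γ) hn (g : Γ) g.2
  let s : ↥Q ⧸ Z.subgroupOf Q → ↥Q := Quotient.out
  have hs : ∀ a : ↥Q ⧸ Z.subgroupOf Q, (QuotientGroup.mk (s a) : ↥Q ⧸ Z.subgroupOf Q) = a :=
    fun a => QuotientGroup.out_eq' a
  have hmk : ∀ a b : ↥Q, (QuotientGroup.mk a : ↥Q ⧸ Z.subgroupOf Q) = QuotientGroup.mk b
      ↔ (a : Γ)⁻¹ * (b : Γ) ∈ Z := by
    intro a b
    rw [QuotientGroup.eq, Subgroup.mem_subgroupOf]; rfl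
  have hrep : ∀ a b : ↥Q, (QuotientGroup.mk a : ↥Q ⧸ Z.subgroupOf Q) = QuotientGroup.mk b →
      ∃ z ∈ Z, (a : Γ) = b * z := by
    intro a b h
    exact ⟨(b : Γ)⁻¹ * a, (hmk b a).mp h.symm, by group⟩
  let T : ↥Q ⧸ Z.subgroupOf Q → (Module.End K ↥W)ˣ := fun a => R ⟨(s a : Γ), hQΓ₀ _ (s a).2⟩
  have hI : ∀ a b : ↥Q ⧸ Z.subgroupOf Q, a * b = b * a := by
    intro a b
    induction a using QuotientGroup.induction_on with
    | H a =>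
      induction b using QuotientGroup.induction_on with
      | H b =>
        rw [← QuotientGroup.mk_mul, ← QuotientGroup.mk_mul, hmk]
        have h1 := hcomm (b : Γ)⁻¹ (inv_mem b.2) (a : Γ)⁻¹ (inv_mem a.2)
        have h2 : ((a * b : ↥Q) : Γ)⁻¹ * ((b * a : ↥Q) : Γ)
            = (b : Γ)⁻¹ * (a : Γ)⁻¹ * (b : Γ)⁻¹⁻¹ * (a : Γ)⁻¹⁻¹ := by
          simp [mul_assoc]
        rw [h2]; exact h1
  have hT : ∀ a b : ↥Q ⧸ Z.subgroupOf Q, ∃ c : K,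
      (T a : Module.End K ↥W) * T b = c • (T (a * b) : Module.End K ↥W) := by
    intro a b
    have h1 : (QuotientGroup.mk (s a * s b) : ↥Q ⧸ Z.subgroupOf Q)
        = QuotientGroup.mk (s (a * b)) := by
      rw [QuotientGroup.mk_mul, hs, hs, hs]
    obtain ⟨z, hz, h2⟩ := hrep _ _ h1
    refine ⟨lam z, ?_⟩
    rw [← Units.val_mul, ← map_mul]
    have h3 : (⟨(s a : Γ), hQΓ₀ _ (s a).2⟩ * ⟨(s b : Γ), hQΓ₀ _ (s b).2⟩ : ↥Γ₀)
        = ⟨(s (a * b) : Γ) * z, Γ₀.mul_mem (hQΓ₀ _ (s (a * b)).2) (hZΓ₀ z hz)⟩ := Subtype.ext h2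
    rw [h3, hRmul _ _ z hz]
  have hndT : ∀ a : ↥Q ⧸ Z.subgroupOf Q, a ≠ 1 →
      ∃ b, (T b : Module.End K ↥W) * T a ≠ T a * T b := by
    intro a ha
    have h1 : (s a : Γ) ∉ Z := by
      intro h
      apply ha
      rw [← hs a]
      exact (QuotientGroup.eq_one_iff _).mpr (Subgroup.mem_subgroupOf.mpr h)
    obtain ⟨b, hb, hlamb⟩ := hnd (s a) (s a).2 h1
    refine ⟨QuotientGroup.mk ⟨b, hb⟩, ?_⟩
    intro heq
    apply hlamb
    obtain ⟨z, hz, h2⟩ := hrep (s (QuotientGroup.mk ⟨b, hb⟩)) ⟨b, hb⟩ (hs _)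
    have h3 : (T (QuotientGroup.mk ⟨b, hb⟩) : Module.End K ↥W)
        = lam z • ((R ⟨b, hQΓ₀ b hb⟩ : (Module.End K ↥W)ˣ) : Module.End K ↥W) := by
      have h4 : (⟨(s (QuotientGroup.mk ⟨b, hb⟩) : Γ), hQΓ₀ _ (s (QuotientGroup.mk ⟨b, hb⟩)).2⟩ : ↥Γ₀)
          = ⟨b * z, Γ₀.mul_mem (hQΓ₀ b hb) (hZΓ₀ z hz)⟩ := Subtype.ext h2
      show ((R ⟨(s (QuotientGroup.mk ⟨b, hb⟩) : Γ), hQΓ₀ _ (s (QuotientGroup.mk ⟨b, hb⟩)).2⟩ :
        (Module.End K ↥W)ˣ) : Module.End K ↥W) = _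
      rw [h4, hRmul _ _ z hz]
    have hz0 : lam z ≠ 0 := by
      intro h0
      rw [h0, zero_smul] at h3
      exact (T _).ne_zero h3
    rw [h3, smul_mul_assoc, mul_smul_comm] at heq
    have h4 : ((R ⟨b, hQΓ₀ b hb⟩ : (Module.End K ↥W)ˣ) : Module.End K ↥W) * (T a : Module.End K ↥W)
        = (T a : Module.End K ↥W) * ((R ⟨b, hQΓ₀ b hb⟩ : (Module.End K ↥W)ˣ) : Module.End K ↥W) :=
      smul_right_injective _ hz0 heq
    have h5 : R ⟨b, hQΓ₀ b hb⟩ * R ⟨(s a : Γ), hQΓ₀ _ (s a).2⟩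
        = R ⟨(s a : Γ), hQΓ₀ _ (s a).2⟩ * R ⟨b, hQΓ₀ b hb⟩ := Units.ext h4
    have hc : (s a : Γ) * b * (s a : Γ)⁻¹ * b⁻¹ ∈ Z := hcomm _ (s a).2 b hb
    have h6 : R ⟨(s a : Γ) * b * (s a : Γ)⁻¹ * b⁻¹, hZΓ₀ _ hc⟩ = 1 := by
      have h7 : (⟨(s a : Γ) * b * (s a : Γ)⁻¹ * b⁻¹, hZΓ₀ _ hc⟩ : ↥Γ₀)
          = ⟨(s a : Γ), hQΓ₀ _ (s a).2⟩ * ⟨b, hQΓ₀ b hb⟩ * ⟨(s a : Γ), hQΓ₀ _ (s a).2⟩⁻¹
            * ⟨b, hQΓ₀ b hb⟩⁻¹ := rfl
      rw [h7, map_mul, map_mul, map_mul, map_inv, map_inv, ← h5]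
      group
    have h8 := hRz _ hc
    rw [h6, Units.val_one] at h8
    have h9 : (1 : K) • (1 : Module.End K ↥W)
        = lam ((s a : Γ) * b * (s a : Γ)⁻¹ * b⁻¹) • (1 : Module.End K ↥W) := by
      rw [one_smul]; exact h8
    exact (smul_left_injective K (one_ne_zero (α := Module.End K ↥W)) h9).symm
  let X : (Module.End K ↥W)ˣ := R ⟨x, hxΓ₀⟩
  have hXr : X ^ (p ^ m) = 1 := by
    show R ⟨x, hxΓ₀⟩ ^ (p ^ m) = 1
    rw [← map_pow]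
    have h1 : (⟨x, hxΓ₀⟩ : ↥Γ₀) ^ (p ^ m) = 1 := by
      apply Subtype.ext
      rw [Subgroup.coe_pow, Subgroup.coe_one]
      exact hxr
    rw [h1, map_one]
  let eQ : ↥Q ≃* ↥Q :=
    { toFun := fun a => ⟨x * a * x⁻¹, (hxQ a).mp a.2⟩
      invFun := fun a => ⟨x⁻¹ * a * x, (hxQ _).mpr (by simpa [mul_assoc] using a.2)⟩
      left_inv := fun a => Subtype.ext (by simp [mul_assoc])
      right_inv := fun a => Subtype.ext (by simp [mul_assoc])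
      map_mul' := fun a b => Subtype.ext (by simp [mul_assoc]) }
  have heQ : ∀ a : ↥Q, ((eQ a : ↥Q) : Γ) = x * a * x⁻¹ := fun a => rfl
  have heQZ : (Z.subgroupOf Q).map (eQ : ↥Q →* ↥Q) = Z.subgroupOf Q := by
    ext a
    constructor
    · rintro ⟨z, hz, rfl⟩
      have hz' : (z : Γ) ∈ Z := Subgroup.mem_subgroupOf.mp hz
      show eQ z ∈ Z.subgroupOf Q
      rw [Subgroup.mem_subgroupOf, heQ]
      exact (hxZ _).mp hz'
    · intro ha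
      have ha' : (a : Γ) ∈ Z := Subgroup.mem_subgroupOf.mp ha
      refine ⟨eQ.symm a, ?_, eQ.apply_symm_apply a⟩
      show eQ.symm a ∈ Z.subgroupOf Q
      rw [Subgroup.mem_subgroupOf]
      have h1 : ((eQ.symm a : ↥Q) : Γ) = x⁻¹ * a * x := rfl
      rw [h1, hxZ]
      simpa [mul_assoc] using ha'
  let φ : (↥Q ⧸ Z.subgroupOf Q) ≃* (↥Q ⧸ Z.subgroupOf Q) := QuotientGroup.congr _ _ eQ heQZ
  have hφ : ∀ a : ↥Q, φ (QuotientGroup.mk a) = QuotientGroup.mk (eQ a) := fun a => rfl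
  have hiter1 : ∀ (k : ℕ) (a : ↥Q), (((⇑eQ)^[k] a : ↥Q) : Γ) = x ^ k * a * (x ^ k)⁻¹ := by
    intro k
    induction k with
    | zero => intro a; simp
    | succ k ih =>
      intro a
      rw [Function.iterate_succ_apply', heQ, ih, pow_succ']
      group
  have hiter2 : ∀ (k : ℕ) (a : ↥Q), (⇑φ)^[k] (QuotientGroup.mk a) = QuotientGroup.mk ((⇑eQ)^[k] a) := by
    intro k
    induction k with
    | zero => intro a; rfl
    | succ k ih =>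
      intro a
      rw [Function.iterate_succ_apply', ih, hφ, Function.iterate_succ_apply']
  have hφr : ∀ a, (⇑φ)^[p ^ m] a = a := by
    intro a
    induction a using QuotientGroup.induction_on with
    | H a =>
      rw [hiter2]
      congr 1
      apply Subtype.ext
      rw [hiter1, hxr]
      simp
  have hfpfφ : ∀ a, (⇑φ)^[p ^ (m - 1)] a = a → a = 1 := by
    intro a
    induction a using QuotientGroup.induction_on with
    | H a =>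
      intro h
      rw [hiter2, hmk, hiter1] at h
      have hu : x ^ (p ^ (m - 1)) * (a : Γ) * (x ^ (p ^ (m - 1)))⁻¹ ∈ Q := by
        rw [← hiter1]; exact ((⇑eQ)^[p ^ (m - 1)] a).2
      have h3 := Z.inv_mem h
      have h4 := hZn _ h3 (a : Γ) a.2
      have h5 : (a : Γ) * ((x ^ (p ^ (m - 1)) * (a : Γ) * (x ^ (p ^ (m - 1)))⁻¹)⁻¹ * (a : Γ))⁻¹
          * (a : Γ)⁻¹ = x ^ (p ^ (m - 1)) * (a : Γ) * (x ^ (p ^ (m - 1)))⁻¹ * (a : Γ)⁻¹ := by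
        group
      rw [h5] at h4
      have h6 := hfpf a a.2 h4
      exact (QuotientGroup.eq_one_iff _).mpr (Subgroup.mem_subgroupOf.mpr h6)
  have hX : ∀ a : ↥Q ⧸ Z.subgroupOf Q, ∃ c : K,
      (X : Module.End K ↥W) * T a = c • ((T (φ a) : Module.End K ↥W) * X) := by
    intro a
    have h1 : (QuotientGroup.mk (eQ (s a)) : ↥Q ⧸ Z.subgroupOf Q) = QuotientGroup.mk (s (φ a)) := by
      rw [← hφ, hs, hs]
    obtain ⟨z, hz, h2⟩ := hrep _ _ h1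
    refine ⟨lam z, ?_⟩
    rw [← Units.val_mul, ← Units.val_mul]
    show ((R ⟨x, hxΓ₀⟩ * R ⟨(s a : Γ), hQΓ₀ _ (s a).2⟩ : (Module.End K ↥W)ˣ) : Module.End K ↥W)
      = lam z • ((R ⟨(s (φ a) : Γ), hQΓ₀ _ (s (φ a)).2⟩ * R ⟨x, hxΓ₀⟩ : (Module.End K ↥W)ˣ) :
        Module.End K ↥W)
    rw [← map_mul]
    have h3 : (⟨x, hxΓ₀⟩ * ⟨(s a : Γ), hQΓ₀ _ (s a).2⟩ : ↥Γ₀)
        = ⟨(s (φ a) : Γ), hQΓ₀ _ (s (φ a)).2⟩ * ⟨z, hZΓ₀ z hz⟩ * ⟨x, hxΓ₀⟩ := by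
      apply Subtype.ext
      show x * (s a : Γ) = (s (φ a) : Γ) * z * x
      rw [heQ] at h2
      rw [← h2]
      group
    rw [h3, map_mul, map_mul, Units.val_mul, Units.val_mul, Units.val_mul, hRz z hz,
      mul_smul_comm, mul_one, smul_mul_assoc]
  have hfixX : ∀ w : ↥W, (X : Module.End K ↥W) w = w → w = 0 := by
    intro w hw
    apply Subtype.ext
    exact hfix w w.2 (congrArg Subtype.val hw)
  haveI : Nontrivial (↥Q ⧸ Z.subgroupOf Q) := by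
    obtain ⟨a, ha, haZ⟩ := hQZ
    refine nontrivial_of_ne (QuotientGroup.mk ⟨a, ha⟩) 1 ?_
    intro h
    exact haZ (Subgroup.mem_subgroupOf.mp ((QuotientGroup.eq_one_iff _).mp h))
  have hmain := HHCore2.hh_abstract_pp hI T hT hndT X p m hp hp2 hm hXr hpK φ hφr hfpfφ hX hfixX
  rw [Subgroup.card_eq_card_quotient_mul_card_subgroup (Z.subgroupOf Q), hmain,
    Nat.card_congr (Subgroup.subgroupOfEquivOfLe hZQ).toEquiv]

end weight

section rad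

set_option maxHeartbeats 1600000 in
/-- The radical of the commutator form on a weight space of `Z` acts by scalars, and its index is
`(p ^ m - 1) ^ 2` when it is proper. -/
theorem rad_scalar {K : Type*} [Field K] [IsAlgClosed K] {M : Type*} [AddCommGroup M]
    [Module K M] [FiniteDimensional K M] {Γ : Type*} [Group Γ] (ρ : Γ →* Module.End K M)
    (Q Z : Subgroup Γ) [Finite Q] (hZQ : Z ≤ Q) (x : Γ) (p q m : ℕ) (hp : p.Prime) (hp2 : p ≠ 2)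
    (hq : q.Prime) (hm : 0 < m) (hxr : x ^ (p ^ m) = 1) (hpK : (p : K) ≠ 0) (hqK : (q : K) ≠ 0)
    (hQq : IsPGroup q Q)
    (hxQ : ∀ a, a ∈ Q ↔ x * a * x⁻¹ ∈ Q)
    (hZc : ∀ z ∈ Z, ∀ a ∈ Q, a * z = z * a)
    (hcomm : ∀ a ∈ Q, ∀ b ∈ Q, a * b * a⁻¹ * b⁻¹ ∈ Z)
    (hψZ : ∀ z ∈ Z, x ^ (p ^ (m - 1)) * z = z * x ^ (p ^ (m - 1)))
    (hfpf : ∀ a ∈ Q, x ^ (p ^ (m - 1)) * a * (x ^ (p ^ (m - 1)))⁻¹ * a⁻¹ ∈ Z → a ∈ Z)
    (lam : Γ → K) (W : Submodule K M) (hW : ∀ w, w ∈ W ↔ ∀ z ∈ Z, ρ z w = lam z • w)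
    (hW0 : W ≠ ⊥) (hWx : ∀ w ∈ W, ρ x w ∈ W) (hfixW : ∀ w ∈ W, ρ x w = w → w = 0)
    (hlamx : ∀ z ∈ Z, lam (x * z * x⁻¹) = lam z) :
    ∃ Rad : Subgroup Γ, Z ≤ Rad ∧ Rad ≤ Q ∧
      (∀ a, a ∈ Rad ↔ a ∈ Q ∧ ∀ b ∈ Q, lam (a * b * a⁻¹ * b⁻¹) = 1) ∧
      (∀ a ∈ Rad, x * a * x⁻¹ ∈ Rad) ∧
      (∀ a ∈ Rad, ∀ w ∈ W, ρ (x ^ (p ^ (m - 1)) * a * (x ^ (p ^ (m - 1)))⁻¹ * a⁻¹) w = w) ∧
      ((∃ a ∈ Q, a ∉ Rad) → Nat.card Q = (p ^ m - 1) ^ 2 * Nat.card Rad) := by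
  classical
  haveI : Fact q.Prime := ⟨hq⟩
  obtain ⟨ψ, hψdef⟩ : ∃ ψ, ψ = x ^ (p ^ (m - 1)) := ⟨_, rfl⟩
  rw [← hψdef] at hψZ hfpf ⊢
  have hρmul : ∀ (g h : Γ) (w : M), ρ g (ρ h w) = ρ (g * h) w := by
    intro g h w; rw [map_mul]; rfl
  have hρ1 : ∀ w : M, ρ 1 w = w := by
    intro w; rw [map_one]; rfl
  obtain ⟨w₀, hw₀, hw₀0⟩ := (Submodule.ne_bot_iff _).mp hW0
  have hlam_mul : ∀ z ∈ Z, ∀ z' ∈ Z, lam (z * z') = lam z * lam z' := by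
    intro z hz z' hz'
    have h1 := (hW w₀).mp hw₀ (z * z') (Z.mul_mem hz hz')
    have h2 : ρ (z * z') w₀ = (lam z * lam z') • w₀ := by
      rw [map_mul, Module.End.mul_apply, (hW w₀).mp hw₀ z' hz', map_smul, (hW w₀).mp hw₀ z hz,
        smul_smul, mul_comm]
    rw [h2] at h1
    exact (smul_left_injective K hw₀0 h1).symm
  have hlam_one : lam 1 = 1 := by
    have h1 := (hW w₀).mp hw₀ 1 Z.one_mem
    rw [map_one, Module.End.one_apply] at h1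
    have h2 : (1 : K) • w₀ = lam 1 • w₀ := by rw [one_smul]; exact h1
    exact (smul_left_injective K hw₀0 h2).symm
  have hlam_inv : ∀ z ∈ Z, lam z⁻¹ = (lam z)⁻¹ := by
    intro z hz
    have h1 := hlam_mul z hz z⁻¹ (Z.inv_mem hz)
    rw [mul_inv_cancel, hlam_one] at h1
    exact eq_inv_of_mul_eq_one_right h1.symm
  have hZc' : ∀ z ∈ Z, ∀ a ∈ Q, a * z * a⁻¹ = z := by
    intro z hz a ha; rw [hZc z hz a ha, mul_inv_cancel_right]
  have hWQ : ∀ a ∈ Q, ∀ w ∈ W, ρ a w ∈ W := by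
    intro a ha w hw
    rw [hW] at hw ⊢
    intro z hz
    rw [hρmul, ← hZc z hz a ha, ← hρmul, hw z hz, map_smul]
  have hxQk : ∀ (k : ℕ) (a : Γ), a ∈ Q ↔ x ^ k * a * (x ^ k)⁻¹ ∈ Q := by
    intro k
    induction k with
    | zero => intro a; simp
    | succ k ih =>
      intro a
      rw [ih a, hxQ (x ^ k * a * (x ^ k)⁻¹)]
      have h2 : x ^ (k + 1) * a * (x ^ (k + 1))⁻¹ = x * (x ^ k * a * (x ^ k)⁻¹) * x⁻¹ := by
        rw [pow_succ']; group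
      rw [h2]
  have hψQ : ∀ a, a ∈ Q ↔ ψ * a * ψ⁻¹ ∈ Q := by rw [hψdef]; exact hxQk _
  have hψp : ψ ^ p = 1 := by
    rw [hψdef, ← pow_mul, ← pow_succ, Nat.sub_add_cancel hm]; exact hxr
  have hψinv : ψ⁻¹ = ψ ^ (p - 1) :=
    inv_eq_of_mul_eq_one_right (by rw [← pow_succ', Nat.sub_add_cancel hp.pos]; exact hψp)
  have hppos : 1 ≤ p ^ m := Nat.one_le_iff_ne_zero.mpr (pow_ne_zero _ hp.pos.ne')
  have hxinv : x ^ (p ^ m - 1) = x⁻¹ := by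
    apply eq_inv_of_mul_eq_one_left
    rw [← pow_succ, Nat.sub_add_cancel hppos]; exact hxr
  -- the radical
  let Rad : Subgroup Γ :=
    { carrier := {a | a ∈ Q ∧ ∀ b ∈ Q, lam (a * b * a⁻¹ * b⁻¹) = 1}
      mul_mem' := by
        rintro a a' ⟨ha, ha2⟩ ⟨ha', ha2'⟩
        refine ⟨Q.mul_mem ha ha', fun b hb => ?_⟩
        have h1 : a * a' * b * (a * a')⁻¹ * b⁻¹
            = (a * (a' * b * a'⁻¹ * b⁻¹) * a⁻¹) * (a * b * a⁻¹ * b⁻¹) := by group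
        rw [h1, hZc' _ (hcomm a' ha' b hb) a ha, hlam_mul _ (hcomm a' ha' b hb) _ (hcomm a ha b hb),
          ha2' b hb, ha2 b hb, mul_one]
      one_mem' := ⟨Q.one_mem, fun b _ => by simp [hlam_one]⟩
      inv_mem' := by
        rintro a ⟨ha, ha2⟩
        refine ⟨Q.inv_mem ha, fun b hb => ?_⟩
        have hc := hcomm a ha b hb
        have h1 : a⁻¹ * b * a⁻¹⁻¹ * b⁻¹ = a⁻¹ * (a * b * a⁻¹ * b⁻¹)⁻¹ * a⁻¹⁻¹ := by group
        rw [h1, hZc' _ (Z.inv_mem hc) a⁻¹ (Q.inv_mem ha), hlam_inv _ hc, ha2 b hb, inv_one] }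
  have hRad : ∀ a, a ∈ Rad ↔ a ∈ Q ∧ ∀ b ∈ Q, lam (a * b * a⁻¹ * b⁻¹) = 1 := fun a => Iff.rfl
  have hZRad : Z ≤ Rad := by
    intro z hz
    refine ⟨hZQ hz, fun b hb => ?_⟩
    have h1 : z * b * z⁻¹ * b⁻¹ = 1 := by
      rw [← hZc z hz b hb]; group
    rw [h1, hlam_one]
  have hRadQ : Rad ≤ Q := fun a ha => ha.1
  have hxRad1 : ∀ a ∈ Rad, x * a * x⁻¹ ∈ Rad := by
    rintro a ⟨ha, ha2⟩
    refine ⟨(hxQ a).mp ha, fun b hb => ?_⟩
    have hb' : x⁻¹ * b * x ∈ Q := by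
      rw [hxQ]; simpa [mul_assoc] using hb
    have h1 : x * a * x⁻¹ * b * (x * a * x⁻¹)⁻¹ * b⁻¹
        = x * (a * (x⁻¹ * b * x) * a⁻¹ * (x⁻¹ * b * x)⁻¹) * x⁻¹ := by group
    rw [h1, hlamx _ (hcomm a ha _ hb'), ha2 _ hb']
  have hxRadk : ∀ (k : ℕ), ∀ a ∈ Rad, x ^ k * a * (x ^ k)⁻¹ ∈ Rad := by
    intro k
    induction k with
    | zero => intro a ha; simpa using ha
    | succ k ih =>
      intro a ha
      have h2 : x ^ (k + 1) * a * (x ^ (k + 1))⁻¹ = x * (x ^ k * a * (x ^ k)⁻¹) * x⁻¹ := by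
        rw [pow_succ']; group
      rw [h2]; exact hxRad1 _ (ih a ha)
  have hxRad : ∀ a, a ∈ Rad ↔ x * a * x⁻¹ ∈ Rad := by
    intro a
    refine ⟨hxRad1 a, fun h => ?_⟩
    have h1 := hxRadk (p ^ m - 1) _ h
    have h2 : x ^ (p ^ m - 1) * (x * a * x⁻¹) * (x ^ (p ^ m - 1))⁻¹ = a := by
      rw [hxinv]; group
    rwa [h2] at h1
  have hψRad : ∀ a ∈ Rad, ψ * a * ψ⁻¹ ∈ Rad := by rw [hψdef]; exact hxRadk _
  have hRadW : ∀ a ∈ Rad, ∀ w ∈ W, ρ a w ∈ W := fun a ha => hWQ a (hRadQ ha)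
  -- restricted operators
  let fR : ↥Rad → Module.End K ↥W := fun a => (ρ (a : Γ)).restrict (hRadW a a.2)
  have hfR : ∀ (a : ↥Rad) (w : ↥W), ((fR a w : ↥W) : M) = ρ (a : Γ) w := fun a w => rfl
  have hfRcomm : ∀ a b : ↥Rad, fR a * fR b = fR b * fR a := by
    intro a b
    apply LinearMap.ext; intro w; apply Subtype.ext
    show ρ (a : Γ) (ρ (b : Γ) w) = ρ (b : Γ) (ρ (a : Γ) w)
    have h1 : (a : Γ) * b = ((a : Γ) * b * (a : Γ)⁻¹ * (b : Γ)⁻¹) * ((b : Γ) * a) := by group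
    have hc := hcomm a (hRadQ a.2) b (hRadQ b.2)
    have hw' : ρ ((b : Γ) * a) (w : M) ∈ W := by
      rw [← hρmul]; exact hRadW b b.2 _ (hRadW a a.2 _ w.2)
    rw [hρmul, h1, ← hρmul, (hW _).mp hw' _ hc, a.2.2 b (hRadQ b.2), one_smul, hρmul]
  obtain ⟨e, he⟩ := (IsPGroup.iff_card).mp hQq
  have hcardK : (Nat.card Q : K) ≠ 0 := by
    rw [he, Nat.cast_pow]; exact pow_ne_zero _ hqK
  have hfRpow : ∀ a : ↥Rad, fR a ^ Nat.card Q = 1 := by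
    intro a
    apply LinearMap.ext; intro w; apply Subtype.ext
    have hk : ∀ k : ℕ, (((fR a ^ k) w : ↥W) : M) = ρ ((a : Γ) ^ k) w := by
      intro k
      induction k with
      | zero => rw [pow_zero, pow_zero, hρ1]; rfl
      | succ k ih => rw [pow_succ', Module.End.mul_apply, hfR, ih, hρmul, pow_succ']
    rw [hk]
    have h1 : (a : Γ) ^ Nat.card Q = 1 := by
      have h2 : (⟨a, hRadQ a.2⟩ : ↥Q) ^ Nat.card Q = 1 := pow_card_eq_one'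
      have h3 := congrArg Subtype.val h2
      rwa [Subgroup.coe_pow, Subgroup.coe_one] at h3
    rw [h1, hρ1]; rfl
  have htopR := HHAux.weights_top fR (Nat.card Q) hcardK hfRpow hfRcomm
  have h4a : ∀ a ∈ Rad, ∀ w ∈ W, ρ (ψ * a * ψ⁻¹) w = ρ a w := by
    intro a ha w hw
    let D : Module.End K ↥W := fR ⟨ψ * a * ψ⁻¹, hψRad a ha⟩ - fR ⟨a, ha⟩
    have hker : (⊤ : Submodule K ↥W) ≤ LinearMap.ker D := by
      rw [← htopR]
      apply iSup_le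
      intro χ' w' hw'
      rw [LinearMap.mem_ker]
      by_cases hw'0 : w' = 0
      · rw [hw'0, map_zero]
      have hw'mem : ∀ b : ↥Rad, fR b w' = χ' b • w' := by
        intro b
        have := (Submodule.mem_iInf _).mp hw' b
        exact Module.End.mem_eigenspace_iff.mp this
      let lam' : Γ → K := fun g => if h : g ∈ Rad then χ' ⟨g, h⟩ else 0
      have hlam' : ∀ (g : Γ) (h : g ∈ Rad), lam' g = χ' ⟨g, h⟩ := fun g h => dif_pos h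
      let W' : Submodule K M := (⨅ b : ↥Rad, (fR b).eigenspace (χ' b)).map W.subtype
      have hW' : ∀ v, v ∈ W' ↔ v ∈ W ∧ ∀ z ∈ Rad, ρ z v = lam' z • v := by
        intro v
        constructor
        · rintro ⟨u, hu, rfl⟩
          refine ⟨u.2, fun z hz => ?_⟩
          have h1 := (Submodule.mem_iInf _).mp hu ⟨z, hz⟩
          have h2 := Module.End.mem_eigenspace_iff.mp h1
          rw [hlam' z hz]
          exact congrArg Subtype.val h2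
        · rintro ⟨hv, hv2⟩
          refine ⟨⟨v, hv⟩, ?_, rfl⟩
          rw [SetLike.mem_coe, Submodule.mem_iInf]
          intro b
          rw [Module.End.mem_eigenspace_iff]
          apply Subtype.ext
          show ρ (b : Γ) v = χ' b • v
          rw [hv2 b b.2, hlam' b b.2]
      have hW'0 : W' ≠ ⊥ := by
        intro h
        apply hw'0
        have h1 : (w' : M) ∈ W' := ⟨w', hw', rfl⟩
        rw [h, Submodule.mem_bot] at h1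
        exact Subtype.ext h1
      obtain ⟨t, ht0, htdvd, htne, -, hW't, -⟩ := HHAux.stab_orbit ρ Rad lam' W W' hW' hW'0 x
        hxRad hWx (p ^ m) (by omega) hxr hfixW
      obtain ⟨i, hi, rfl⟩ := (Nat.dvd_prime_pow hp).mp htdvd
      have him : i < m := by
        rcases Nat.lt_or_ge i m with h | h
        · exact h
        · exact absurd (by rw [le_antisymm hi h]) htne
      have hW'k : ∀ (k : ℕ), ∀ v ∈ W', ρ ((x ^ (p ^ i)) ^ k) v ∈ W' := by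
        intro k
        induction k with
        | zero => intro v hv; rw [pow_zero, hρ1]; exact hv
        | succ k ih =>
          intro v hv
          rw [pow_succ, ← hρmul]
          exact ih _ (hW't v hv)
      have hψW' : ∀ v ∈ W', ρ ψ v ∈ W' := by
        have h1 : ψ = (x ^ (p ^ i)) ^ (p ^ (m - 1 - i)) := by
          rw [hψdef, ← pow_mul, ← pow_add]; congr 2; omega
        rw [h1]; exact hW'k _
      have hψW'k : ∀ (k : ℕ), ∀ v ∈ W', ρ (ψ ^ k) v ∈ W' := by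
        intro k
        induction k with
        | zero => intro v hv; rw [pow_zero, hρ1]; exact hv
        | succ k ih =>
          intro v hv
          rw [pow_succ, ← hρmul]
          exact ih _ (hψW' v hv)
      have hv : (w' : M) ∈ W' := ⟨w', hw', rfl⟩
      have hv' : ρ ψ⁻¹ (w' : M) ∈ W' := by rw [hψinv]; exact hψW'k _ _ hv
      apply Subtype.ext
      show ρ (ψ * a * ψ⁻¹) (w' : M) - ρ a (w' : M) = 0
      rw [← hρmul, ← hρmul, ((hW' _).mp hv').2 a ha, map_smul, hρmul, mul_inv_cancel, hρ1,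
        ((hW' _).mp hv).2 a ha, sub_self]
    have h1 := hker (Submodule.mem_top (x := (⟨w, hw⟩ : ↥W)))
    rw [LinearMap.mem_ker] at h1
    have h2 : fR ⟨ψ * a * ψ⁻¹, hψRad a ha⟩ ⟨w, hw⟩ = fR ⟨a, ha⟩ ⟨w, hw⟩ := sub_eq_zero.mp h1
    exact congrArg Subtype.val h2
  -- surjectivity
  have hψZiff : ∀ a, a ∈ Z ↔ ψ * a * ψ⁻¹ ∈ Z := by
    intro a
    constructor
    · intro ha
      rw [hψZ a ha, mul_inv_cancel_right]; exact ha
    · intro ha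
      have h1 := hψZ _ ha
      have h2 : a = ψ⁻¹ * (ψ * a * ψ⁻¹ * ψ) := by group
      rw [← h1] at h2
      have h3 : ψ⁻¹ * (ψ * (ψ * a * ψ⁻¹)) = ψ * a * ψ⁻¹ := by group
      rw [h3] at h2
      rw [h2]; exact ha
  have hZn : ∀ z ∈ Z, ∀ a ∈ Q, a * z * a⁻¹ ∈ Z := by
    intro z hz a ha; rw [hZc' z hz a ha]; exact hz
  obtain ⟨hD1, hD2⟩ := HHAux.fpf_quot Q Z Rad hZRad hRadQ ψ hψQ hψZiff hψRad hZn hcomm hfpf
  have hscal : ∀ a ∈ Rad, ∃ c : K, ∀ w ∈ W, ρ a w = c • w := by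
    intro a ha
    obtain ⟨b, hb, z, hz, rfl⟩ := hD1 a ha
    refine ⟨lam z, fun w hw => ?_⟩
    have hb' : ρ b⁻¹ w ∈ W := hRadW _ (Rad.inv_mem hb) w hw
    have h1 : ρ (ψ * b * ψ⁻¹ * b⁻¹ * z) w = ρ (ψ * b * ψ⁻¹) (ρ b⁻¹ (ρ z w)) := by
      rw [hρmul, hρmul]
    rw [h1, (hW w).mp hw z hz, map_smul, map_smul, h4a b hb _ hb', hρmul,
      mul_inv_cancel, hρ1]
  choose! lam2 hlam2 using hscal
  have hlam2Z : ∀ z ∈ Z, lam2 z = lam z := by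
    intro z hz
    have h1 := hlam2 z (hZRad hz) w₀ hw₀
    rw [(hW w₀).mp hw₀ z hz] at h1
    exact (smul_left_injective K hw₀0 h1).symm
  refine ⟨Rad, hZRad, hRadQ, hRad, hxRad1, ?_, ?_⟩
  · intro a ha w hw
    rw [← hρmul, h4a a ha _ (hRadW _ (Rad.inv_mem ha) w hw), hρmul, mul_inv_cancel, hρ1]
  · intro hex
    have hRadn : ∀ z ∈ Rad, ∀ a ∈ Q, a * z * a⁻¹ ∈ Rad := by
      intro z hz a ha
      have h1 : a * z * a⁻¹ = (a * z * a⁻¹ * z⁻¹) * z := by group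
      rw [h1]
      exact Rad.mul_mem (hZRad (hcomm a ha z (hRadQ hz))) hz
    have hnd : ∀ a ∈ Q, a ∉ Rad → ∃ b ∈ Q, lam2 (a * b * a⁻¹ * b⁻¹) ≠ 1 := by
      intro a ha haR
      by_contra hno
      push Not at hno
      exact haR ⟨ha, fun b hb => by rw [← hlam2Z _ (hcomm a ha b hb)]; exact hno b hb⟩
    have hfpfRad : ∀ a ∈ Q, x ^ (p ^ (m - 1)) * a * (x ^ (p ^ (m - 1)))⁻¹ * a⁻¹ ∈ Rad → a ∈ Rad := by
      rw [← hψdef]; exact hD2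
    exact hh_weight_pp ρ Q Rad hRadQ x p m hp hp2 hm hxr hpK hxQ hxRad hRadn
      (fun a ha b hb => hZRad (hcomm a ha b hb)) hfpfRad lam2 W hWQ hWx hlam2 hW0 hnd hex hfixW

end rad

end Cfsg.Agent.Lib.Helper59.HHLin2
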