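import Mathlib
import Cfsg.Agent.Lib.Helper59.HHLin2

/-!
# Hall–Higman type theorem for cyclic groups of odd prime power order acting fixed point freely
-/

namespace Cfsg.Agent.Lib.Helper59.HHLin3

open Module Cfsg.Agent.Lib.Helper59

set_option maxHeartbeats 3200000 in
/-- Algebraically closed version. -/
theorem hh_pp_closed {K : Type*} [Field K] [IsAlgClosed K] {M : Type*} [AddCommGroup M]
    [Module K M] [FiniteDimensional K M] {Γ : Type*} [Group Γ] (ρ : Γ →* Module.End K M)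
    (Q Z : Subgroup Γ) [Finite Q] (hZQ : Z ≤ Q) (y : Γ) (p q n : ℕ) (hp : p.Prime) (hp2 : p ≠ 2)
    (hq : q.Prime) (hn : 0 < n) (hyn : y ^ (p ^ n) = 1) (hpK : (p : K) ≠ 0) (hqK : (q : K) ≠ 0)
    (hQq : IsPGroup q Q)
    (hyQ : ∀ a, a ∈ Q ↔ y * a * y⁻¹ ∈ Q)
    (hyZ : ∀ a, a ∈ Z ↔ y * a * y⁻¹ ∈ Z)
    (hZc : ∀ z ∈ Z, ∀ a ∈ Q, a * z = z * a)
    (hcomm : ∀ a ∈ Q, ∀ b ∈ Q, a * b * a⁻¹ * b⁻¹ ∈ Z)
    (hψZ : ∀ z ∈ Z, y ^ (p ^ (n - 1)) * z = z * y ^ (p ^ (n - 1)))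
    (hfpf : ∀ a ∈ Q, y ^ (p ^ (n - 1)) * a * (y ^ (p ^ (n - 1)))⁻¹ * a⁻¹ ∈ Z → a ∈ Z)
    (hyfpf : ∀ z ∈ Z, y * z = z * y → z = 1)
    (hfix : ∀ w, ρ y w = w → w = 0) :
    ∀ a ∈ Q, ∀ w, ρ (y ^ (p ^ (n - 1)) * a * (y ^ (p ^ (n - 1)))⁻¹ * a⁻¹) w = w := by
  classical
  haveI : Fact q.Prime := ⟨hq⟩
  obtain ⟨ψ, hψdef⟩ : ∃ ψ, ψ = y ^ (p ^ (n - 1)) := ⟨_, rfl⟩
  rw [← hψdef] at hψZ hfpf ⊢
  by_contra hcon
  push Not at hcon
  obtain ⟨a₀, ha₀, w₀', hw₀'⟩ := hcon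
  have hρmul : ∀ (g h : Γ) (w : M), ρ g (ρ h w) = ρ (g * h) w := by
    intro g h w; rw [map_mul]; rfl
  have hρ1 : ∀ w : M, ρ 1 w = w := by
    intro w; rw [map_one]; rfl
  obtain ⟨e, he⟩ := (IsPGroup.iff_card).mp hQq
  have hcardK : (Nat.card Q : K) ≠ 0 := by
    rw [he, Nat.cast_pow]; exact pow_ne_zero _ hqK
  -- Step 1: weights of Z
  let fZ : ↥Z → Module.End K M := fun z => ρ (z : Γ)
  have hfZpow : ∀ z : ↥Z, fZ z ^ Nat.card Q = 1 := by
    intro z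
    show ρ (z : Γ) ^ Nat.card Q = 1
    rw [← map_pow]
    have h1 : (z : Γ) ^ Nat.card Q = 1 := by
      have h2 : (⟨z, hZQ z.2⟩ : ↥Q) ^ Nat.card Q = 1 := pow_card_eq_one'
      have h3 := congrArg Subtype.val h2
      rwa [Subgroup.coe_pow, Subgroup.coe_one] at h3
    rw [h1, map_one]
  have hfZcomm : ∀ z z' : ↥Z, fZ z * fZ z' = fZ z' * fZ z := by
    intro z z'
    show ρ (z : Γ) * ρ (z' : Γ) = ρ (z' : Γ) * ρ (z : Γ)
    rw [← map_mul, ← map_mul, hZc z' z'.2 z (hZQ z.2)]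
  have htop := HHAux.weights_top fZ (Nat.card Q) hcardK hfZpow hfZcomm
  obtain ⟨c₀, hc₀⟩ : ∃ c₀, c₀ = ψ * a₀ * ψ⁻¹ * a₀⁻¹ := ⟨_, rfl⟩
  rw [← hc₀] at hw₀'
  have hex : ∃ χ : ↥Z → K, ∃ w ∈ ⨅ z : ↥Z, (fZ z).eigenspace (χ z), ρ c₀ w ≠ w := by
    by_contra hno
    push Not at hno
    have hker : (⊤ : Submodule K M) ≤ LinearMap.ker (ρ c₀ - 1) := by
      rw [← htop]
      apply iSup_le
      intro χ w hw
      rw [LinearMap.mem_ker, LinearMap.sub_apply, hno χ w hw]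
      simp
    have h1 := hker (Submodule.mem_top (x := w₀'))
    rw [LinearMap.mem_ker, LinearMap.sub_apply, sub_eq_zero] at h1
    exact hw₀' h1
  obtain ⟨χ, w₁, hw₁, hw₁c⟩ := hex
  let lam : Γ → K := fun g => if h : g ∈ Z then χ ⟨g, h⟩ else 0
  have hlam : ∀ (g : Γ) (h : g ∈ Z), lam g = χ ⟨g, h⟩ := fun g h => dif_pos h
  let W : Submodule K M := ⨅ z : ↥Z, (fZ z).eigenspace (χ z)
  have hW : ∀ w, w ∈ W ↔ ∀ z ∈ Z, ρ z w = lam z • w := by
    intro w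
    constructor
    · intro hw z hz
      have h1 := (Submodule.mem_iInf _).mp hw ⟨z, hz⟩
      rw [hlam z hz]
      exact Module.End.mem_eigenspace_iff.mp h1
    · intro hw
      rw [Submodule.mem_iInf]
      intro z
      rw [Module.End.mem_eigenspace_iff]
      show ρ (z : Γ) w = χ z • w
      rw [hw z z.2, hlam z z.2]
  have hw₁0 : w₁ ≠ 0 := by
    intro h; apply hw₁c; rw [h, map_zero]
  have hW0 : W ≠ ⊥ := by
    intro h
    have h1 : w₁ ∈ W := hw₁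
    rw [h, Submodule.mem_bot] at h1
    exact hw₁0 h1
  have hW' : ∀ w, w ∈ W ↔ w ∈ (⊤ : Submodule K M) ∧ ∀ z ∈ Z, ρ z w = lam z • w := by
    intro w; rw [hW]; simp
  -- Step 2: stabiliser
  obtain ⟨s, hs0, hsdvd, hsne, hslam, hWs, hfixs⟩ := HHAux.stab_orbit ρ Z lam ⊤ W hW' hW0 y hyZ
    (fun w _ => Submodule.mem_top) (p ^ n) (pow_pos hp.pos n) hyn (fun v _ => hfix v)
  obtain ⟨j, hj, rfl⟩ := (Nat.dvd_prime_pow hp).mp hsdvd
  have hjn : j < n := by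
    rcases Nat.lt_or_ge j n with h | h
    · exact h
    · exact absurd (by rw [le_antisymm hj h]) hsne
  obtain ⟨m, hm⟩ : ∃ m, m = n - j := ⟨_, rfl⟩
  have hm0 : 0 < m := by omega
  obtain ⟨x, hxdef⟩ : ∃ x, x = y ^ (p ^ j) := ⟨_, rfl⟩
  rw [← hxdef] at hslam hWs hfixs
  have hxr : x ^ (p ^ m) = 1 := by
    rw [hxdef, ← pow_mul, ← pow_add, hm, Nat.add_sub_cancel' hj]; exact hyn
  have hψx : ψ = x ^ (p ^ (m - 1)) := by
    rw [hψdef, hxdef, ← pow_mul, ← pow_add]; congr 2; omega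
  have hyQk : ∀ (k : ℕ) (a : Γ), a ∈ Q ↔ y ^ k * a * (y ^ k)⁻¹ ∈ Q := by
    intro k
    induction k with
    | zero => intro a; simp
    | succ k ih =>
      intro a
      rw [ih a, hyQ (y ^ k * a * (y ^ k)⁻¹)]
      have h2 : y ^ (k + 1) * a * (y ^ (k + 1))⁻¹ = y * (y ^ k * a * (y ^ k)⁻¹) * y⁻¹ := by
        rw [pow_succ']; group
      rw [h2]
  have hyZk : ∀ (k : ℕ) (a : Γ), a ∈ Z ↔ y ^ k * a * (y ^ k)⁻¹ ∈ Z := by
    intro k
    induction k with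
    | zero => intro a; simp
    | succ k ih =>
      intro a
      rw [ih a, hyZ (y ^ k * a * (y ^ k)⁻¹)]
      have h2 : y ^ (k + 1) * a * (y ^ (k + 1))⁻¹ = y * (y ^ k * a * (y ^ k)⁻¹) * y⁻¹ := by
        rw [pow_succ']; group
      rw [h2]
  have hxQ : ∀ a, a ∈ Q ↔ x * a * x⁻¹ ∈ Q := by rw [hxdef]; exact hyQk _
  -- Step 3: the radical
  obtain ⟨Rad, hZRad, hRadQ, hRad, hxRad, hRadW, hcount⟩ := HHLin2.rad_scalar ρ Q Z hZQ x p q m hp
    hp2 hq hm0 hxr hpK hqK hQq hxQ hZc hcomm (hψx ▸ hψZ) (hψx ▸ hfpf) lam W hW hW0 hWs hfixs hslam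
  have hexQ : ∃ a ∈ Q, a ∉ Rad := by
    by_contra hno
    push Not at hno
    apply hw₁c
    have h1 := hRadW a₀ (hno a₀ ha₀) w₁ hw₁
    rw [← hψx, ← hc₀] at h1
    exact h1
  have hcount' := hcount hexQ
  -- Step 4: arithmetic
  have hRadq : IsPGroup q Rad := hQq.to_le hRadQ
  have hppos : 1 ≤ p ^ m := Nat.one_le_iff_ne_zero.mpr (pow_ne_zero _ hp.pos.ne')
  have hdvd1 : p ^ m - 1 ∣ q ^ e := by
    rw [← he, hcount']
    exact Dvd.dvd.mul_right (dvd_pow_self _ two_ne_zero) _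
  obtain ⟨d, hd, hd'⟩ := (Nat.dvd_prime_pow hq).mp hdvd1
  have hp3 : 3 ≤ p := by
    have := hp.two_le
    omega
  have hpm3 : 3 ≤ p ^ m := le_trans hp3 (Nat.le_self_pow hm0.ne' p)
  have hd0 : 0 < d := by
    rcases Nat.eq_zero_or_pos d with h | h
    · rw [h, pow_zero] at hd'; omega
    · exact h
  have heven : 2 ∣ p ^ m - 1 := by
    have h0 : ¬ 2 ∣ p := by
      intro h
      exact hp2 ((Nat.prime_dvd_prime_iff_eq Nat.prime_two hp).mp h).symm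
    have h1 : p % 2 = 1 := by omega
    have h2 : p ^ m % 2 = 1 := by rw [Nat.pow_mod, h1]; simp
    omega
  have hq2 : q = 2 := by
    rw [hd'] at heven
    exact ((Nat.prime_dvd_prime_iff_eq Nat.prime_two hq).mp
      (Nat.prime_two.dvd_of_dvd_pow heven)).symm
  subst hq2
  have hpm : p ^ m = 2 ^ d + 1 := by omega
  -- Step 5: the product character
  have hlam_mul : ∀ z ∈ Z, ∀ z' ∈ Z, lam (z * z') = lam z * lam z' := by
    intro z hz z' hz'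
    have h1 := (hW w₁).mp hw₁ (z * z') (Z.mul_mem hz hz')
    have h2 : ρ (z * z') w₁ = (lam z * lam z') • w₁ := by
      rw [map_mul, Module.End.mul_apply, (hW w₁).mp hw₁ z' hz', map_smul, (hW w₁).mp hw₁ z hz,
        smul_smul, mul_comm]
    rw [h2] at h1
    exact (smul_left_injective K hw₁0 h1).symm
  have hlam_one : lam 1 = 1 := by
    have h1 := (hW w₁).mp hw₁ 1 Z.one_mem
    rw [map_one, Module.End.one_apply] at h1
    have h2 : (1 : K) • w₁ = lam 1 • w₁ := by rw [one_smul]; exact h1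
    exact (smul_left_injective K hw₁0 h2).symm
  have hlam_ne : ∀ z ∈ Z, lam z ≠ 0 := by
    intro z hz h0
    have h1 := hlam_mul z hz z⁻¹ (Z.inv_mem hz)
    rw [mul_inv_cancel, hlam_one, h0, zero_mul] at h1
    exact one_ne_zero h1
  have hsurj : ∀ z ∈ Z, ∃ z' ∈ Z, z = y * z' * y⁻¹ * z'⁻¹ := by
    haveI : Finite ↥Z :=
      Finite.of_injective (Subgroup.inclusion hZQ) (Subgroup.inclusion_injective hZQ)
    let f : ↥Z → ↥Z := fun z =>
      ⟨y * z * y⁻¹ * (z : Γ)⁻¹, Z.mul_mem ((hyZ z).mp z.2) (Z.inv_mem z.2)⟩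
    have hinj : Function.Injective f := by
      intro z1 z2 h
      have h1 : y * z1 * y⁻¹ * (z1 : Γ)⁻¹ = y * z2 * y⁻¹ * (z2 : Γ)⁻¹ := congrArg Subtype.val h
      have h2 : y * ((z2 : Γ)⁻¹ * z1) = ((z2 : Γ)⁻¹ * z1) * y := by
        have h3 : y * ((z2 : Γ)⁻¹ * z1) * y⁻¹
            = (y * z2 * y⁻¹)⁻¹ * (y * z1 * y⁻¹ * (z1 : Γ)⁻¹) * z1 := by group
        rw [h1] at h3
        have h4 : (y * (z2 : Γ) * y⁻¹)⁻¹ * (y * z2 * y⁻¹ * (z2 : Γ)⁻¹) * z1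
            = (z2 : Γ)⁻¹ * z1 := by group
        rw [h4] at h3
        calc y * ((z2 : Γ)⁻¹ * z1) = (y * ((z2 : Γ)⁻¹ * z1) * y⁻¹) * y := by group
          _ = _ := by rw [h3]
      have h5 := hyfpf _ (Z.mul_mem (Z.inv_mem z2.2) z1.2) h2
      apply Subtype.ext
      exact (inv_mul_eq_one.mp h5).symm
    have hsur := Finite.surjective_of_injective hinj
    intro z hz
    obtain ⟨z', hz'⟩ := hsur ⟨z, hz⟩
    exact ⟨z', z'.2, (congrArg Subtype.val hz').symm⟩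
  let P : Γ → K := fun z => ∏ i ∈ Finset.range (p ^ j), lam (y ^ i * z * (y ^ i)⁻¹)
  have hPmul : ∀ z ∈ Z, ∀ z' ∈ Z, P (z * z') = P z * P z' := by
    intro z hz z' hz'
    show ∏ i ∈ Finset.range (p ^ j), lam (y ^ i * (z * z') * (y ^ i)⁻¹) = _
    rw [← Finset.prod_mul_distrib]
    apply Finset.prod_congr rfl
    intro i _
    have h1 : y ^ i * (z * z') * (y ^ i)⁻¹
        = (y ^ i * z * (y ^ i)⁻¹) * (y ^ i * z' * (y ^ i)⁻¹) := by group
    rw [h1, hlam_mul _ ((hyZk i z).mp hz) _ ((hyZk i z').mp hz')]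
  have hP1 : P 1 = 1 := by
    show ∏ i ∈ Finset.range (p ^ j), lam (y ^ i * 1 * (y ^ i)⁻¹) = 1
    apply Finset.prod_eq_one
    intro i _
    rw [mul_one, mul_inv_cancel, hlam_one]
  have hPconj : ∀ z ∈ Z, P (y * z * y⁻¹) = P z := by
    intro z hz
    have h1 : (∏ i ∈ Finset.range (p ^ j), lam (y ^ (i + 1) * z * (y ^ (i + 1))⁻¹))
          * lam (y ^ 0 * z * (y ^ 0)⁻¹)
        = (∏ i ∈ Finset.range (p ^ j), lam (y ^ i * z * (y ^ i)⁻¹))
          * lam (y ^ (p ^ j) * z * (y ^ (p ^ j))⁻¹) := by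
      rw [← Finset.prod_range_succ' (fun i => lam (y ^ i * z * (y ^ i)⁻¹)), Finset.prod_range_succ]
    have h2 : lam (y ^ (p ^ j) * z * (y ^ (p ^ j))⁻¹) = lam z := by rw [← hxdef]; exact hslam z hz
    have h3 : lam (y ^ 0 * z * (y ^ 0)⁻¹) = lam z := by simp
    rw [h2, h3] at h1
    have h4 := mul_right_cancel₀ (hlam_ne z hz) h1
    show ∏ i ∈ Finset.range (p ^ j), lam (y ^ i * (y * z * y⁻¹) * (y ^ i)⁻¹)
      = ∏ i ∈ Finset.range (p ^ j), lam (y ^ i * z * (y ^ i)⁻¹)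
    rw [← h4]
    apply Finset.prod_congr rfl
    intro i _
    congr 1
    rw [pow_succ]; group
  have hPtriv : ∀ z ∈ Z, P z = 1 := by
    intro z hz
    obtain ⟨z', hz', rfl⟩ := hsurj z hz
    rw [hPmul _ ((hyZ z').mp hz') _ (Z.inv_mem hz'), hPconj z' hz']
    have h1 := hPmul z' hz' z'⁻¹ (Z.inv_mem hz')
    rw [mul_inv_cancel, hP1] at h1
    exact h1.symm
  -- Step 6: the core of the radical
  have hT0 : ∀ a ∈ Q, (∀ i, 0 < i → i < p ^ j → y ^ i * a * (y ^ i)⁻¹ ∈ Rad) → a ∈ Rad := by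
    intro a ha hai
    rw [hRad]
    refine ⟨ha, fun b hb => ?_⟩
    have hc := hcomm a ha b hb
    have h1 := hPtriv _ hc
    have h2 : P (a * b * a⁻¹ * b⁻¹) = lam (y ^ 0 * (a * b * a⁻¹ * b⁻¹) * (y ^ 0)⁻¹) := by
      apply Finset.prod_eq_single 0
      · intro i hi hi0
        have hi' := Finset.mem_range.mp hi
        have h3 : y ^ i * (a * b * a⁻¹ * b⁻¹) * (y ^ i)⁻¹
            = (y ^ i * a * (y ^ i)⁻¹) * (y ^ i * b * (y ^ i)⁻¹) * (y ^ i * a * (y ^ i)⁻¹)⁻¹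
              * (y ^ i * b * (y ^ i)⁻¹)⁻¹ := by group
        rw [h3]
        exact ((hRad _).mp (hai i (Nat.pos_of_ne_zero hi0) hi')).2 _ ((hyQk i b).mp hb)
      · intro h0
        exact absurd (Finset.mem_range.mpr (pow_pos hp.pos j)) h0
    rw [h2] at h1
    simpa using h1
  let RadC : ℕ → Subgroup Γ := fun i => Rad.comap (MulAut.conj (y ^ i)).toMonoidHom
  have hRadC : ∀ i a, a ∈ RadC i ↔ y ^ i * a * (y ^ i)⁻¹ ∈ Rad := by
    intro i a
    show (MulAut.conj (y ^ i)) a ∈ Rad ↔ _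
    rw [MulAut.conj_apply]
  let T : Subgroup Γ := Q ⊓ ⨅ i : Fin (p ^ j - 1), RadC (i + 1)
  have hTmem : ∀ a, a ∈ T ↔ a ∈ Q ∧ ∀ i, 0 < i → i < p ^ j → y ^ i * a * (y ^ i)⁻¹ ∈ Rad := by
    intro a
    show a ∈ Q ⊓ ⨅ i : Fin (p ^ j - 1), RadC (i + 1) ↔ _
    rw [Subgroup.mem_inf, Subgroup.mem_iInf]
    constructor
    · rintro ⟨ha, h⟩
      refine ⟨ha, fun i hi0 hi => ?_⟩
      have h1 := h ⟨i - 1, by omega⟩
      rw [hRadC] at h1
      have h2 : i - 1 + 1 = i := by omega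
      simp only [h2] at h1
      exact h1
    · rintro ⟨ha, h⟩
      refine ⟨ha, fun i => ?_⟩
      rw [hRadC]
      exact h _ (Nat.succ_pos _) (by have := i.2; omega)
  have hTRad : T ≤ Rad := fun a ha => hT0 a ((hTmem a).mp ha).1 ((hTmem a).mp ha).2
  have hTQ : T ≤ Q := fun a ha => ((hTmem a).mp ha).1
  have hZT : Z ≤ T := by
    intro z hz
    rw [hTmem]
    exact ⟨hZQ hz, fun i _ _ => hZRad ((hyZk i z).mp hz)⟩
  have hyT1 : ∀ a ∈ T, y * a * y⁻¹ ∈ T := by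
    intro a ha
    rw [hTmem] at ha ⊢
    refine ⟨(hyQ a).mp ha.1, fun i hi0 hi => ?_⟩
    have h1 : y ^ i * (y * a * y⁻¹) * (y ^ i)⁻¹ = y ^ (i + 1) * a * (y ^ (i + 1))⁻¹ := by
      rw [pow_succ]; group
    rw [h1]
    rcases Nat.lt_or_ge (i + 1) (p ^ j) with h | h
    · exact ha.2 _ (Nat.succ_pos _) h
    · have h2 : i + 1 = p ^ j := by omega
      rw [h2, ← hxdef]
      exact hxRad a (hT0 a ha.1 ha.2)
  have hyTk : ∀ (k : ℕ), ∀ a ∈ T, y ^ k * a * (y ^ k)⁻¹ ∈ T := by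
    intro k
    induction k with
    | zero => intro a ha; simpa using ha
    | succ k ih =>
      intro a ha
      have h2 : y ^ (k + 1) * a * (y ^ (k + 1))⁻¹ = y * (y ^ k * a * (y ^ k)⁻¹) * y⁻¹ := by
        rw [pow_succ']; group
      rw [h2]; exact hyT1 _ (ih a ha)
  have hpn1 : 1 ≤ p ^ n := Nat.one_le_iff_ne_zero.mpr (pow_ne_zero _ hp.pos.ne')
  have hyinv : y ^ (p ^ n - 1) = y⁻¹ := by
    apply eq_inv_of_mul_eq_one_left
    rw [← pow_succ, Nat.sub_add_cancel hpn1]; exact hyn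
  have hyT : ∀ a, a ∈ T ↔ y * a * y⁻¹ ∈ T := by
    intro a
    refine ⟨hyT1 a, fun h => ?_⟩
    have h1 := hyTk (p ^ n - 1) _ h
    have h2 : y ^ (p ^ n - 1) * (y * a * y⁻¹) * (y ^ (p ^ n - 1))⁻¹ = a := by
      rw [hyinv]; group
    rwa [h2] at h1
  have hRadCQ : ∀ i, RadC i ≤ Q := by
    intro i a ha
    rw [hRadC] at ha
    exact (hyQk i a).mpr (hRadQ ha)
  have hRadCcard : ∀ i, Nat.card (RadC i) = Nat.card Rad := by
    intro i
    show Nat.card ↥(Rad.comap (MulAut.conj (y ^ i)).toMonoidHom) = Nat.card Rad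
    rw [Subgroup.comap_equiv_eq_map_symm']
    exact Subgroup.card_map_of_injective (MulEquiv.injective _)
  haveI : Finite ↥Rad :=
    Finite.of_injective (Subgroup.inclusion hRadQ) (Subgroup.inclusion_injective hRadQ)
  have hrelcard : ∀ (H : Subgroup Γ), H ≤ Q → H.relIndex Q * Nat.card H = Nat.card Q := by
    intro H hH
    have h1 := (H.subgroupOf Q).card_mul_index
    rw [Nat.card_congr (Subgroup.subgroupOfEquivOfLe hH).toEquiv] at h1
    rw [mul_comm]; exact h1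
  have hrel : ∀ i, (RadC i).relIndex Q = (2 ^ d) ^ 2 := by
    intro i
    have h1 := hrelcard _ (hRadCQ i)
    rw [hRadCcard, hcount', hd'] at h1
    exact Nat.eq_of_mul_eq_mul_right Nat.card_pos h1
  have hTrel : T.relIndex Q ≤ ((2 ^ d) ^ 2) ^ (p ^ j - 1) := by
    show (Q ⊓ ⨅ i : Fin (p ^ j - 1), RadC (i + 1)).relIndex Q ≤ _
    rw [Subgroup.inf_relIndex_left]
    refine le_trans (Subgroup.relIndex_iInf_le _) ?_
    rw [Finset.prod_congr rfl (fun i _ => hrel _)]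
    simp
  -- Step 7: the free action
  have hψne : ψ ≠ 1 := by
    intro h1
    obtain ⟨a, ha, haR⟩ := hexQ
    apply haR
    apply hZRad
    apply hfpf a ha
    rw [h1]; simp
  have hord : orderOf y = p ^ n := by
    haveI : Fact p.Prime := ⟨hp⟩
    obtain ⟨n', rfl⟩ : ∃ n', n = n' + 1 := ⟨n - 1, by omega⟩
    apply orderOf_eq_prime_pow _ hyn
    rw [Nat.add_sub_cancel] at hψdef
    rw [← hψdef]; exact hψne
  let C : Subgroup Γ := Subgroup.zpowers y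
  have hCQ : C ≤ Subgroup.normalizer (Q : Set Γ) := by
    rw [Subgroup.zpowers_le, Subgroup.mem_normalizer_iff]; exact hyQ
  have hCT : C ≤ Subgroup.normalizer (T : Set Γ) := by
    rw [Subgroup.zpowers_le, Subgroup.mem_normalizer_iff]; exact hyT
  let Ω : Set Γ := (Q : Set Γ) \ (T : Set Γ)
  letI : MulAction ↥C ↥Ω :=
    { smul := fun c a => ⟨c * a * (c : Γ)⁻¹, by
        have h1 := (Subgroup.mem_normalizer_iff.mp (hCQ c.2)) a
        have h2 := (Subgroup.mem_normalizer_iff.mp (hCT c.2)) a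
        exact ⟨h1.mp a.2.1, fun h => a.2.2 (h2.mpr h)⟩⟩
      one_smul := by
        intro a; apply Subtype.ext
        show ((1 : ↥C) : Γ) * a * ((1 : ↥C) : Γ)⁻¹ = a
        simp
      mul_smul := by
        intro c c' a; apply Subtype.ext
        show ((c * c' : ↥C) : Γ) * a * ((c * c' : ↥C) : Γ)⁻¹
          = c * (c' * a * (c' : Γ)⁻¹) * (c : Γ)⁻¹
        rw [Subgroup.coe_mul]; group }
  have hsmul : ∀ (c : ↥C) (a : ↥Ω), ((c • a : ↥Ω) : Γ) = c * a * (c : Γ)⁻¹ := fun c a => rfl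
  have hstab : ∀ a : ↥Ω, MulAction.stabilizer ↥C a = ⊥ := by
    intro a
    rw [eq_bot_iff]
    intro c hc
    rw [Subgroup.mem_bot]
    by_contra hc1
    have h1 : (c : Γ) * a * (c : Γ)⁻¹ = a := by
      have := MulAction.mem_stabilizer_iff.mp hc
      rw [← hsmul, this]
    obtain ⟨k, hk⟩ := Subgroup.mem_zpowers_iff.mp c.2
    have h2 : y ^ k ∈ Subgroup.centralizer {(a : Γ)} := by
      rw [hk, Subgroup.mem_centralizer_iff]
      intro b hb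
      rw [Set.mem_singleton_iff] at hb
      rw [hb]
      calc (a : Γ) * c = ((c : Γ) * a * (c : Γ)⁻¹) * c := by rw [h1]
        _ = c * a := by group
    have h3 : y ^ k ≠ 1 := by
      rw [hk]; intro h; apply hc1; exact Subtype.ext h
    have h4 := HHAux.pow_mem_of_zpow_mem y p n hp hn hyn _ k h2 h3
    rw [← hψdef, Subgroup.mem_centralizer_iff] at h4
    have h5 := h4 a (Set.mem_singleton _)
    have h6 : ψ * a * ψ⁻¹ * (a : Γ)⁻¹ = 1 := by
      rw [← h5]; group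
    have h7 := hfpf a a.2.1 (by rw [h6]; exact Z.one_mem)
    exact a.2.2 (hZT h7)
  have hcardΩ : p ^ n ∣ Nat.card ↥Ω := by
    have h1 := Nat.card_congr (MulAction.selfEquivOrbitsQuotientProd hstab)
    rw [Nat.card_prod] at h1
    have h2 : Nat.card ↥C = p ^ n := by rw [← hord]; exact Nat.card_zpowers y
    rw [h1, h2]
    exact dvd_mul_left _ _
  have hΩcard : Nat.card ↥Ω + Nat.card T = Nat.card Q := by
    have h1 := Set.ncard_sdiff_add_ncard_of_subset (s := (T : Set Γ)) (t := (Q : Set Γ)) hTQ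
      (Set.toFinite _)
    rw [← Nat.card_coe_set_eq, ← Nat.card_coe_set_eq, ← Nat.card_coe_set_eq] at h1
    exact h1
  -- Step 8: counting
  have hTq : IsPGroup 2 T := hQq.to_le hTQ
  haveI : Finite ↥T :=
    Finite.of_injective (Subgroup.inclusion hTQ) (Subgroup.inclusion_injective hTQ)
  obtain ⟨e'', he''⟩ := (IsPGroup.iff_card).mp hTq
  have hTlt : Nat.card T < Nat.card Q := by
    have h1 : Nat.card T ≤ Nat.card Rad := Subgroup.card_le_of_le hTRad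
    have h2 : 0 < Nat.card Rad := Nat.card_pos
    rw [hcount', hd']
    have h3 : 2 ≤ 2 ^ d := by
      calc 2 = 2 ^ 1 := by norm_num
        _ ≤ 2 ^ d := Nat.pow_le_pow_right (by norm_num) hd0
    have h4 : 1 < (2 ^ d) ^ 2 := by nlinarith
    calc Nat.card ↥T ≤ Nat.card ↥Rad := h1
      _ = 1 * Nat.card ↥Rad := (one_mul _).symm
      _ < (2 ^ d) ^ 2 * Nat.card ↥Rad := Nat.mul_lt_mul_of_pos_right h4 h2
  have hee : e'' < e := by
    rw [he, he''] at hTlt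
    exact (Nat.pow_lt_pow_iff_right (by norm_num)).mp hTlt
  obtain ⟨f, hf⟩ : ∃ f, e = e'' + f := ⟨e - e'', by omega⟩
  have hf0 : 0 < f := by omega
  have hrelT : T.relIndex Q = 2 ^ f := by
    have h1 := hrelcard _ hTQ
    rw [he, he'', hf, pow_add, mul_comm] at h1
    exact Nat.eq_of_mul_eq_mul_left (by positivity) h1
  have hfle : f ≤ d * (2 * (p ^ j - 1)) := by
    rw [hrelT, ← pow_mul, ← pow_mul] at hTrel
    exact (Nat.pow_le_pow_iff_right (a := 2) (by norm_num)).mp hTrel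
  have hdivf : p ^ n ∣ 2 ^ f - 1 := by
    have h1 : Nat.card ↥Ω = 2 ^ e'' * (2 ^ f - 1) := by
      have h2 : 2 ^ e'' * (2 ^ f - 1) = 2 ^ e - 2 ^ e'' := by
        rw [Nat.mul_sub, mul_one, hf, pow_add]
      rw [h2]; omega
    rw [h1] at hcardΩ
    have hcop : Nat.Coprime (p ^ n) (2 ^ e'') := by
      apply Nat.Coprime.pow
      exact (Nat.coprime_primes hp Nat.prime_two).mpr hp2
    exact hcop.dvd_of_dvd_mul_left hcardΩ
  have hnmj : n = m + j := by omega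
  rw [hnmj] at hdivf
  have hfinal := HHAux.nt_bound p m j d f hp hp2 hm0 hd0 hpm hf0 hdivf
  have hpj : 1 ≤ p ^ j := Nat.one_le_iff_ne_zero.mpr (pow_ne_zero _ hp.pos.ne')
  have h9 : d * (2 * (p ^ j - 1)) + d * 2 = 2 * d * p ^ j := by
    obtain ⟨t, ht⟩ : ∃ t, p ^ j = t + 1 := ⟨p ^ j - 1, by omega⟩
    rw [ht, Nat.add_sub_cancel]; ring
  omega

section field

open scoped TensorProduct

set_option maxHeartbeats 1600000 in
/-- Version over an arbitrary field. -/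
theorem hh_pp_field {k : Type*} [Field k] {W₀ : Type*} [AddCommGroup W₀] [Module k W₀]
    [FiniteDimensional k W₀] {Γ : Type*} [Group Γ] (ρ : Γ →* Module.End k W₀) (Q Z : Subgroup Γ)
    [Finite Q] (hZQ : Z ≤ Q) (y : Γ) (p q n : ℕ) (hp : p.Prime) (hp2 : p ≠ 2)
    (hq : q.Prime) (hn : 0 < n) (hyn : y ^ (p ^ n) = 1) (hpK : (p : k) ≠ 0) (hqK : (q : k) ≠ 0)
    (hQq : IsPGroup q Q)
    (hyQ : ∀ a, a ∈ Q ↔ y * a * y⁻¹ ∈ Q)
    (hyZ : ∀ a, a ∈ Z ↔ y * a * y⁻¹ ∈ Z)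
    (hZc : ∀ z ∈ Z, ∀ a ∈ Q, a * z = z * a)
    (hcomm : ∀ a ∈ Q, ∀ b ∈ Q, a * b * a⁻¹ * b⁻¹ ∈ Z)
    (hψZ : ∀ z ∈ Z, y ^ (p ^ (n - 1)) * z = z * y ^ (p ^ (n - 1)))
    (hfpf : ∀ a ∈ Q, y ^ (p ^ (n - 1)) * a * (y ^ (p ^ (n - 1)))⁻¹ * a⁻¹ ∈ Z → a ∈ Z)
    (hyfpf : ∀ z ∈ Z, y * z = z * y → z = 1)
    (hfix : ∀ w, ρ y w = w → w = 0) :
    ∀ a ∈ Q, ρ (y ^ (p ^ (n - 1)) * a * (y ^ (p ^ (n - 1)))⁻¹ * a⁻¹) = 1 := by
  classical
  let L := AlgebraicClosure k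
  let bc : Module.End k W₀ →ₐ[k] Module.End L (L ⊗[k] W₀) := Module.End.baseChangeHom k L W₀
  let ρL : Γ →* Module.End L (L ⊗[k] W₀) := (bc : Module.End k W₀ →* _).comp ρ
  have hρL : ∀ g : Γ, ρL g = bc (ρ g) := fun g => rfl
  have hinjL : Function.Injective (algebraMap k L) := (algebraMap k L).injective
  have hcast : ∀ n : ℕ, (n : k) ≠ 0 → (n : L) ≠ 0 := by
    intro n hn h
    apply hn
    apply hinjL
    rw [map_natCast, map_zero]; exact h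
  have hfixL : ∀ v : L ⊗[k] W₀, ρL y v = v → v = 0 := by
    have h1 : IsUnit (ρ y - 1) := by
      rw [LinearMap.isUnit_iff_ker_eq_bot, LinearMap.ker_eq_bot']
      intro w hw
      apply hfix
      rw [LinearMap.sub_apply, Module.End.one_apply, sub_eq_zero] at hw
      exact hw
    have h2 : IsUnit (bc (ρ y - 1)) := h1.map bc
    rw [map_sub, map_one] at h2
    intro v hv
    have h4 := (LinearMap.isUnit_iff_ker_eq_bot _).mp h2
    have h5 : v ∈ LinearMap.ker (bc (ρ y) - 1) := by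
      rw [LinearMap.mem_ker, LinearMap.sub_apply, Module.End.one_apply, sub_eq_zero]
      exact hv
    rw [h4] at h5
    exact (Submodule.mem_bot L).mp h5
  have hbcinj : Function.Injective bc := by
    intro f g hfg
    apply LinearMap.ext
    intro w
    have h1 : (1 : L) ⊗ₜ[k] f w = (1 : L) ⊗ₜ[k] g w := by
      have h2 : (f.baseChange L) ((1 : L) ⊗ₜ[k] w) = (g.baseChange L) ((1 : L) ⊗ₜ[k] w) :=
        congrArg (fun T : Module.End L (L ⊗[k] W₀) => T ((1 : L) ⊗ₜ[k] w)) hfg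
      rwa [LinearMap.baseChange_tmul, LinearMap.baseChange_tmul] at h2
    exact Module.FaithfullyFlat.tensorProduct_mk_injective (A := k) (B := L) W₀ h1
  intro a ha
  apply hbcinj
  rw [map_one]
  have h1 := hh_pp_closed ρL Q Z hZQ y p q n hp hp2 hq hn hyn (hcast _ hpK) (hcast _ hqK) hQq hyQ
    hyZ hZc hcomm hψZ hfpf hyfpf hfixL a ha
  apply LinearMap.ext
  intro w
  exact h1 w

end field

section ext

theorem hh_pp_ext_aux {Γ : Type*} [Group Γ] {V : Type*} [CommGroup V] [Finite V]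
    (ψV : Γ →* MulAut V) (r : ℕ) [hr : Fact r.Prime] [Module (ZMod r) (Additive V)]
    (Q Z : Subgroup Γ) [Finite Q] (hZQ : Z ≤ Q) (y : Γ) (p q n : ℕ) (hp : p.Prime) (hp2 : p ≠ 2)
    (hq : q.Prime) (hn : 0 < n) (hyn : y ^ (p ^ n) = 1) (hrp : r ≠ p) (hrq : r ≠ q)
    (hQq : IsPGroup q Q)
    (hyQ : ∀ a, a ∈ Q ↔ y * a * y⁻¹ ∈ Q)
    (hyZ : ∀ a, a ∈ Z ↔ y * a * y⁻¹ ∈ Z)
    (hZc : ∀ z ∈ Z, ∀ a ∈ Q, a * z = z * a)
    (hcomm : ∀ a ∈ Q, ∀ b ∈ Q, a * b * a⁻¹ * b⁻¹ ∈ Z)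
    (hψZ : ∀ z ∈ Z, y ^ (p ^ (n - 1)) * z = z * y ^ (p ^ (n - 1)))
    (hfpf : ∀ a ∈ Q, y ^ (p ^ (n - 1)) * a * (y ^ (p ^ (n - 1)))⁻¹ * a⁻¹ ∈ Z → a ∈ Z)
    (hyfpf : ∀ z ∈ Z, y * z = z * y → z = 1)
    (hfix : ∀ v : V, ψV y v = v → v = 1) :
    ∀ a ∈ Q, ψV (y ^ (p ^ (n - 1)) * a * (y ^ (p ^ (n - 1)))⁻¹ * a⁻¹) = 1 := by
  classical
  let ρ : Γ →* Module.End (ZMod r) (Additive V) :=
    { toFun := fun g =>
        AddMonoidHom.toZModLinearMap r (MonoidHom.toAdditive ((ψV g : V ≃* V) : V →* V))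
      map_one' := by
        apply LinearMap.ext; intro x
        simp
      map_mul' := by
        intro a b
        apply LinearMap.ext; intro x
        simp }
  have hρ : ∀ (g : Γ) (v : Additive V), ρ g v = Additive.ofMul (ψV g (Additive.toMul v)) :=
    fun g v => rfl
  have hmain := hh_pp_field ρ Q Z hZQ y p q n hp hp2 hq hn hyn ?_ ?_ hQq hyQ hyZ hZc hcomm hψZ hfpf
    hyfpf ?_
  · intro a ha
    have h := hmain a ha
    apply MulEquiv.ext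
    intro v
    have h1 := congrArg (fun T : Module.End (ZMod r) (Additive V) => T (Additive.ofMul v)) h
    exact congrArg Additive.toMul h1
  · rw [Ne, ZMod.natCast_eq_zero_iff]
    intro h
    exact hrp ((Nat.prime_dvd_prime_iff_eq hr.out hp).mp h)
  · rw [Ne, ZMod.natCast_eq_zero_iff]
    intro h
    exact hrq ((Nat.prime_dvd_prime_iff_eq hr.out hq).mp h)
  · intro w hw
    have h1 := hfix (Additive.toMul w) (congrArg Additive.toMul hw)
    exact congrArg Additive.ofMul h1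

/-- **Hall–Higman–Shult type theorem for a cyclic group of odd prime power order acting fixed
point freely on an elementary abelian group.** -/
theorem hh_pp_ext {Γ : Type*} [Group Γ] {V : Type*} [Group V] [Finite V] (ψV : Γ →* MulAut V)
    (r : ℕ) [hr : Fact r.Prime] (hVc : ∀ a b : V, a * b = b * a) (hVr : ∀ a : V, a ^ r = 1)
    (Q Z : Subgroup Γ) [Finite Q] (hZQ : Z ≤ Q) (y : Γ) (p q n : ℕ) (hp : p.Prime) (hp2 : p ≠ 2)
    (hq : q.Prime) (hn : 0 < n) (hyn : y ^ (p ^ n) = 1) (hrp : r ≠ p) (hrq : r ≠ q)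
    (hQq : IsPGroup q Q)
    (hyQ : ∀ a, a ∈ Q ↔ y * a * y⁻¹ ∈ Q)
    (hyZ : ∀ a, a ∈ Z ↔ y * a * y⁻¹ ∈ Z)
    (hZc : ∀ z ∈ Z, ∀ a ∈ Q, a * z = z * a)
    (hcomm : ∀ a ∈ Q, ∀ b ∈ Q, a * b * a⁻¹ * b⁻¹ ∈ Z)
    (hψZ : ∀ z ∈ Z, y ^ (p ^ (n - 1)) * z = z * y ^ (p ^ (n - 1)))
    (hfpf : ∀ a ∈ Q, y ^ (p ^ (n - 1)) * a * (y ^ (p ^ (n - 1)))⁻¹ * a⁻¹ ∈ Z → a ∈ Z)
    (hyfpf : ∀ z ∈ Z, y * z = z * y → z = 1)
    (hfix : ∀ v : V, ψV y v = v → v = 1) :
    ∀ a ∈ Q, ψV (y ^ (p ^ (n - 1)) * a * (y ^ (p ^ (n - 1)))⁻¹ * a⁻¹) = 1 := by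
  letI : CommGroup V := { (inferInstance : Group V) with mul_comm := hVc }
  letI : Module (ZMod r) (Additive V) := AddCommGroup.zmodModule (by
    intro x
    show Additive.ofMul (Additive.toMul x ^ r) = 0
    rw [hVr]; rfl)
  exact hh_pp_ext_aux ψV r Q Z hZQ y p q n hp hp2 hq hn hyn hrp hrq hQq hyQ hyZ hZc hcomm hψZ hfpf
    hyfpf hfix

end ext

end Cfsg.Agent.Lib.Helper59.HHLin3
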