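import Mathlib
import Cfsg.Agent.Lib.Helper59.HTStmt
import Cfsg.Agent.Lib.Helper59.HTSCAL

/-!
# S3371 / ASTAB: in the four-group case all stabilizers have order `2`.
-/

set_option autoImplicit false

namespace Cfsg.Agent.Lib.Helper59.HTASTAB

open Cfsg.Agent.Lib.Helper59.HTStmt Cfsg.Agent.Lib.Helper59.HTSCAL

universe u v

/-- `Four (a * z) z` -/
theorem four_mul {G : Type v} [Group G] {a z : G} (hF : Four a z) : Four (a * z) z := by
  have hzc : ∀ y : G, y * z = z * y := fun y => Subgroup.mem_center_iff.1 hF.zc y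
  have hzinv : z⁻¹ = z := inv_eq_of_mul_eq_one_right hF.zz
  refine ⟨hF.zc, hF.z1, hF.zz, ?_, ?_, ?_, ?_⟩
  · intro h
    apply hF.az
    have : a = z⁻¹ := eq_inv_of_mul_eq_one_left h
    rw [this, hzinv]
  · calc a * z * (a * z) = a * (z * a) * z := by group
      _ = a * (a * z) * z := by rw [hzc a]
      _ = (a * a) * (z * z) := by group
      _ = 1 := by rw [hF.aa, hF.zz, one_mul]
  · intro h
    apply hF.a1
    have : a * z = 1 * z := by rw [one_mul]; exact h
    exact mul_right_cancel this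
  · intro g
    have e : g * (a * z) * g⁻¹ = g * a * g⁻¹ * z := by
      calc g * (a * z) * g⁻¹ = g * a * (z * g⁻¹) := by group
        _ = g * a * (g⁻¹ * z) := by rw [hzc g⁻¹]
        _ = g * a * g⁻¹ * z := by group
    rcases hF.nrm g with h | h
    · left; rw [e, h]
    · right; rw [e, h]

theorem main : AStab.{u, v} := by
  intro hScal q _ V _ _ _ _ G _ _ ρ hq2 hρ hES hZ a z hF
  have hzneg : ∀ v : V, ρ z v = -v := neg_of_fpf ρ hF.zz (hZ z hF.zc hF.z1)
  have hn0 : ∀ v : V, v = -v → v = 0 := fun v h => eq_zero_of_eq_neg hq2 h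
  have hzc : ∀ y : G, y * z = z * y := fun y => Subgroup.mem_center_iff.1 hF.zc y
  have hF' : Four (a * z) z := four_mul hF
  have haa : ∀ v : V, ρ a (ρ a v) = v := by
    intro v
    rw [← rho_mul, hF.aa, rho_one]
  have haz : ∀ v : V, ρ (a * z) v = -ρ a v := by
    intro v
    rw [rho_mul, hzneg, map_neg]
  -- a non-zero vector fixed by `a`
  obtain ⟨v₁, hv₁, hav₁⟩ : ∃ v₁ : V, v₁ ≠ 0 ∧ ρ a v₁ = v₁ := by
    by_contra hcon
    push Not at hcon
    have haneg : ∀ v : V, ρ a v = -v := neg_of_fpf ρ hF.aa hcon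
    apply hF.az
    apply hρ
    ext v
    rw [hzneg, haneg]
  -- a non-zero vector negated by `a`
  obtain ⟨v₂, hv₂, hav₂⟩ : ∃ v₂ : V, v₂ ≠ 0 ∧ ρ a v₂ = -v₂ := by
    by_contra hcon
    push Not at hcon
    apply hF.a1
    apply hρ
    ext v
    rw [rho_one]
    have h1 : ρ a (v - ρ a v) = -(v - ρ a v) := by
      rw [map_sub, haa]; abel
    have h2 : v - ρ a v = 0 := by
      by_contra h
      exact hcon _ h h1
    exact (sub_eq_zero.1 h2).symm
  -- two elements agreeing on both eigenspaces are equal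
  have hagree : ∀ g h : G, (∀ x : V, ρ a x = x → ρ g x = ρ h x) →
      (∀ w : V, ρ a w = -w → ρ g w = ρ h w) → g = h := by
    intro g h h1 h2
    apply hρ
    ext v
    have e1 : ρ g (v + ρ a v) = ρ h (v + ρ a v) := h1 _ (by rw [map_add, haa, add_comm])
    have e2 : ρ g (v - ρ a v) = ρ h (v - ρ a v) := h2 _ (by rw [map_sub, haa]; abel)
    rw [map_add, map_add] at e1
    rw [map_sub, map_sub] at e2
    have e3 : (ρ g v - ρ h v) + (ρ g v - ρ h v) = 0 := by
      have : (ρ g v + ρ g (ρ a v)) + (ρ g v - ρ g (ρ a v))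
          = (ρ h v + ρ h (ρ a v)) + (ρ h v - ρ h (ρ a v)) := by rw [e1, e2]
      have h3 : ρ g v + ρ g v = ρ h v + ρ h v := by
        have l : (ρ g v + ρ g (ρ a v)) + (ρ g v - ρ g (ρ a v)) = ρ g v + ρ g v := by abel
        have r : (ρ h v + ρ h (ρ a v)) + (ρ h v - ρ h (ρ a v)) = ρ h v + ρ h v := by abel
        rw [l, r] at this
        exact this
      calc (ρ g v - ρ h v) + (ρ g v - ρ h v) = (ρ g v + ρ g v) - (ρ h v + ρ h v) := by abel
        _ = 0 := by rw [h3, sub_self]
    have e4 : ρ g v - ρ h v = -(ρ g v - ρ h v) := eq_neg_of_add_eq_zero_left e3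
    exact sub_eq_zero.1 (hn0 _ e4)
  -- the pointwise stabilizer of `V₂` is `{1, a z}`
  have hK2 : ∀ g : G, (∀ w : V, ρ a w = -w → ρ g w = w) → g = 1 ∨ g = a * z := by
    intro g hg
    have hfix : ρ (a * z) v₂ = v₂ := by rw [haz, hav₂, neg_neg]
    rcases hScal q V G ρ hq2 hρ hES hZ (a * z) z hF' v₂ hv₂ hfix g (hg v₂ hav₂) with h | h
    · left
      apply hagree
      · intro x hx
        rw [rho_one]
        exact h x (by rw [haz, hx])
      · intro w hw
        rw [rho_one]
        exact hg w hw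
    · right
      apply hagree
      · intro x hx
        rw [haz, hx]
        exact h x (by rw [haz, hx])
      · intro w hw
        rw [haz, hw, neg_neg]
        exact hg w hw
  -- the stabilizer of `v₁` is `{1, a}`
  have hstab : ∀ g : G, ρ g v₁ = v₁ → g = 1 ∨ g = a := by
    intro g hg
    rcases hScal q V G ρ hq2 hρ hES hZ a z hF v₁ hv₁ hav₁ g hg with h | h
    · rcases hK2 g h with h' | h'
      · exact Or.inl h'
      · exfalso
        rw [h', haz, hav₁] at hg
        exact hv₁ (hn0 v₁ hg.symm)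
    · have h2 : ∀ w : V, ρ a w = -w → ρ (g * a) w = w := by
        intro w hw
        rw [rho_mul, hw, map_neg, h w hw, neg_neg]
      rcases hK2 (g * a) h2 with h' | h'
      · right
        have : g = a⁻¹ := eq_inv_of_mul_eq_one_left h'
        rw [this]
        exact inv_eq_of_mul_eq_one_right hF.aa
      · exfalso
        have hgz : g = z := by
          have e : g * a = z * a := by rw [h', hzc a]
          exact mul_right_cancel e
        rw [hgz, hzneg] at hg
        exact hv₁ (hn0 v₁ hg.symm)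
  have hcard : Nat.card {g : G // ρ g v₁ = v₁} = 2 := by
    rw [Nat.card_eq_two_iff]
    refine ⟨⟨1, rho_one ρ v₁⟩, ⟨a, hav₁⟩, ?_, ?_⟩
    · intro h
      exact hF.a1 (congrArg Subtype.val h).symm
    · ext ⟨g, hg⟩
      simp only [Set.mem_insert_iff, Set.mem_singleton_iff, Set.mem_univ, iff_true]
      rcases hstab g hg with h | h
      · left; exact Subtype.ext h
      · right; exact Subtype.ext h
  intro v hv
  rw [hES v v₁ hv hv₁, hcard]

end Cfsg.Agent.Lib.Helper59.HTASTAB
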