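import Mathlib
import Cfsg.Agent.Lib.Helper59.HTStmt
import Cfsg.Agent.Lib.Helper59.HTSCAL
import Cfsg.Agent.Lib.Helper59.HTASTAB

/-!
# S3371 / AINV1: the non-central involutions are `a`, `a z` and the involutions outside `C_G(a)`.
-/

set_option autoImplicit false

namespace Cfsg.Agent.Lib.Helper59.HTAINV1

open Cfsg.Agent.Lib.Helper59.HTStmt Cfsg.Agent.Lib.Helper59.HTSCAL
  Cfsg.Agent.Lib.Helper59.HTASTAB

universe u v

section basic

variable {q : ℕ} [Fact q.Prime] {V : Type u} [AddCommGroup V] [Module (ZMod q) V]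
  {G : Type v} [Group G] (ρ : G →* (V ≃ₗ[ZMod q] V))

/-- `g a g⁻¹ = a` gives commuting actions -/
theorem comm_of_conj {a g : G} (hg : g * a * g⁻¹ = a) (w : V) :
    ρ a (ρ g w) = ρ g (ρ a w) := by
  have h1 : g * a = a * g := by
    have := congrArg (fun t => t * g) hg
    simpa [mul_assoc] using this
  rw [← rho_mul, ← rho_mul, h1]

/-- `g a g⁻¹ = a z` with `ρ z = -1` gives anticommuting actions -/
theorem anti_of_conj {a z g : G} (hzneg : ∀ v : V, ρ z v = -v) (hg : g * a * g⁻¹ = a * z)
    (w : V) : ρ a (ρ g w) = -ρ g (ρ a w) := by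
  have h1 : g * a = a * z * g := by
    have := congrArg (fun t => t * g) hg
    simpa [mul_assoc] using this
  have h2 : ρ g (ρ a w) = ρ a (ρ z (ρ g w)) := by
    rw [← rho_mul, ← rho_mul, ← rho_mul, h1, mul_assoc]
  rw [h2, hzneg, map_neg, neg_neg]

/-- two elements agreeing on both eigenspaces of the involution `a` are equal -/
theorem eq_of_agree (hq2 : q ≠ 2) (hρ : Function.Injective ρ) {a : G} (haa : a * a = 1)
    (g h : G) (h1 : ∀ x : V, ρ a x = x → ρ g x = ρ h x)
    (h2 : ∀ w : V, ρ a w = -w → ρ g w = ρ h w) : g = h := by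
  have haa' : ∀ v : V, ρ a (ρ a v) = v := by
    intro v
    rw [← rho_mul, haa, rho_one]
  apply hρ
  ext v
  have e1 : ρ g (v + ρ a v) = ρ h (v + ρ a v) := h1 _ (by rw [map_add, haa', add_comm])
  have e2 : ρ g (v - ρ a v) = ρ h (v - ρ a v) := h2 _ (by rw [map_sub, haa']; abel)
  rw [map_add, map_add] at e1
  rw [map_sub, map_sub] at e2
  have e3 : (ρ g v - ρ h v) + (ρ g v - ρ h v) = 0 := by
    have : (ρ g v + ρ g (ρ a v)) + (ρ g v - ρ g (ρ a v))
        = (ρ h v + ρ h (ρ a v)) + (ρ h v - ρ h (ρ a v)) := by rw [e1, e2]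
    have h3 : ρ g v + ρ g v = ρ h v + ρ h v := by
      have l : (ρ g v + ρ g (ρ a v)) + (ρ g v - ρ g (ρ a v)) = ρ g v + ρ g v := by abel
      have r : (ρ h v + ρ h (ρ a v)) + (ρ h v - ρ h (ρ a v)) = ρ h v + ρ h v := by abel
      rw [l, r] at this
      exact this
    calc (ρ g v - ρ h v) + (ρ g v - ρ h v) = (ρ g v + ρ g v) - (ρ h v + ρ h v) := by abel
      _ = 0 := by rw [h3, sub_self]
  have e4 : ρ g v - ρ h v = -(ρ g v - ρ h v) := eq_neg_of_add_eq_zero_left e3
  exact sub_eq_zero.1 (eq_zero_of_eq_neg hq2 e4)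

/-- with all stabilizers of order `2`: two non-trivial elements fixing `y ≠ 0` are equal -/
theorem eq_of_stab2 (hS : Stab2 ρ) {y : V} (hy : y ≠ 0) {g h : G} (hg1 : g ≠ 1) (hh1 : h ≠ 1)
    (hg : ρ g y = y) (hh : ρ h y = y) : g = h := by
  have hc := hS y hy
  rw [Nat.card_eq_two_iff] at hc
  obtain ⟨s, t, hst, huniv⟩ := hc
  have mem : ∀ k : {k : G // ρ k y = y}, k = s ∨ k = t := by
    intro k
    have : k ∈ ({s, t} : Set _) := by rw [huniv]; exact Set.mem_univ k
    simpa using this
  have h1 := mem ⟨1, rho_one ρ y⟩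
  have h2 := mem ⟨g, hg⟩
  have h3 := mem ⟨h, hh⟩
  have hg1' : (⟨g, hg⟩ : {k : G // ρ k y = y}) ≠ ⟨1, rho_one ρ y⟩ :=
    fun e => hg1 (congrArg Subtype.val e)
  have hh1' : (⟨h, hh⟩ : {k : G // ρ k y = y}) ≠ ⟨1, rho_one ρ y⟩ :=
    fun e => hh1 (congrArg Subtype.val e)
  have key : (⟨g, hg⟩ : {k : G // ρ k y = y}) = ⟨h, hh⟩ := by
    rcases h1 with h1 | h1 <;> rcases h2 with h2 | h2 <;> rcases h3 with h3 | h3
    · exact absurd (h2.trans h1.symm) hg1'
    · exact absurd (h2.trans h1.symm) hg1'
    · exact absurd (h3.trans h1.symm) hh1'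
    · exact h2.trans h3.symm
    · exact h2.trans h3.symm
    · exact absurd (h3.trans h1.symm) hh1'
    · exact absurd (h2.trans h1.symm) hg1'
    · exact absurd (h2.trans h1.symm) hg1'
  exact congrArg Subtype.val key

end basic

theorem main : AInv1.{u, v} := by
  intro hANC q _ V _ _ _ _ G _ _ ρ hq2 hρ hS hZ a z hF
  classical
  have hzneg : ∀ v : V, ρ z v = -v := neg_of_fpf ρ hF.zz (hZ z hF.zc hF.z1)
  have hn0 : ∀ v : V, v = -v → v = 0 := fun v h => eq_zero_of_eq_neg hq2 h
  have hzc : ∀ y : G, y * z = z * y := fun y => Subgroup.mem_center_iff.1 hF.zc y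
  have hF' : Four (a * z) z := four_mul hF
  have hanc : a ∉ Subgroup.center G := hANC q V G ρ hρ hZ a z hF
  have haz : ∀ v : V, ρ (a * z) v = -ρ a v := by
    intro v
    rw [rho_mul, hzneg, map_neg]
  have h2p : Fact (Nat.Prime 2) := ⟨Nat.prime_two⟩
  have haznc : a * z ∉ Subgroup.center G := by
    intro h
    apply hanc
    have h1 : a * z * z ∈ Subgroup.center G := Subgroup.mul_mem _ h hF.zc
    rwa [mul_assoc, hF.zz, mul_one] at h1
  set N : Set G := {g | orderOf g = 2 ∧ g ∉ Subgroup.center G} with hN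
  set T : Set G := {t | t * t = 1 ∧ t * a * t⁻¹ = a * z} with hT
  have hfin : ∀ s : Set G, s.Finite := fun s => Set.toFinite s
  have haT : a ∉ T := by
    rintro ⟨-, h⟩
    have h1 : a * a * a⁻¹ = a := by group
    rw [h1] at h
    have : a * 1 = a * z := by rw [mul_one]; exact h
    exact hF.z1 (mul_left_cancel this).symm
  have hazT : a * z ∉ T := by
    rintro ⟨-, h⟩
    have h1 : a * z * a * (a * z)⁻¹ = a := by
      calc a * z * a * (a * z)⁻¹ = a * (z * a) * (a * z)⁻¹ := by group
        _ = a * (a * z) * (a * z)⁻¹ := by rw [hzc a]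
        _ = a := by group
    rw [h1] at h
    have : a * 1 = a * z := by rw [mul_one]; exact h
    exact hF.z1 (mul_left_cancel this).symm
  have haaz : a ≠ a * z := by
    intro h
    have : a * 1 = a * z := by rw [mul_one]; exact h
    exact hF.z1 (mul_left_cancel this).symm
  have hNeq : N = T ∪ {a, a * z} := by
    ext g
    constructor
    · rintro ⟨hg2, hgc⟩
      have hgg : g * g = 1 := by
        have := pow_orderOf_eq_one g
        rw [hg2, pow_two] at this
        exact this
      have hg1 : g ≠ 1 := by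
        rintro rfl
        rw [orderOf_one] at hg2
        omega
      rcases hF.nrm g with hga | hga
      · right
        by_contra hcon
        have hcon' : g ≠ a ∧ g ≠ a * z := by
          constructor
          · intro h; exact hcon (Or.inl h)
          · intro h; exact hcon (Or.inr h)
        apply hgc
        have hgz : g = z := by
          apply eq_of_agree ρ hq2 hρ hF.aa
          · intro x hx
            rw [hzneg]
            have hy1 : ρ g (x + ρ g x) = x + ρ g x := by
              rw [map_add, ← rho_mul, hgg, rho_one, add_comm]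
            have hy2 : ρ a (x + ρ g x) = x + ρ g x := by
              rw [map_add, comm_of_conj ρ hga, hx]
            by_contra hne
            have hy0 : x + ρ g x ≠ 0 := by
              intro h0
              exact hne (neg_eq_of_add_eq_zero_right h0).symm
            exact hcon'.1 (eq_of_stab2 ρ hS hy0 hg1 hF.a1 hy1 hy2)
          · intro w hw
            rw [hzneg]
            have hy1 : ρ g (w + ρ g w) = w + ρ g w := by
              rw [map_add, ← rho_mul, hgg, rho_one, add_comm]
            have hy2 : ρ (a * z) (w + ρ g w) = w + ρ g w := by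
              rw [haz, map_add, comm_of_conj ρ hga, hw, map_neg]
              abel
            by_contra hne
            have hy0 : w + ρ g w ≠ 0 := by
              intro h0
              exact hne (neg_eq_of_add_eq_zero_right h0).symm
            exact hcon'.2 (eq_of_stab2 ρ hS hy0 hg1 hF'.a1 hy1 hy2)
        rw [hgz]
        exact hF.zc
      · left
        exact ⟨hgg, hga⟩
    · rintro (⟨htt, hta⟩ | hg)
      · have ht1 : g ≠ 1 := by
          rintro rfl
          have h1 : (1 : G) * a * 1⁻¹ = a := by group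
          rw [h1] at hta
          exact haaz hta
        refine ⟨orderOf_eq_prime (by rw [pow_two]; exact htt) ht1, ?_⟩
        intro hc
        have h1 : g * a * g⁻¹ = a := by
          rw [← Subgroup.mem_center_iff.1 hc a]
          group
        rw [h1] at hta
        exact haaz hta
      · rcases hg with rfl | rfl
        · exact ⟨orderOf_eq_prime (by rw [pow_two]; exact hF.aa) hF.a1, hanc⟩
        · exact ⟨orderOf_eq_prime (by rw [pow_two]; exact hF'.aa) hF'.a1, haznc⟩
  have hdisj : Disjoint T ({a, a * z} : Set G) := by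
    rw [Set.disjoint_left]
    intro g hg hg'
    rcases hg' with rfl | rfl
    · exact haT hg
    · exact hazT hg
  have e1 : Nat.card {g : G // orderOf g = 2 ∧ g ∉ Subgroup.center G} = N.ncard :=
    Nat.card_coe_set_eq N
  have e2 : Nat.card {t : G // t * t = 1 ∧ t * a * t⁻¹ = a * z} = T.ncard :=
    Nat.card_coe_set_eq T
  rw [e1, e2, hNeq, Set.ncard_union_eq hdisj (hfin _) (hfin _), Set.ncard_pair haaz]

end Cfsg.Agent.Lib.Helper59.HTAINV1
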