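import Mathlib
import Cfsg.Agent.Lib.Helper59.HTStmt
import Cfsg.Agent.Lib.Helper59.HTSCAL
import Cfsg.Agent.Lib.Helper59.HTAINV1

/-!
# S3371 / ACOORD: the coordinate description in the case `q = 2 ^ m + 1`.
-/

set_option autoImplicit false

namespace Cfsg.Agent.Lib.Helper59.HTACOORD

open Cfsg.Agent.Lib.Helper59.HTStmt Cfsg.Agent.Lib.Helper59.HTSCAL
  Cfsg.Agent.Lib.Helper59.HTAINV1

universe u v

/-- equality of two vectors of `Fin 2 → R` -/
theorem vec2_ext {R : Type*} {x y : Fin 2 → R} (h0 : x 0 = y 0) (h1 : x 1 = y 1) : x = y := by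
  ext i
  fin_cases i
  · exact h0
  · exact h1

theorem main : ACoord.{u, v} := by
  intro hABasis hDiag hAUnits q _ V _ _ _ _ G _ _ ρ hq2 hρ hZ a z hF hanc hV hHcard hTcard
  classical
  have hqp : q.Prime := Fact.out
  have hzneg : ∀ v : V, ρ z v = -v := neg_of_fpf ρ hF.zz (hZ z hF.zc hF.z1)
  have hzc : ∀ y : G, y * z = z * y := fun y => Subgroup.mem_center_iff.1 hF.zc y
  have hq3 : 3 ≤ q := by
    have := hqp.two_le
    omega
  -- an involution outside the centralizer
  obtain ⟨t, htt, hta⟩ : ∃ t : G, t * t = 1 ∧ t * a * t⁻¹ = a * z := by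
    have hpos : 0 < Nat.card {t : G // t * t = 1 ∧ t * a * t⁻¹ = a * z} := by
      rw [hTcard]; omega
    obtain ⟨⟨t, ht⟩⟩ := (Nat.card_pos_iff.1 hpos).1
    exact ⟨t, ht⟩
  have htinv : t⁻¹ = t := inv_eq_of_mul_eq_one_right htt
  obtain ⟨e, hea, het⟩ := hABasis q V G ρ hq2 hρ hZ a z hF hV t htt hta
  -- the coordinate form of `ρ g`
  obtain ⟨F, hFdef⟩ : ∃ F : G → ((Fin 2 → ZMod q) ≃ₗ[ZMod q] (Fin 2 → ZMod q)),
      ∀ g, F g = e.symm.trans ((ρ g).trans e) := ⟨_, fun _ => rfl⟩
  have hFap : ∀ g x, F g x = e (ρ g (e.symm x)) := by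
    intro g x
    rw [hFdef]
    rfl
  have hFmul : ∀ g h x, F (g * h) x = F g (F h x) := by
    intro g h x
    rw [hFap, hFap, hFap, rho_mul, LinearEquiv.symm_apply_apply]
  have hFone : ∀ x, F 1 x = x := by
    intro x
    rw [hFap, rho_one, LinearEquiv.apply_symm_apply]
  have hFinj : ∀ g h, (∀ x, F g x = F h x) → g = h := by
    intro g h hgh
    apply hρ
    ext v
    have := hgh (e v)
    rw [hFap, hFap, LinearEquiv.symm_apply_apply] at this
    exact e.injective this
  have hFt : ∀ x, F t x = ![x 1, x 0] := by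
    intro x
    rw [hFap, het, LinearEquiv.apply_symm_apply]
  have hFa : ∀ x, F a x = ![x 0, - x 1] := by
    intro x
    rw [hFap, hea, LinearEquiv.apply_symm_apply]
  -- elements commuting with `a` are diagonal
  have hdiag : ∀ h : G, h * a * h⁻¹ = a →
      ∃ c d : (ZMod q)ˣ, ∀ x, F h x = ![(c : ZMod q) * x 0, (d : ZMod q) * x 1] := by
    intro h hh
    apply hDiag q hq2 (F h)
    intro x
    have h1 : h * a = a * h := by
      have := congrArg (fun y => y * h) hh
      simpa [mul_assoc] using this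
    rw [← hFa, ← hFmul, h1, hFmul, hFa]
  -- membership in the centralizer
  have hHmem : ∀ h : G, h ∈ Subgroup.centralizer ({a} : Set G) ↔ h * a * h⁻¹ = a := by
    intro h
    rw [Subgroup.mem_centralizer_iff]
    constructor
    · intro hh
      rw [← hh a rfl]
      group
    · intro hh y hy
      rw [Set.mem_singleton_iff] at hy
      rw [hy]
      have := congrArg (fun y => y * h) hh
      simpa [mul_assoc] using this.symm
  -- the homomorphism to pairs of units
  have hdiag' : ∀ h : Subgroup.centralizer ({a} : Set G),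
      ∃ cd : (ZMod q)ˣ × (ZMod q)ˣ,
        ∀ x, F (h : G) x = ![(cd.1 : ZMod q) * x 0, (cd.2 : ZMod q) * x 1] := by
    intro h
    obtain ⟨c, d, hcd⟩ := hdiag h ((hHmem h).1 h.2)
    exact ⟨(c, d), hcd⟩
  choose φf hφf using hdiag'
  have huniq : ∀ (g : G) (cd cd' : (ZMod q)ˣ × (ZMod q)ˣ),
      (∀ x, F g x = ![(cd.1 : ZMod q) * x 0, (cd.2 : ZMod q) * x 1]) →
      (∀ x, F g x = ![(cd'.1 : ZMod q) * x 0, (cd'.2 : ZMod q) * x 1]) → cd = cd' := by
    intro g cd cd' h1 h2
    have h3 := (h1 ![1, 1]).symm.trans (h2 ![1, 1])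
    have h30 := congrFun h3 0
    have h31 := congrFun h3 1
    simp only [Matrix.cons_val_zero, Matrix.cons_val_one, mul_one] at h30 h31
    exact Prod.ext (Units.ext h30) (Units.ext h31)
  have hφmul : ∀ h h' : Subgroup.centralizer ({a} : Set G), φf (h * h') = φf h * φf h' := by
    intro h h'
    apply huniq ((h * h' : Subgroup.centralizer ({a} : Set G)) : G) _ _ (hφf (h * h'))
    intro x
    have : ((h * h' : Subgroup.centralizer ({a} : Set G)) : G) = (h : G) * (h' : G) := rfl
    rw [this, hFmul, hφf h', hφf h]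
    ext i
    fin_cases i <;> simp [Units.val_mul, mul_assoc]
  let φ : Subgroup.centralizer ({a} : Set G) →* (ZMod q)ˣ × (ZMod q)ˣ := MonoidHom.mk' φf hφmul
  have hφ : ∀ h, φ h = φf h := fun _ => rfl
  have hφinj : Function.Injective φ := by
    intro h h' hhh
    apply Subtype.ext
    apply hFinj
    intro x
    rw [hφf h, hφf h', ← hφ, ← hφ, hhh]
  have hKcard : Nat.card φ.range = 2 * (q - 1) := by
    rw [← hHcard]
    exact (Nat.card_congr (Equiv.ofInjective φ hφinj)).symm
  -- conjugation facts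
  have hta' : t * (a * z) * t⁻¹ = a := by
    calc t * (a * z) * t⁻¹ = t * a * (z * t⁻¹) := by group
      _ = t * a * (t⁻¹ * z) := by rw [hzc t⁻¹]
      _ = (t * a * t⁻¹) * z := by group
      _ = a * (z * z) := by rw [hta]; group
      _ = a := by rw [hF.zz, mul_one]
  have hmulT : ∀ g : G, g * a * g⁻¹ = a * z → (g * t) * a * (g * t)⁻¹ = a := by
    intro g hg
    have h1 : t * a * t = a * z := by
      have := hta
      rw [htinv] at this
      exact this
    calc g * t * a * (g * t)⁻¹ = g * (t * a * t⁻¹) * g⁻¹ := by group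
      _ = g * (a * z) * g⁻¹ := by rw [hta]
      _ = g * a * (z * g⁻¹) := by group
      _ = g * a * (g⁻¹ * z) := by rw [hzc g⁻¹]
      _ = (g * a * g⁻¹) * z := by group
      _ = a * (z * z) := by rw [hg]; group
      _ = a := by rw [hF.zz, mul_one]
  have hmulH : ∀ h : G, h * a * h⁻¹ = a → (h * t) * a * (h * t)⁻¹ = a * z := by
    intro h hh
    calc h * t * a * (h * t)⁻¹ = h * (t * a * t⁻¹) * h⁻¹ := by group
      _ = h * (a * z) * h⁻¹ := by rw [hta]
      _ = h * a * (z * h⁻¹) := by group
      _ = h * a * (h⁻¹ * z) := by rw [hzc h⁻¹]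
      _ = (h * a * h⁻¹) * z := by group
      _ = a * z := by rw [hh]
  -- `F (h * t)` and the involution criterion
  have hFht : ∀ (h : Subgroup.centralizer ({a} : Set G)) x,
      F ((h : G) * t) x = ![((φf h).1 : ZMod q) * x 1, ((φf h).2 : ZMod q) * x 0] := by
    intro h x
    rw [hFmul, hFt, hφf h]
    apply vec2_ext
    · simp only [Matrix.cons_val_zero]
    · simp only [Matrix.cons_val_one, Matrix.cons_val_zero]
  have hinvol : ∀ h : Subgroup.centralizer ({a} : Set G),
      ((h : G) * t) * ((h : G) * t) = 1 ↔ (φf h).1 * (φf h).2 = 1 := by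
    intro h
    constructor
    · intro hh
      have h1 := hFmul ((h : G) * t) ((h : G) * t) ![1, 1]
      rw [hh, hFone, hFht h, hFht h] at h1
      have h10 := congrFun h1 0
      simp only [Matrix.cons_val_zero, Matrix.cons_val_one, mul_one] at h10
      apply Units.ext
      rw [Units.val_mul, Units.val_one]
      exact h10.symm
    · intro hh
      apply hFinj
      intro x
      rw [hFmul, hFone, hFht h, hFht h]
      have hh' : ((φf h).1 : ZMod q) * ((φf h).2 : ZMod q) = 1 := by
        rw [← Units.val_mul, hh, Units.val_one]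
      apply vec2_ext
      · simp only [Matrix.cons_val_zero, Matrix.cons_val_one]
        rw [← mul_assoc, hh', one_mul]
      · simp only [Matrix.cons_val_zero, Matrix.cons_val_one]
        rw [← mul_assoc, mul_comm ((φf h).2 : ZMod q), hh', one_mul]
  -- the count of elements of the range with product `1`
  have hKcount : Nat.card {k : (ZMod q)ˣ × (ZMod q)ˣ // k ∈ φ.range ∧ k.1 * k.2 = 1} = q - 1 := by
    rw [← hTcard]
    symm
    apply Nat.card_congr
    refine Equiv.ofBijective
      (fun t' : {t : G // t * t = 1 ∧ t * a * t⁻¹ = a * z} =>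
        (⟨φ ⟨(t' : G) * t, (hHmem _).2 (hmulT _ t'.2.2)⟩, ⟨⟨_, rfl⟩, ?_⟩⟩ :
          {k : (ZMod q)ˣ × (ZMod q)ˣ // k ∈ φ.range ∧ k.1 * k.2 = 1})) ⟨?_, ?_⟩
    · rw [hφ, ← hinvol]
      have e1 : (t' : G) * t * t = (t' : G) := by rw [mul_assoc, htt, mul_one]
      show ((t' : G) * t * t) * ((t' : G) * t * t) = 1
      rw [e1]
      exact t'.2.1
    · intro t₁ t₂ h12
      have h1 := congrArg Subtype.val h12
      have h2 := hφinj h1
      have h3 : (t₁ : G) * t = (t₂ : G) * t := congrArg Subtype.val h2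
      exact Subtype.ext (mul_right_cancel h3)
    · rintro ⟨k, ⟨h, rfl⟩, hk⟩
      have hk' : (φf h).1 * (φf h).2 = 1 := hk
      have h1 := (hinvol h).2 hk'
      refine ⟨⟨(h : G) * t, h1, hmulH _ ((hHmem _).1 h.2)⟩, ?_⟩
      apply Subtype.ext
      show φ ⟨(h : G) * t * t, _⟩ = φ h
      congr 1
      apply Subtype.ext
      show (h : G) * t * t = (h : G)
      rw [mul_assoc, htt, mul_one]
  have hK := hAUnits q hq2 φ.range hKcard hKcount
  refine ⟨e, ?_⟩
  intro f
  constructor
  · rintro ⟨g, rfl⟩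
    rw [← hFdef]
    rcases hF.nrm g with hg | hg
    · -- `g` commutes with `a`
      obtain ⟨h, hh⟩ : ∃ h : Subgroup.centralizer ({a} : Set G), (h : G) = g :=
        ⟨⟨g, (hHmem g).2 hg⟩, rfl⟩
      have hcd := hφf h
      rw [hh] at hcd
      have hmem : φf h ∈ φ.range := ⟨h, rfl⟩
      have hpm := (hK _).1 hmem
      refine ⟨((φf h).1 : ZMod q), (((φf h).1 * (φf h).2 : (ZMod q)ˣ) : ZMod q),
        Units.ne_zero _, ?_, Or.inl ?_⟩
      · rcases hpm with h1 | h1
        · left; rw [h1, Units.val_one]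
        · right; rw [h1, Units.val_neg, Units.val_one]
      · intro x
        rw [hcd x]
        have hd : ((φf h).2 : ZMod q) = (((φf h).1 * (φf h).2 : (ZMod q)ˣ) : ZMod q)
            * ((φf h).1 : ZMod q)⁻¹ := by
          rw [Units.val_mul, mul_comm ((φf h).1 : ZMod q), mul_assoc,
            mul_inv_cancel₀ (Units.ne_zero _), mul_one]
        rw [← hd]
    · -- `g * t` commutes with `a`
      obtain ⟨h, hh⟩ : ∃ h : Subgroup.centralizer ({a} : Set G), (h : G) = g * t :=
        ⟨⟨g * t, (hHmem _).2 (hmulT g hg)⟩, rfl⟩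
      have hcd := hFht h
      have hgt : (h : G) * t = g := by rw [hh, mul_assoc, htt, mul_one]
      rw [hgt] at hcd
      have hmem : φf h ∈ φ.range := ⟨h, rfl⟩
      have hpm := (hK _).1 hmem
      refine ⟨((φf h).2 : ZMod q), (((φf h).1 * (φf h).2 : (ZMod q)ˣ) : ZMod q),
        Units.ne_zero _, ?_, Or.inr ?_⟩
      · rcases hpm with h1 | h1
        · left; rw [h1, Units.val_one]
        · right; rw [h1, Units.val_neg, Units.val_one]
      · intro x
        rw [hcd x]
        have hd : ((φf h).1 : ZMod q) = (((φf h).1 * (φf h).2 : (ZMod q)ˣ) : ZMod q)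
            * ((φf h).2 : ZMod q)⁻¹ := by
          rw [Units.val_mul, mul_assoc, mul_inv_cancel₀ (Units.ne_zero _), mul_one]
        rw [← hd]
  · rintro ⟨a', s, ha', hs, hf | hf⟩
    · have hs0 : s * a'⁻¹ ≠ 0 := by
        apply mul_ne_zero
        · rcases hs with rfl | rfl
          · exact one_ne_zero
          · exact neg_ne_zero.2 one_ne_zero
        · exact inv_ne_zero ha'
      have hmem : ((Units.mk0 a' ha', Units.mk0 (s * a'⁻¹) hs0) : (ZMod q)ˣ × (ZMod q)ˣ)
          ∈ φ.range := by
        apply (hK _).2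
        have e1 : a' * (s * a'⁻¹) = s := by
          rw [mul_comm s, ← mul_assoc, mul_inv_cancel₀ ha', one_mul]
        rcases hs with rfl | rfl
        · left
          apply Units.ext
          rw [Units.val_mul, Units.val_mk0, Units.val_mk0, Units.val_one, e1]
        · right
          apply Units.ext
          rw [Units.val_mul, Units.val_mk0, Units.val_mk0, Units.val_neg, Units.val_one, e1]
      obtain ⟨h, hh⟩ := hmem
      refine ⟨(h : G), ?_⟩
      rw [← hFdef]
      ext1 x
      rw [hf x, hφf h]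
      have hh' : φf h = (Units.mk0 a' ha', Units.mk0 (s * a'⁻¹) hs0) := hh
      rw [hh']
      simp only [Units.val_mk0]
    · have hs0 : s * a'⁻¹ ≠ 0 := by
        apply mul_ne_zero
        · rcases hs with rfl | rfl
          · exact one_ne_zero
          · exact neg_ne_zero.2 one_ne_zero
        · exact inv_ne_zero ha'
      have hmem : ((Units.mk0 (s * a'⁻¹) hs0, Units.mk0 a' ha') : (ZMod q)ˣ × (ZMod q)ˣ)
          ∈ φ.range := by
        apply (hK _).2
        have e1 : s * a'⁻¹ * a' = s := by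
          rw [mul_assoc, inv_mul_cancel₀ ha', mul_one]
        rcases hs with rfl | rfl
        · left
          apply Units.ext
          rw [Units.val_mul, Units.val_mk0, Units.val_mk0, Units.val_one, e1]
        · right
          apply Units.ext
          rw [Units.val_mul, Units.val_mk0, Units.val_mk0, Units.val_neg, Units.val_one, e1]
      obtain ⟨h, hh⟩ := hmem
      refine ⟨(h : G) * t, ?_⟩
      rw [← hFdef]
      ext1 x
      rw [hf x, hFht h]
      have hh' : φf h = (Units.mk0 (s * a'⁻¹) hs0, Units.mk0 a' ha') := hh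
      rw [hh']
      simp only [Units.val_mk0]

end Cfsg.Agent.Lib.Helper59.HTACOORD
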