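import Mathlib
import Cfsg.Agent.Lib.Helper59.HTStmt
import Cfsg.Agent.Lib.Helper59.HTSCAL
import Cfsg.Agent.Lib.Helper59.HTAINV1

/-!
# S3371 / AH: `|C_G(a)|` divides `2 (q ^ r - 1)`.
-/

set_option autoImplicit false

namespace Cfsg.Agent.Lib.Helper59.HTAH

open Cfsg.Agent.Lib.Helper59.HTStmt Cfsg.Agent.Lib.Helper59.HTSCAL
  Cfsg.Agent.Lib.Helper59.HTAINV1

universe u v

theorem main : AH.{u, v} := by
  intro hANC q _ V _ _ _ _ G _ _ ρ hq2 hρ hS hZ a z hF r hV
  classical
  have hqp : q.Prime := Fact.out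
  have hzneg : ∀ v : V, ρ z v = -v := neg_of_fpf ρ hF.zz (hZ z hF.zc hF.z1)
  have hn0 : ∀ v : V, v = -v → v = 0 := fun v h => eq_zero_of_eq_neg hq2 h
  have hanc : a ∉ Subgroup.center G := hANC q V G ρ hρ hZ a z hF
  have haa : ∀ v : V, ρ a (ρ a v) = v := by
    intro v
    rw [← rho_mul, hF.aa, rho_one]
  -- an element outside the centralizer
  obtain ⟨t, ht⟩ : ∃ t : G, t * a * t⁻¹ = a * z := by
    by_contra hcon
    push Not at hcon
    apply hanc
    rw [Subgroup.mem_center_iff]
    intro g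
    have h1 := (hF.nrm g).resolve_right (hcon g)
    have h2 := congrArg (fun y => y * g) h1
    simpa [mul_assoc] using h2
  have ht' : t⁻¹ * a * t⁻¹⁻¹ = a * z := by
    have hzc : ∀ y : G, y * z = z * y := fun y => Subgroup.mem_center_iff.1 hF.zc y
    have h1 : t * a = a * z * t := by
      have := congrArg (fun y => y * t) ht
      simpa [mul_assoc] using this
    have h2 : a = t⁻¹ * (a * z) * t := by
      calc a = t⁻¹ * (t * a) := by group
        _ = t⁻¹ * (a * z * t) := by rw [h1]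
        _ = t⁻¹ * (a * z) * t := by group
    have h3 : t⁻¹ * a * t = a * z := by
      have e : t⁻¹ * (a * z) * t = t⁻¹ * a * t * z := by
        calc t⁻¹ * (a * z) * t = t⁻¹ * a * (z * t) := by group
          _ = t⁻¹ * a * (t * z) := by rw [hzc t]
          _ = t⁻¹ * a * t * z := by group
      rw [e] at h2
      calc t⁻¹ * a * t = t⁻¹ * a * t * (z * z) := by rw [hF.zz, mul_one]
        _ = (t⁻¹ * a * t * z) * z := by group
        _ = a * z := by rw [← h2]
    rw [inv_inv]
    exact h3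
  -- the two eigen-sets
  set S₁ : Set V := {v | ρ a v = v} with hS₁
  set S₂ : Set V := {w | ρ a w = -w} with hS₂
  have h2ne : (2 : ZMod q) ≠ 0 := by
    intro h
    have h4 : ((2 : ℕ) : ZMod q) = 0 := by exact_mod_cast h
    rw [ZMod.natCast_eq_zero_iff] at h4
    exact hq2 ((Nat.prime_dvd_prime_iff_eq hqp Nat.prime_two).1 h4)
  obtain ⟨c, hc⟩ : ∃ c : ZMod q, c * 2 = 1 := ⟨2⁻¹, inv_mul_cancel₀ h2ne⟩
  have hhalf : ∀ v : V, c • (v + v) = v := by
    intro v
    rw [← two_smul (ZMod q) v, smul_smul, hc, one_smul]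
  have hprod : Nat.card V = Nat.card S₁ * Nat.card S₂ := by
    rw [← Nat.card_prod]
    symm
    apply Nat.card_congr
    refine
      { toFun := fun p => (p.1 : V) + (p.2 : V)
        invFun := fun v => (⟨c • (v + ρ a v), ?_⟩, ⟨c • (v - ρ a v), ?_⟩)
        left_inv := ?_
        right_inv := ?_ }
    · show ρ a (c • (v + ρ a v)) = c • (v + ρ a v)
      rw [map_smul, map_add, haa, add_comm]
    · show ρ a (c • (v - ρ a v)) = -(c • (v - ρ a v))
      rw [map_smul, map_sub, haa, ← smul_neg, neg_sub]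
    · rintro ⟨⟨x, hx⟩, ⟨w, hw⟩⟩
      have hx' : ρ a x = x := hx
      have hw' : ρ a w = -w := hw
      apply Prod.ext
      · apply Subtype.ext
        show c • (x + w + ρ a (x + w)) = x
        rw [map_add, hx', hw']
        have : x + w + (x + -w) = x + x := by abel
        rw [this, hhalf]
      · apply Subtype.ext
        show c • (x + w - ρ a (x + w)) = w
        rw [map_add, hx', hw']
        have : x + w - (x + -w) = w + w := by abel
        rw [this, hhalf]
    · intro v
      show c • (v + ρ a v) + c • (v - ρ a v) = v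
      rw [← smul_add]
      have : v + ρ a v + (v - ρ a v) = v + v := by abel
      rw [this, hhalf]
  have h12 : Nat.card S₁ = Nat.card S₂ := by
    apply Nat.card_congr
    refine
      { toFun := fun x => ⟨ρ t x.1, ?_⟩
        invFun := fun w => ⟨ρ t⁻¹ w.1, ?_⟩
        left_inv := ?_
        right_inv := ?_ }
    · show ρ a (ρ t x.1) = -ρ t x.1
      have hx : ρ a x.1 = x.1 := x.2
      rw [anti_of_conj ρ hzneg ht, hx]
    · show ρ a (ρ t⁻¹ w.1) = ρ t⁻¹ w.1
      have hw : ρ a w.1 = -w.1 := w.2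
      rw [anti_of_conj ρ hzneg ht', hw, map_neg, neg_neg]
    · intro x
      apply Subtype.ext
      show ρ t⁻¹ (ρ t x.1) = x.1
      rw [← rho_mul, inv_mul_cancel, rho_one]
    · intro w
      apply Subtype.ext
      show ρ t (ρ t⁻¹ w.1) = w.1
      rw [← rho_mul, mul_inv_cancel, rho_one]
  have hS1 : Nat.card S₁ = q ^ r := by
    have h1 : Nat.card S₁ ^ 2 = (q ^ r) ^ 2 := by
      rw [pow_two, ← pow_mul, mul_comm r 2, ← hV, hprod, h12]
    exact Nat.pow_left_injective (by norm_num : (2 : ℕ) ≠ 0) h1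
  -- the action of `H = C_G(a)` on the non-zero vectors of `S₁`
  have hHmem : ∀ h : G, h ∈ Subgroup.centralizer ({a} : Set G) ↔ a * h = h * a := by
    intro h
    rw [Subgroup.mem_centralizer_iff]
    constructor
    · intro hh
      exact hh a rfl
    · intro hh y hy
      rw [Set.mem_singleton_iff] at hy
      rw [hy]
      exact hh
  have hsm : ∀ (h : Subgroup.centralizer ({a} : Set G)) (x : {x : V // ρ a x = x ∧ x ≠ 0}),
      ρ a (ρ (h : G) x.1) = ρ (h : G) x.1 ∧ ρ (h : G) x.1 ≠ 0 := by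
    intro h x
    constructor
    · rw [← rho_mul, (hHmem h).1 h.2, rho_mul, x.2.1]
    · intro h0
      exact x.2.2 ((ρ (h : G)).map_eq_zero_iff.1 h0)
  let inst : MulAction (Subgroup.centralizer ({a} : Set G)) {x : V // ρ a x = x ∧ x ≠ 0} :=
    { smul := fun h x => ⟨ρ (h : G) x.1, hsm h x⟩
      one_smul := fun x => Subtype.ext (rho_one ρ x.1)
      mul_smul := fun g h x => Subtype.ext (rho_mul ρ (g : G) (h : G) x.1) }
  have hsmul : ∀ (h : Subgroup.centralizer ({a} : Set G)) (x : {x : V // ρ a x = x ∧ x ≠ 0}),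
      ((h • x : {x : V // ρ a x = x ∧ x ≠ 0}) : V) = ρ (h : G) x.1 := fun _ _ => rfl
  have : Fintype (Subgroup.centralizer ({a} : Set G)) := Fintype.ofFinite _
  have : Fintype {x : V // ρ a x = x ∧ x ≠ 0} := Fintype.ofFinite _
  have hB := MulAction.sum_card_fixedBy_eq_card_orbits_mul_card_group
    (Subgroup.centralizer ({a} : Set G)) {x : V // ρ a x = x ∧ x ≠ 0}
  -- the fixed points
  have ha_mem : a ∈ Subgroup.centralizer ({a} : Set G) := (hHmem a).2 rfl
  have hfix1 : Fintype.card (MulAction.fixedBy {x : V // ρ a x = x ∧ x ≠ 0}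
      (1 : Subgroup.centralizer ({a} : Set G))) = Fintype.card {x : V // ρ a x = x ∧ x ≠ 0} := by
    apply Fintype.card_of_subtype Finset.univ
    intro x
    simp only [Finset.mem_univ, MulAction.mem_fixedBy, one_smul]
  have hfixa : Fintype.card (MulAction.fixedBy {x : V // ρ a x = x ∧ x ≠ 0}
      (⟨a, ha_mem⟩ : Subgroup.centralizer ({a} : Set G))) =
      Fintype.card {x : V // ρ a x = x ∧ x ≠ 0} := by
    apply Fintype.card_of_subtype Finset.univ
    intro x
    simp only [Finset.mem_univ, true_iff, MulAction.mem_fixedBy]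
    apply Subtype.ext
    rw [hsmul]
    exact x.2.1
  have hfix0 : ∀ h : Subgroup.centralizer ({a} : Set G), h ≠ 1 → h ≠ ⟨a, ha_mem⟩ →
      Fintype.card (MulAction.fixedBy {x : V // ρ a x = x ∧ x ≠ 0} h) = 0 := by
    intro h h1 h2
    rw [Fintype.card_eq_zero_iff]
    refine ⟨fun x => ?_⟩
    obtain ⟨x, hx⟩ := x
    rw [MulAction.mem_fixedBy] at hx
    have hx' : ρ (h : G) x.1 = x.1 := by rw [← hsmul, hx]
    have hh1 : (h : G) ≠ 1 := fun e => h1 (Subtype.ext e)
    have := eq_of_stab2 ρ hS x.2.2 hh1 hF.a1 hx' x.2.1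
    exact h2 (Subtype.ext this)
  have hne : (1 : Subgroup.centralizer ({a} : Set G)) ≠ ⟨a, ha_mem⟩ := by
    intro e
    exact hF.a1 (congrArg Subtype.val e).symm
  have hsum : ∑ g : Subgroup.centralizer ({a} : Set G),
      Fintype.card (MulAction.fixedBy {x : V // ρ a x = x ∧ x ≠ 0} g)
      = 2 * Fintype.card {x : V // ρ a x = x ∧ x ≠ 0} := by
    rw [Finset.sum_eq_add_of_mem (1 : Subgroup.centralizer ({a} : Set G)) ⟨a, ha_mem⟩
      (Finset.mem_univ _) (Finset.mem_univ _) hne
      (fun c _ hc => hfix0 c hc.1 hc.2), hfix1, hfixa, two_mul]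
  -- the number of non-zero vectors of `S₁`
  have hX : Fintype.card {x : V // ρ a x = x ∧ x ≠ 0} = q ^ r - 1 := by
    rw [← Nat.card_eq_fintype_card]
    have e1 : Nat.card {x : V // ρ a x = x ∧ x ≠ 0} = (S₁ \ {0}).ncard := by
      rw [← Nat.card_coe_set_eq]
      apply Nat.card_congr
      exact Equiv.subtypeEquivRight (fun x => by
        simp only [hS₁, Set.mem_sdiff, Set.mem_ofPred_eq, Set.mem_singleton_iff])
    have h0 : (0 : V) ∈ S₁ := by
      show ρ a 0 = 0
      exact map_zero _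
    rw [e1, Set.ncard_sdiff_singleton_of_mem h0, ← Nat.card_coe_set_eq, hS1]
  rw [hsum, hX] at hB
  rw [Nat.card_eq_fintype_card]
  exact Dvd.intro_left _ hB.symm

end Cfsg.Agent.Lib.Helper59.HTAH
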