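import Mathlib
import Cfsg.Agent.Lib.Helper59.HTStmt
import Cfsg.Agent.Lib.Helper59.HTSCAL

/-!
# S3371 / ANC: `a` is not central.
-/

set_option autoImplicit false

namespace Cfsg.Agent.Lib.Helper59.HTANC

open Cfsg.Agent.Lib.Helper59.HTStmt Cfsg.Agent.Lib.Helper59.HTSCAL

universe u v

theorem main : ANotCentral.{u, v} := by
  intro q _ V _ _ _ _ G _ _ ρ hρ hZ a z hF hac
  have hzneg : ∀ v : V, ρ z v = -v := neg_of_fpf ρ hF.zz (hZ z hF.zc hF.z1)
  have haneg : ∀ v : V, ρ a v = -v := neg_of_fpf ρ hF.aa (hZ a hac hF.a1)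
  apply hF.az
  apply hρ
  ext v
  rw [hzneg, haneg]

end Cfsg.Agent.Lib.Helper59.HTANC
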