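import Mathlib
import Cfsg.Agent.Lib.Helper59.HTStmt

/-!
# S3371 / AUNITS: a subgroup of `F_q^× × F_q^×` of order `2 (q - 1)` with `q - 1` elements of
product `1` is `{(c, d) | c d = ± 1}`.
-/

set_option autoImplicit false

namespace Cfsg.Agent.Lib.Helper59.HTAUNITS

open Cfsg.Agent.Lib.Helper59.HTStmt

theorem main : AUnits := by
  intro q _ hq2 K hKcard hKcount x
  classical
  have hqp : q.Prime := Fact.out
  have hq3 : 3 ≤ q := by
    have := hqp.two_le
    omega
  -- the product homomorphism on `K`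
  let δ : K →* (ZMod q)ˣ :=
    ((MonoidHom.fst (ZMod q)ˣ (ZMod q)ˣ) * (MonoidHom.snd (ZMod q)ˣ (ZMod q)ˣ)).comp K.subtype
  have hδ : ∀ k : K, δ k = (k : (ZMod q)ˣ × (ZMod q)ˣ).1 * (k : (ZMod q)ˣ × (ZMod q)ˣ).2 :=
    fun _ => rfl
  have hker : Nat.card δ.ker = q - 1 := by
    rw [← hKcount]
    apply Nat.card_congr
    refine
      { toFun := fun k => ⟨(k : K), ⟨(k : K).2, ?_⟩⟩
        invFun := fun k => ⟨⟨k.1, k.2.1⟩, ?_⟩
        left_inv := fun k => rfl
        right_inv := fun k => rfl }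
    · have := k.2
      rw [MonoidHom.mem_ker, hδ] at this
      exact this
    · rw [MonoidHom.mem_ker, hδ]
      exact k.2.2
  have hrange : Nat.card δ.range = 2 := by
    have h1 := Subgroup.card_mul_index δ.ker
    rw [Subgroup.index_ker, hker, hKcard] at h1
    have hpos : 0 < q - 1 := by omega
    have : (q - 1) * Nat.card δ.range = (q - 1) * 2 := by rw [h1]; ring
    exact Nat.eq_of_mul_eq_mul_left hpos this
  -- every value of `δ` is `± 1`
  have hpm : ∀ k : K, δ k = 1 ∨ δ k = -1 := by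
    intro k
    have h1 : (⟨δ k, ⟨k, rfl⟩⟩ : δ.range) ^ Nat.card δ.range = 1 := pow_card_eq_one'
    rw [hrange] at h1
    have h2 : (δ k) ^ 2 = 1 := congrArg Subtype.val h1
    have h3 : ((δ k : (ZMod q)ˣ) : ZMod q) ^ 2 = 1 := by
      rw [← Units.val_pow_eq_pow_val, h2, Units.val_one]
    rcases sq_eq_one_iff.1 h3 with h4 | h4
    · left; exact Units.ext (by rw [h4, Units.val_one])
    · right; exact Units.ext (by rw [h4, Units.val_neg, Units.val_one])
  -- the set of pairs of product `± 1`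
  set M : Set ((ZMod q)ˣ × (ZMod q)ˣ) := {y | y.1 * y.2 = 1 ∨ y.1 * y.2 = -1} with hM
  have hKM : (K : Set ((ZMod q)ˣ × (ZMod q)ˣ)) ⊆ M := by
    intro y hy
    exact hpm ⟨y, hy⟩
  have hMcard : M.ncard ≤ 2 * (q - 1) := by
    have hinj : Function.Injective
        (fun y : M => ((y : (ZMod q)ˣ × (ZMod q)ˣ).1,
          decide ((y : (ZMod q)ˣ × (ZMod q)ˣ).1 * (y : (ZMod q)ˣ × (ZMod q)ˣ).2 = 1))) := by
      rintro ⟨y, hy⟩ ⟨y', hy'⟩ h
      simp only [Prod.mk.injEq, decide_eq_decide] at h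
      obtain ⟨h1, h2⟩ := h
      apply Subtype.ext
      apply Prod.ext h1
      show y.2 = y'.2
      have h3 : y.1 * y.2 = y'.1 * y'.2 := by
        rcases hy with hy | hy
        · rw [hy, h2.1 hy]
        · rcases hy' with hy' | hy'
          · rw [h2.2 hy', hy']
          · rw [hy, hy']
      rw [h1] at h3
      exact mul_left_cancel h3
    have h1 := Nat.card_le_card_of_injective _ hinj
    rw [Nat.card_coe_set_eq, Nat.card_prod, Nat.card_eq_fintype_card, ZMod.card_units,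
      Nat.card_eq_fintype_card, Fintype.card_bool] at h1
    omega
  have hKeq : (K : Set ((ZMod q)ˣ × (ZMod q)ˣ)) = M := by
    apply Set.eq_of_subset_of_ncard_le hKM _ (Set.toFinite M)
    rw [← Nat.card_coe_set_eq (K : Set ((ZMod q)ˣ × (ZMod q)ˣ))]
    show M.ncard ≤ Nat.card K
    rw [hKcard]
    exact hMcard
  show x ∈ (K : Set ((ZMod q)ˣ × (ZMod q)ˣ)) ↔ _
  rw [hKeq]
  rfl

end Cfsg.Agent.Lib.Helper59.HTAUNITS
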