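import Mathlib
import Cfsg.Agent.Lib.Helper59.Wielandt
import Cfsg.Agent.Lib.Helper59.TwoTransSocle

set_option autoImplicit false

/-! A regular normal subgroup of a transitive group in which all two-point stabilizers have the
same order `c ≠ 1` is abelian (the key step of the Isaacs–Passman theorem on half-transitive
groups of automorphisms). -/

namespace Cfsg.Agent.Lib.Helper59.HalfTrans

open MulAction Cfsg.Agent.Lib.Helper59.TwoTransSocle

variable {G Ω : Type*} [Group G] [MulAction G Ω]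

/-- A regular subgroup acts freely. -/
theorem eq_of_smul_eq (N : Subgroup G) (hNr : ∀ a : Ω, stabilizer N a = ⊥) (γ : Ω) (x y : G)
    (hx : x ∈ N) (hy : y ∈ N) (h : x • γ = y • γ) : x = y := by
  have h1 : (⟨y⁻¹ * x, N.mul_mem (N.inv_mem hy) hx⟩ : N) ∈ stabilizer N γ := by
    show (y⁻¹ * x) • γ = γ
    rw [mul_smul, h, inv_smul_smul]
  rw [hNr γ, Subgroup.mem_bot] at h1
  have h2 : y⁻¹ * x = 1 := congrArg Subtype.val h1
  exact (inv_mul_eq_one.mp h2).symm

/-- Centralizing an element of a regular normal subgroup, for an element of a point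
stabilizer. -/
theorem conj_eq_iff (N : Subgroup G) [hN : N.Normal] (hNr : ∀ a : Ω, stabilizer N a = ⊥) (γ : Ω)
    (x : G) (hx : x ∈ N) (h : G) (hγ : h • γ = γ) :
    h * x * h⁻¹ = x ↔ h • (x • γ) = x • γ := by
  have h1 : (h * x * h⁻¹) • γ = h • (x • γ) := by
    rw [mul_smul, mul_smul, inv_smul_eq_iff.mpr hγ.symm]
  constructor
  · intro h2
    rw [← h1, h2]
  · intro h2
    apply eq_of_smul_eq N hNr γ _ _ (hN.conj_mem x hx h) hx
    rw [h1, h2]

theorem centralizer_inf_stabilizer (N : Subgroup G) [hN : N.Normal]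
    (hNr : ∀ a : Ω, stabilizer N a = ⊥) (γ : Ω) (x : G) (hx : x ∈ N) :
    Subgroup.centralizer {x} ⊓ stabilizer G γ = stabilizer G γ ⊓ stabilizer G (x • γ) := by
  ext h
  rw [Subgroup.mem_inf, Subgroup.mem_inf, Subgroup.mem_centralizer_iff, mem_stabilizer_iff,
    mem_stabilizer_iff]
  constructor
  · rintro ⟨h1, h2⟩
    refine ⟨h2, (conj_eq_iff N hNr γ x hx h h2).mp ?_⟩
    rw [← h1 x rfl, mul_inv_cancel_right]
  · rintro ⟨h1, h2⟩
    refine ⟨fun y hy => ?_, h1⟩
    rw [Set.mem_singleton_iff] at hy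
    rw [hy]
    have h3 := (conj_eq_iff N hNr γ x hx h h1).mpr h2
    calc x * h = (h * x * h⁻¹) * h := by rw [h3]
      _ = h * x := by group

/-- The key decomposition: an element of a point stabilizer which conjugates `x ∈ N` to an
`N`-conjugate of `x` centralizes `x`. -/
theorem conj_eq_of_conj_eq_conj [Finite G] [Finite Ω] (htrans : IsPretransitive G Ω)
    (N : Subgroup G) [hN : N.Normal] (hNt : IsPretransitive N Ω)
    (hNr : ∀ a : Ω, stabilizer N a = ⊥) (c : ℕ)
    (hc : ∀ a b : Ω, a ≠ b → Nat.card (stabilizer G a ⊓ stabilizer G b : Subgroup G) = c) (a : Ω)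
    (x : G) (hx : x ∈ N) (hx1 : x ≠ 1) (h : G) (ha : h • a = a) (n : G) (hn : n ∈ N)
    (hconj : h * x * h⁻¹ = n * x * n⁻¹) : h * x * h⁻¹ = x := by
  classical
  have hxγ : ∀ γ : Ω, x • γ ≠ γ := by
    intro γ hγ
    apply hx1
    apply eq_of_smul_eq N hNr γ x 1 hx N.one_mem
    rw [hγ, one_smul]
  have hΩpos : 0 < Nat.card Ω := Nat.card_pos_iff.mpr ⟨⟨a⟩, inferInstance⟩
  have hcpos : 0 < c := by
    rw [← hc a (x • a) (Ne.symm (hxγ a))]; exact Nat.card_pos
  -- cardinalities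
  have hNcard : Nat.card N = Nat.card Ω := by
    have h1 := card_eq_of_transitive N hNt a
    have h2 : N ⊓ stabilizer G a = ⊥ := by
      rw [eq_bot_iff]
      intro y hy
      rw [Subgroup.mem_bot]
      apply eq_of_smul_eq N hNr a y 1 hy.1 N.one_mem
      rw [one_smul]; exact hy.2
    rw [h2, Subgroup.card_bot, mul_one] at h1
    exact h1
  have hGcard : Nat.card (stabilizer G a) * Nat.card Ω = Nat.card G := by
    rw [← index_stabilizer_of_transitive G a]
    exact Subgroup.card_mul_index _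
  have hHdvd : Nat.card (stabilizer G a) ∣ c * (Nat.card Ω - 1) := by
    have h1 := Wielandt.card_dvd_of_inf_stabilizer_card (stabilizer G a) {γ : Ω | γ ≠ a} (by
      intro k hk γ hγ h
      apply hγ
      have hka : k • a = a := hk
      rw [← hka] at h
      exact smul_left_cancel k h) c (by
      intro γ hγ
      exact hc a γ (Ne.symm hγ))
    have h3 : Nat.card {γ : Ω | γ ≠ a} = Nat.card Ω - 1 := by
      have h4 : {γ : Ω | γ ≠ a} = Set.univ \ {a} := by ext γ; simp
      rw [Nat.card_coe_set_eq, h4, Set.ncard_sdiff (by simp), Set.ncard_univ, Set.ncard_singleton]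
    rwa [h3] at h1
  -- the centralizer of `x`
  have hCdvd : Nat.card (Subgroup.centralizer {x} : Subgroup G) ∣ c * Nat.card Ω := by
    have h1 := Wielandt.card_dvd_of_inf_stabilizer_card (Subgroup.centralizer {x} : Subgroup G)
      (Set.univ : Set Ω) (fun _ _ _ _ => trivial) c (by
      intro γ _
      rw [centralizer_inf_stabilizer N hNr γ x hx]
      exact hc γ (x • γ) (Ne.symm (hxγ γ)))
    rwa [Nat.card_coe_set_eq, Set.ncard_univ] at h1
  have hindex : N.index = Nat.card (stabilizer G a) := by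
    have h1 := Subgroup.card_mul_index N
    rw [hNcard, ← hGcard, mul_comm] at h1
    exact Nat.eq_of_mul_eq_mul_right hΩpos h1
  have hr : N.relIndex (Subgroup.centralizer {x}) ∣ c := by
    have h1 : N.relIndex (Subgroup.centralizer {x}) ∣ c * Nat.card Ω :=
      (Subgroup.relIndex_dvd_card _ _).trans hCdvd
    have h2 : N.relIndex (Subgroup.centralizer {x}) ∣ c * (Nat.card Ω - 1) := by
      have h3 := Subgroup.relIndex_dvd_index_of_normal N (Subgroup.centralizer {x})
      rw [hindex] at h3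
      exact h3.trans hHdvd
    have h4 := Nat.dvd_sub h1 h2
    have h5 : c * Nat.card Ω - c * (Nat.card Ω - 1) = c := by
      obtain ⟨m, hm⟩ : ∃ m, Nat.card Ω = m + 1 := ⟨Nat.card Ω - 1, by omega⟩
      rw [hm, Nat.add_sub_cancel, mul_add, mul_one, Nat.add_sub_cancel_left]
    rwa [h5] at h4
  have hCle : Nat.card (Subgroup.centralizer {x} : Subgroup G) ≤
      Nat.card (N ⊓ Subgroup.centralizer {x} : Subgroup G) * c := by
    have h1 := relIndex_mul_card (inf_le_right : N ⊓ Subgroup.centralizer {x} ≤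
      Subgroup.centralizer {x})
    rw [Subgroup.inf_relIndex_right] at h1
    rw [← h1, mul_comm]
    exact Nat.mul_le_mul_left _ (Nat.le_of_dvd hcpos hr)
  have hHC : Nat.card (stabilizer G a ⊓ Subgroup.centralizer {x} : Subgroup G) = c := by
    rw [inf_comm, centralizer_inf_stabilizer N hNr a x hx]
    exact hc a (x • a) (Ne.symm (hxγ a))
  -- the product map
  let φ : (N ⊓ Subgroup.centralizer {x} : Subgroup G) ×
      (stabilizer G a ⊓ Subgroup.centralizer {x} : Subgroup G) →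
      (Subgroup.centralizer {x} : Subgroup G) := fun p =>
    ⟨(p.1 : G) * (p.2 : G), Subgroup.mul_mem _ p.1.2.2 p.2.2.2⟩
  have hdecomp : ∀ n₁ n₂ h₁ h₂ : G, n₁ ∈ N → n₂ ∈ N → h₁ • a = a → h₂ • a = a →
      n₁ * h₁ = n₂ * h₂ → n₁ = n₂ ∧ h₁ = h₂ := by
    intro n₁ n₂ h₁ h₂ hn₁ hn₂ hh₁ hh₂ he
    have h1 : n₁ = n₂ := by
      apply eq_of_smul_eq N hNr a n₁ n₂ hn₁ hn₂
      have h2 := congrArg (fun g => g • a) he
      simp only [mul_smul, hh₁, hh₂] at h2
      exact h2
    refine ⟨h1, ?_⟩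
    rw [h1] at he
    exact mul_left_cancel he
  have hφinj : Function.Injective φ := by
    rintro ⟨p1, p2⟩ ⟨q1, q2⟩ he
    have he' : (p1 : G) * (p2 : G) = (q1 : G) * (q2 : G) := congrArg Subtype.val he
    obtain ⟨h1, h2⟩ := hdecomp _ _ _ _ p1.2.1 q1.2.1 p2.2.1 q2.2.1 he'
    exact Prod.ext (Subtype.ext h1) (Subtype.ext h2)
  have hφbij : Function.Bijective φ := by
    rw [Nat.bijective_iff_injective_and_card]
    refine ⟨hφinj, le_antisymm (Nat.card_le_card_of_injective φ hφinj) ?_⟩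
    rw [Nat.card_prod, hHC]
    exact hCle
  -- conclusion
  have hg : n⁻¹ * h ∈ Subgroup.centralizer {x} := by
    rw [Subgroup.mem_centralizer_iff]
    intro y hy
    rw [Set.mem_singleton_iff] at hy
    rw [hy]
    have h1 : x = n⁻¹ * (h * x * h⁻¹) * n := by rw [hconj]; group
    calc x * (n⁻¹ * h) = n⁻¹ * (h * x * h⁻¹) * n * (n⁻¹ * h) := by rw [← h1]
      _ = n⁻¹ * h * x := by group
  obtain ⟨⟨p1, p2⟩, hp⟩ := hφbij.2 ⟨n⁻¹ * h, hg⟩
  have hp' : (p1 : G) * (p2 : G) = n⁻¹ * h := congrArg Subtype.val hp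
  obtain ⟨-, h2⟩ := hdecomp _ _ _ _ p1.2.1 (N.inv_mem hn) p2.2.1 ha hp'
  have h3 : h ∈ Subgroup.centralizer {x} := by rw [← h2]; exact p2.2.2
  have h4 := Subgroup.mem_centralizer_iff.mp h3 x rfl
  rw [← h4, mul_inv_cancel_right]

/-- A regular normal subgroup of a transitive group in which all two-point stabilizers have the
same order `c ≠ 1` is abelian. -/
theorem abelian_of_half_transitive [Finite G] [Finite Ω] [FaithfulSMul G Ω]
    (htrans : IsPretransitive G Ω)
    (N : Subgroup G) [hN : N.Normal] (hNt : IsPretransitive N Ω)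
    (hNr : ∀ a : Ω, stabilizer N a = ⊥) (c : ℕ)
    (hc : ∀ a b : Ω, a ≠ b → Nat.card (stabilizer G a ⊓ stabilizer G b : Subgroup G) = c)
    (hc1 : c ≠ 1) (a : Ω) : ∀ x ∈ N, ∀ y ∈ N, x * y = y * x := by
  classical
  -- `E w` is the centralizer of `w` in the point stabilizer
  have hne : ∀ w ∈ N, w ≠ 1 → a ≠ w • a := by
    intro w hw hw1 h
    apply hw1
    apply eq_of_smul_eq N hNr a w 1 hw N.one_mem
    rw [one_smul]; exact h.symm
  have hmem : ∀ w ∈ N, ∀ h : G, h ∈ stabilizer G a ⊓ stabilizer G (w • a) ↔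
      (h • a = a ∧ h * w * h⁻¹ = w) := by
    intro w hw h
    rw [Subgroup.mem_inf, mem_stabilizer_iff, mem_stabilizer_iff]
    constructor
    · rintro ⟨h1, h2⟩
      exact ⟨h1, (conj_eq_iff N hNr a w hw h h1).mpr h2⟩
    · rintro ⟨h1, h2⟩
      exact ⟨h1, (conj_eq_iff N hNr a w hw h h1).mp h2⟩
  have hEeq : ∀ w ∈ N, w ≠ 1 → ∀ v ∈ N, v ≠ 1 →
      (∀ h : G, h • a = a → h * w * h⁻¹ = w → h * v * h⁻¹ = v) →
      stabilizer G a ⊓ stabilizer G (w • a) = stabilizer G a ⊓ stabilizer G (v • a) := by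
    intro w hw hw1 v hv hv1 hle
    apply Subgroup.eq_of_le_of_card_ge
    · intro h hh
      rw [hmem w hw] at hh
      rw [hmem v hv]
      exact ⟨hh.1, hle h hh.1 hh.2⟩
    · rw [hc a _ (hne w hw hw1), hc a _ (hne v hv hv1)]
  -- (**): the centralizer in `H` of `w` centralizes the `N`-conjugates of `w`
  have hstar : ∀ w ∈ N, w ≠ 1 → ∀ n ∈ N, ∀ h : G, h • a = a → h * w * h⁻¹ = w →
      h * (n * w * n⁻¹) * h⁻¹ = n * w * n⁻¹ := by
    intro w hw hw1 n hn h ha hhw
    have hy : n * w * n⁻¹ ∈ N := hN.conj_mem w hw n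
    have hy1 : n * w * n⁻¹ ≠ 1 := by
      intro h1
      apply hw1
      have : w = n⁻¹ * (n * w * n⁻¹) * n := by group
      rw [this, h1]; group
    have hm : h * n * h⁻¹ * n⁻¹ ∈ N := N.mul_mem (hN.conj_mem n hn h) (N.inv_mem hn)
    apply conj_eq_of_conj_eq_conj htrans N hNt hNr c hc a (n * w * n⁻¹) hy hy1 h ha
      (h * n * h⁻¹ * n⁻¹) hm
    calc h * (n * w * n⁻¹) * h⁻¹ = (h * n * h⁻¹) * (h * w * h⁻¹) * (h * n * h⁻¹)⁻¹ := by group
      _ = (h * n * h⁻¹) * w * (h * n * h⁻¹)⁻¹ := by rw [hhw]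
      _ = h * n * h⁻¹ * n⁻¹ * (n * w * n⁻¹) * (h * n * h⁻¹ * n⁻¹)⁻¹ := by group
  have hinv : ∀ w h : G, h * w * h⁻¹ = w → h * w⁻¹ * h⁻¹ = w⁻¹ := by
    intro w h hw
    have : h * w⁻¹ * h⁻¹ = (h * w * h⁻¹)⁻¹ := by group
    rw [this, hw]
  -- commutation claim
  have hcomm : ∀ w ∈ N, ∀ w' ∈ N, w * w' ≠ w' * w →
      stabilizer G a ⊓ stabilizer G (w • a) = stabilizer G a ⊓ stabilizer G (w' • a) := by
    intro w hw w' hw' hnc
    have hw1 : w ≠ 1 := by rintro rfl; simp at hnc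
    have hw'1 : w' ≠ 1 := by rintro rfl; simp at hnc
    have hu : w * w' * w⁻¹ * w'⁻¹ ∈ N :=
      N.mul_mem (N.mul_mem (N.mul_mem hw hw') (N.inv_mem hw)) (N.inv_mem hw')
    have hu1 : w * w' * w⁻¹ * w'⁻¹ ≠ 1 := by
      intro h1
      apply hnc
      have : w * w' = (w * w' * w⁻¹ * w'⁻¹) * (w' * w) := by group
      rw [this, h1, one_mul]
    have e1 := hEeq w hw hw1 _ hu hu1 (by
      intro h ha hhw
      have h2 := hstar w⁻¹ (N.inv_mem hw) (by simpa using hw1) w' hw' h ha (hinv w h hhw)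
      calc h * (w * w' * w⁻¹ * w'⁻¹) * h⁻¹
          = (h * w * h⁻¹) * (h * (w' * w⁻¹ * w'⁻¹) * h⁻¹) := by group
        _ = w * (w' * w⁻¹ * w'⁻¹) := by rw [hhw, h2]
        _ = w * w' * w⁻¹ * w'⁻¹ := by group)
    have e2 := hEeq w' hw' hw'1 _ hu hu1 (by
      intro h ha hhw
      have h2 := hstar w' hw' hw'1 w hw h ha hhw
      calc h * (w * w' * w⁻¹ * w'⁻¹) * h⁻¹
          = (h * (w * w' * w⁻¹) * h⁻¹) * (h * w'⁻¹ * h⁻¹) := by group
        _ = (w * w' * w⁻¹) * w'⁻¹ := by rw [h2, hinv w' h hhw]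
        _ = w * w' * w⁻¹ * w'⁻¹ := by group)
    rw [e1, e2]
  by_contra hnab
  push Not at hnab
  obtain ⟨w, hw, w', hw', hnc⟩ := hnab
  have hw1 : w ≠ 1 := by rintro rfl; simp at hnc
  have hww' := hcomm w hw w' hw' hnc
  -- all `E v` coincide with `E w`
  have hall : ∀ v ∈ N, v ≠ 1 →
      stabilizer G a ⊓ stabilizer G (v • a) = stabilizer G a ⊓ stabilizer G (w • a) := by
    intro v hv hv1
    by_contra hne'
    have hvw : v * w = w * v := by
      by_contra h1
      exact hne' (hcomm v hv w hw h1)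
    have hvw' : v * w' = w' * v := by
      by_contra h1
      exact hne' ((hcomm v hv w' hw' h1).trans hww'.symm)
    have hvw1 : v * w ≠ 1 := by
      intro h1
      apply hne'
      have hv' : v = w⁻¹ := eq_inv_of_mul_eq_one_left h1
      rw [hv']
      exact (hEeq w hw hw1 w⁻¹ (N.inv_mem hw) (by simpa using hw1)
        (fun h _ hh => hinv w h hh)).symm
    have hnc2 : (v * w) * w' ≠ w' * (v * w) := by
      intro h1
      apply hnc
      have h2 : v * (w * w') = v * (w' * w) := by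
        calc v * (w * w') = (v * w) * w' := by group
          _ = w' * (v * w) := h1
          _ = (w' * v) * w := by group
          _ = (v * w') * w := by rw [hvw']
          _ = v * (w' * w) := by group
      exact mul_left_cancel h2
    have e3 := hcomm (v * w) (N.mul_mem hv hw) w' hw' hnc2
    apply hne'
    apply (hEeq w hw hw1 v hv hv1 _).symm
    intro h ha hhw
    have h5 : h ∈ stabilizer G a ⊓ stabilizer G ((v * w) • a) := by
      rw [e3, ← hww', hmem w hw]; exact ⟨ha, hhw⟩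
    have h6 := ((hmem (v * w) (N.mul_mem hv hw) h).mp h5).2
    calc h * v * h⁻¹ = (h * (v * w) * h⁻¹) * (h * w * h⁻¹)⁻¹ := by group
      _ = v * w * w⁻¹ := by rw [h6, hhw]
      _ = v := by group
  -- a nontrivial element of `E w` acts trivially
  have hcard : Nat.card (stabilizer G a ⊓ stabilizer G (w • a) : Subgroup G) = c :=
    hc a _ (hne w hw hw1)
  have hnb : (stabilizer G a ⊓ stabilizer G (w • a) : Subgroup G) ≠ ⊥ := by
    intro h1
    rw [h1, Subgroup.card_bot] at hcard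
    exact hc1 hcard.symm
  obtain ⟨h, hh, hh1⟩ := (Subgroup.ne_bot_iff_exists_ne_one).mp hnb |>.imp
    (fun z hz => hz) |> fun ⟨z, hz⟩ => (⟨(z : G), z.2, fun h0 => hz (Subtype.ext h0)⟩ :
      ∃ h : G, h ∈ stabilizer G a ⊓ stabilizer G (w • a) ∧ h ≠ 1)
  apply hh1
  apply FaithfulSMul.eq_of_smul_eq_smul (α := Ω)
  intro ω
  obtain ⟨v, hv⟩ := hNt.exists_smul_eq a ω
  have hv' : (v : G) • a = ω := hv
  rw [one_smul, ← hv']
  have ha : h • a = a := hh.1
  by_cases hv1 : (v : G) = 1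
  · rw [hv1, one_smul]; exact ha
  · have h7 : h ∈ stabilizer G a ⊓ stabilizer G ((v : G) • a) := by
      rw [hall v v.2 hv1]; exact hh
    exact h7.2

end Cfsg.Agent.Lib.Helper59.HalfTrans
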