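import Mathlib
import Cfsg.Agent.Lib.Helper92.M11Stmt

/-!
# S0434/S0435, piece IA: the enumeration for the values at an involution
-/

set_option autoImplicit false

namespace Cfsg.Agent.Lib.Helper59.M11IA

/-- the norm as a function of the parameters -/
def iaN (m0 m1 m2 m3 : ℕ) : ℤ :=
  1 + (10 - 4 * (m0 : ℤ)) ^ 2 + (10 - 4 * (m1 : ℤ)) ^ 2 + (10 - 4 * (m2 : ℤ)) ^ 2
      + (11 - 4 * (m3 : ℤ)) ^ 2 + (1 + (11 - 4 * (m3 : ℤ))) ^ 2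
      + ((10 - 4 * (m0 : ℤ)) + (10 - 4 * (m1 : ℤ)) + (10 - 4 * (m2 : ℤ)) - 1) ^ 2
      + ((10 - 4 * (m0 : ℤ)) + (10 - 4 * (m1 : ℤ)) + (10 - 4 * (m2 : ℤ)) + (11 - 4 * (m3 : ℤ))) ^ 2

/-- the enumerated property -/
def iaP (m0 m1 m2 m3 : ℕ) : Prop :=
    (iaN m0 m1 m2 m3 = 72 ∨ iaN m0 m1 m2 m3 = 144) →
    ((10 - 4 * (m0 : ℤ)) + (10 - 4 * (m1 : ℤ)) + (10 - 4 * (m2 : ℤ)) - 1) % 3 = 0 →
    (iaN m0 m1 m2 m3 = 144
      ∧ m3 = 4 ∧ ((m0 = 4 ∧ m1 = 2 ∧ m2 = 2) ∨ (m0 = 2 ∧ m1 = 4 ∧ m2 = 2) ∨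
        (m0 = 2 ∧ m1 = 2 ∧ m2 = 4)))

instance iaP_dec (m0 m1 m2 m3 : ℕ) : Decidable (iaP m0 m1 m2 m3) := by
  unfold iaP; infer_instance

set_option maxRecDepth 1000000 in
theorem ia_enum : ∀ m0 : ℕ, m0 < 6 → ∀ m1 : ℕ, m1 < 6 → ∀ m2 : ℕ, m2 < 6 → ∀ m3 : ℕ, m3 < 6 →
    iaP m0 m1 m2 m3 := by
  decide

theorem bound_a (a m : ℤ) (h : a = 10 - 4 * m) (h2 : a ^ 2 ≤ 143) : 0 ≤ m ∧ m < 6 := by
  have h3 : a ≤ 11 := by nlinarith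
  have h4 : -11 ≤ a := by nlinarith
  constructor <;> omega

theorem bound_b (b m : ℤ) (h : b = 11 - 4 * m) (h2 : b ^ 2 ≤ 143) : 0 ≤ m ∧ m < 6 := by
  have h3 : b ≤ 11 := by nlinarith
  have h4 : -11 ≤ b := by nlinarith
  constructor <;> omega

theorem main : Cfsg.Agent.Lib.Helper92.M11Stmt.InvArith := by
  intro a0 a1 a2 b N h0 h1 h2 h3 hN hdvd h37 h3N
  obtain ⟨m0, hm0⟩ := h0
  obtain ⟨m1, hm1⟩ := h1
  obtain ⟨m2, hm2⟩ := h2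
  obtain ⟨m3, hm3⟩ := h3
  have hN144 : N ≤ 144 := Nat.le_of_dvd (by norm_num) hdvd
  have hNZ : (N : ℤ) ≤ 144 := by exact_mod_cast hN144
  have hcases : N = 48 ∨ N = 72 ∨ N = 144 := by
    obtain ⟨k, hk⟩ := hdvd
    have hk3 : k ≤ 3 := by
      by_contra hcon
      have : 4 ≤ k := by omega
      nlinarith
    interval_cases k <;> omega
  rcases hcases with h48 | hrest
  · exact Or.inl h48
  right
  have h3dvd : 3 ∣ N := by rcases hrest with h | h <;> (rw [h]; norm_num)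
  have hmod := h3N h3dvd
  have q0 := sq_nonneg a0
  have q1 := sq_nonneg a1
  have q2 := sq_nonneg a2
  have q3 := sq_nonneg b
  have q4 := sq_nonneg (1 + b)
  have q5 := sq_nonneg (a0 + a1 + a2 - 1)
  have q6 := sq_nonneg (a0 + a1 + a2 + b)
  have ha0 : a0 ^ 2 ≤ 143 := by linarith
  have ha1 : a1 ^ 2 ≤ 143 := by linarith
  have ha2 : a2 ^ 2 ≤ 143 := by linarith
  have hb : b ^ 2 ≤ 143 := by linarith
  obtain ⟨hm0a, hm0b⟩ := bound_a a0 m0 hm0 ha0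
  obtain ⟨hm1a, hm1b⟩ := bound_a a1 m1 hm1 ha1
  obtain ⟨hm2a, hm2b⟩ := bound_a a2 m2 hm2 ha2
  obtain ⟨hm3a, hm3b⟩ := bound_b b m3 hm3 hb
  lift m0 to ℕ using hm0a
  lift m1 to ℕ using hm1a
  lift m2 to ℕ using hm2a
  lift m3 to ℕ using hm3a
  have key := ia_enum m0 (by exact_mod_cast hm0b) m1 (by exact_mod_cast hm1b) m2
    (by exact_mod_cast hm2b) m3 (by exact_mod_cast hm3b)
  have hNeq : (N : ℤ) = iaN m0 m1 m2 m3 := by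
    rw [hN, hm0, hm1, hm2, hm3]; rfl
  have hpre : iaN m0 m1 m2 m3 = 72 ∨ iaN m0 m1 m2 m3 = 144 := by
    rw [← hNeq]
    rcases hrest with h | h
    · left; rw [h]; rfl
    · right; rw [h]; rfl
  have hmod' : ((10 - 4 * (m0 : ℤ)) + (10 - 4 * (m1 : ℤ)) + (10 - 4 * (m2 : ℤ)) - 1) % 3 = 0 := by
    rw [hm0, hm1, hm2] at hmod
    exact Int.emod_eq_zero_of_dvd hmod
  obtain ⟨k1, k2, k3⟩ := key hpre hmod'
  have hN' : N = 144 := by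
    rw [← hNeq] at k1
    exact_mod_cast k1
  refine ⟨hN', ?_, ?_⟩
  · rw [hm3, k2]; norm_num
  · rcases k3 with ⟨e0, e1, e2⟩ | ⟨e0, e1, e2⟩ | ⟨e0, e1, e2⟩
    · left; rw [hm0, hm1, hm2, e0, e1, e2]; norm_num
    · right; left; rw [hm0, hm1, hm2, e0, e1, e2]; norm_num
    · right; right; rw [hm0, hm1, hm2, e0, e1, e2]; norm_num

end Cfsg.Agent.Lib.Helper59.M11IA
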