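import Mathlib
import Cfsg.Agent.Lib.Helper45.MAutStmt

set_option autoImplicit false

/-! Piece [IC] of S0818: `|Inn(PΩ⁻)| = |PΩ⁻|`. -/

namespace Cfsg.Agent.Lib.Helper59.MAutIC

open Matrix
open Cfsg.Agent.Lib.Helper45.OmegaAut
open Cfsg.Agent.Lib.Helper44.MFld0 Cfsg.Agent.Lib.Helper44.MFldStmt

universe u

theorem main : Cfsg.Agent.Lib.Helper45.MAutStmt.InnCard.{u} := by
  intro hker F _ _ m hm a b hab
  have hinj : Function.Injective
      (MulAut.conj : Cfsg.POmega F (Cfsg.quadFormMinus m F a b) →*
        MulAut (Cfsg.POmega F (Cfsg.quadFormMinus m F a b))) := by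
    rw [injective_iff_map_eq_one]
    intro x hx
    induction x using QuotientGroup.induction_on with
    | H s =>
      have h1 : Phi (Cfsg.quadFormMinus m F a b) (inclΩ (Cfsg.quadFormMinus m F a b) s) = 1 := by
        rw [Phi_inclΩ]; exact hx
      obtain ⟨c, hc⟩ := hker F m hm a b hab _ h1
      have hs : s ∈ Subgroup.center ↥(Cfsg.Omega F (Cfsg.quadFormMinus m F a b)) := by
        apply Cfsg.Agent.Lib.Helper43.MiSyl.central_of_scalar (κ := c)
        apply Matrix.mulVec_injective
        funext x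
        have h2 := hc x
        rw [inclΩ_coe] at h2
        rw [h2, Matrix.smul_mulVec, Matrix.one_mulVec]
      exact (QuotientGroup.eq_one_iff s).mpr hs
  exact (Nat.card_congr (MonoidHom.ofInjective hinj).toEquiv).symm

end Cfsg.Agent.Lib.Helper59.MAutIC
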