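import Mathlib
import Cfsg.Agent.Lib.Helper44.OFldStmt
import Cfsg.Agent.Lib.Helper45.SingClass

set_option autoImplicit false

/-! Piece [C1] of S2736: the class character of a cocycle through the `σ`-twist of a subspace. -/

namespace Cfsg.Agent.Lib.Helper59.OFldC1

open Matrix Module QuadraticMap
open Cfsg.Agent.Lib.Helper43.OPlAut Cfsg.Agent.Lib.Helper45.OmegaAut
  Cfsg.Agent.Lib.Helper43.H90Fin
open Cfsg.Agent.Lib.Helper44.OFld0 Cfsg.Agent.Lib.Helper44.OFld1 Cfsg.Agent.Lib.Helper44.MaxTS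
  Cfsg.Agent.Lib.Helper44.NegPairs Cfsg.Agent.Lib.Helper44.QSpace
  Cfsg.Agent.Lib.Helper44.QClass

universe u

theorem main : Cfsg.Agent.Lib.Helper44.OFldStmt.EpsParity.{u} := by
  intro F _ _ m hm ε hε σ a μ h hh U hU'
  have hsU' : TS (plusQ m F) m (sigU σ (U.map (Matrix.toLin'
      (h : Matrix (Fin m ⊕ Fin m) (Fin m ⊕ Fin m) F)))) := ts_sigU σ hU'
  obtain ⟨c, hc⟩ := a.2
  have hae : ∀ v, plusQ m F (Cfsg.Agent.Lib.Helper44.OMat.glEquiv (a : GL (Fin m ⊕ Fin m) F) v)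
      = (c : F) * plusQ m F v := fun v => hc v
  have haU := Cfsg.Agent.Lib.Helper45.SingClass.ts_map_sim hae hsU'
  rw [← Cfsg.Agent.Lib.Helper45.SingClass.toLin'_eq] at haU
  -- a(σU') = h(σU)
  have key : (sigU σ (U.map (Matrix.toLin' (h : Matrix (Fin m ⊕ Fin m) (Fin m ⊕ Fin m) F)))).map
      (Matrix.toLin' ((a : GL (Fin m ⊕ Fin m) F) : Matrix (Fin m ⊕ Fin m) (Fin m ⊕ Fin m) F))
      = (sigU σ U).map (Matrix.toLin' (h : Matrix (Fin m ⊕ Fin m) (Fin m ⊕ Fin m) F)) := by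
    rw [sigU_map, ← Submodule.map_comp, ← Matrix.toLin'_mul]
    have e : (h : Matrix (Fin m ⊕ Fin m) (Fin m ⊕ Fin m) F) = (μ : F) •
        (((a : GL (Fin m ⊕ Fin m) F) : Matrix (Fin m ⊕ Fin m) (Fin m ⊕ Fin m) F) *
          (h : Matrix (Fin m ⊕ Fin m) (Fin m ⊕ Fin m) F).map σ) := by
      rw [← smul_mul_assoc]; exact hh.symm
    conv_rhs => rw [e, map_smul]
    rw [Submodule.map_smul _ _ _ μ.ne_zero]
  have e1 : finrank F ↥(U.map (Matrix.toLin' (h : Matrix (Fin m ⊕ Fin m) (Fin m ⊕ Fin m) F)) ⊓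
      (sigU σ U).map (Matrix.toLin' (h : Matrix (Fin m ⊕ Fin m) (Fin m ⊕ Fin m) F)))
      = finrank F ↥(U ⊓ sigU σ U) := by
    rw [Cfsg.Agent.Lib.Helper45.SingClass.toLin'_eq h]
    exact Cfsg.Agent.Lib.Helper45.SingClass.finrank_map_inf _ _ _
  have h1 := ts_parity (sep_plusQ (F := F) m) (finrank_plus m) _ hsU' haU hU' rfl
  have h2 := even_sigU σ hU'
  have h3 := hε.par a _ hsU'
  rw [key] at h1 h3
  rw [e1] at h1
  rw [h3]
  rw [Nat.even_iff] at h2 ⊢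
  rw [Nat.even_iff]
  omega

end Cfsg.Agent.Lib.Helper59.OFldC1
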