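import Mathlib
import Cfsg.Agent.Lib.Helper41.OMStmt
import Cfsg.Agent.Lib.Helper44.OCls4
import Cfsg.Agent.Lib.Helper59.HypDERELT

set_option autoImplicit false

namespace Cfsg.Agent.Lib.Helper59.OMMELTODD

open Polynomial UniqueFactorizationMonoid Matrix
open Cfsg.Agent.Lib.Helper40.RecipPoly Cfsg.Agent.Lib.Helper44.OCls1 Cfsg.Agent.Lib.Helper44.OCls2
  Cfsg.Agent.Lib.Helper44.OCls3 Cfsg.Agent.Lib.Helper44.OCls4

universe u

theorem main : Cfsg.Agent.Lib.Helper41.OMStmt.MEltOdd.{u} := by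
  classical
  intro F _ _ p _ _ q hq d0 a0 b0 r _ hr2 hrp i hi hiodd hid0
  have hr : r.Prime := Fact.out
  subst hq
  obtain ⟨d, hd⟩ : ∃ d, d = d0 - 1 := ⟨_, rfl⟩
  have hid : i ≤ d := by omega
  obtain ⟨hipos, hidvd⟩ := Cfsg.Agent.Lib.Helper59.HypDERELT.order_facts F p r hr hrp
  rw [← hi] at hipos hidvd
  obtain ⟨t, ht'⟩ := hidvd
  have ht : t * i = r - 1 := by rw [ht', mul_comm]
  have hr3 : 3 ≤ r := by
    have := hr.two_le
    omega
  have htpos : 1 ≤ t := by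
    rcases Nat.eq_zero_or_pos t with h | h
    · subst h
      omega
    · exact h
  obtain ⟨S0, hS0card, hLS0, hS0p, hS0dvd⟩ :=
    Cfsg.Agent.S2568.cyclo_facts (F := F) (p := p) r i t hr hrp hi ht
  obtain ⟨S, hLS, hSp, hSdvd, hcount, hdec⟩ := setup (F := F) (p := p) r i t hr hr2 hrp hi ht
  obtain ⟨P, hPS0⟩ : S0.Nonempty := Finset.card_pos.mp (by omega)
  obtain ⟨hPirr, hPm, hPdeg⟩ := hS0p P hPS0
  have hPdvd : P ∣ X ^ r - C (1 : F) := (hS0dvd P hPirr hPm).mpr (Or.inr hPS0)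
  have hPne : P ≠ X - C 1 := fun h => hLS0 (h ▸ hPS0)
  have hPS : P ∈ S := ((hSdvd P hPirr hPm).mp hPdvd).resolve_left hPne
  have hXr0 : (X ^ r - C (1 : F)).coeff 0 ≠ 0 := by
    rw [coeff_sub, coeff_X_pow, coeff_C_zero, if_neg hr.ne_zero.symm, zero_sub]
    exact neg_ne_zero.mpr one_ne_zero
  have hP0 : P.coeff 0 ≠ 0 := coeff0_of_dvd hPdvd hXr0
  have hid2 : ∀ x : F, (RingHom.id F) ((RingHom.id F) x) = x := fun x => rfl
  have hLm : (X - C (1 : F)).Monic := monic_X_sub_C 1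
  have hLirr : Irreducible (X - C (1 : F)) := irreducible_X_sub_C 1
  have hPstar : rstar (RingHom.id F) P ≠ P := by
    intro hEq
    have hcnt := hcount i
    rw [if_pos hiodd] at hcnt
    have h1 : i / (2 * i) = 0 := Nat.div_eq_of_lt (by omega)
    rw [h1, zero_add, Nat.choose_self] at hcnt
    have hPD : P ∈ D S i := by
      refine ⟨hPm, hPdeg, ?_, hEq⟩
      intro P' hP'
      rw [normalizedFactors_irreducible hPirr, Multiset.mem_singleton, hPm.normalize_eq_self]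
        at hP'
      right
      rw [hP']
      exact hPS
    have hLD := pow_mem_D S i
    have hne : P ≠ (X - C (1 : F)) ^ i := by
      intro h
      have hirr : Irreducible ((X - C (1 : F)) ^ i) := h ▸ hPirr
      have hi1 : i = 1 := by
        by_contra hi1
        exact not_irreducible_pow hi1 hirr
      apply hPne
      rw [h, hi1, pow_one]
    obtain ⟨a, ha⟩ := Set.ncard_eq_one.mp hcnt
    rw [ha] at hPD hLD
    exact hne ((Set.mem_singleton_iff.mp hPD).trans (Set.mem_singleton_iff.mp hLD).symm)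
  obtain ⟨c, hc⟩ : ∃ c : F[X], c = P * (X - C 1) ^ (d - i) := ⟨_, rfl⟩
  have hcm : c.Monic := hc ▸ hPm.mul (hLm.pow _)
  have hcdeg : c.natDegree = d := by
    rw [hc, hPm.natDegree_mul (hLm.pow _), hPdeg, hLm.natDegree_pow, natDegree_X_sub_C]
    omega
  have hc0 : c.coeff 0 ≠ 0 := by
    have h1 : ((X - C (1 : F)) ^ (d - i)).coeff 0 = (-1) ^ (d - i) := by
      rw [coeff_zero_eq_eval_zero, eval_pow, eval_sub, eval_X, eval_C, zero_sub]
    rw [hc, mul_coeff_zero, h1]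
    exact mul_ne_zero hP0 (pow_ne_zero _ (neg_ne_zero.mpr one_ne_zero))
  obtain ⟨s, hsc, N₀, hN₀pos, hN₀cop, hsN₀⟩ :=
    Cfsg.Agent.Lib.Helper40.SSCount.exists_charpoly p d c hcm hcdeg hc0
  have hLdvd : (X - C (1 : F)) ∣ X ^ r - C (1 : F) :=
    (hSdvd _ hLirr hLm).mpr (Or.inl rfl)
  have hsr : s ^ r = 1 := by
    apply Cfsg.Agent.S2568.pow_eq_one_of_charpoly s r N₀ hN₀cop hsN₀
    intro P' hP'
    rw [hsc, hc] at hP'
    have hirr' := irreducible_of_normalized_factor P' hP'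
    have hdvd' := dvd_of_mem_normalizedFactors hP'
    rcases hirr'.prime.dvd_or_dvd hdvd' with h | h
    · exact h.trans hPdvd
    · exact (hirr'.prime.dvd_of_dvd_pow h).trans hLdvd
  obtain ⟨s', hs'⟩ : ∃ s' : Matrix (Fin d) (Fin d) F, s' = s ^ (r - 1) := ⟨_, rfl⟩
  have h1 : s * s' = 1 := by rw [hs', ← pow_succ', Nat.sub_add_cancel hr.pos, hsr]
  have h2 : s' * s = 1 := by rw [hs', ← pow_succ, Nat.sub_add_cancel hr.pos, hsr]
  have hs'r : s' ^ r = 1 := by rw [hs', ← pow_mul, mul_comm, pow_mul, hsr, one_pow]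
  obtain ⟨X0, hX0⟩ : ∃ X0 : Matrix (Fin d ⊕ Fin d) (Fin d ⊕ Fin d) F,
      X0 = fromBlocks s 0 0 s'ᵀ := ⟨_, rfl⟩
  obtain ⟨Y0, hY0⟩ : ∃ Y0 : Matrix (Fin d ⊕ Fin d) (Fin d ⊕ Fin d) F,
      Y0 = fromBlocks s' 0 0 sᵀ := ⟨_, rfl⟩
  have hXY : X0 * Y0 = 1 := by
    rw [hX0, hY0, fromBlocks_multiply]
    simp only [Matrix.mul_zero, Matrix.zero_mul, add_zero, zero_add]
    rw [h1, ← transpose_mul, h1, transpose_one, fromBlocks_one]
  have hYX : Y0 * X0 = 1 := by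
    rw [hX0, hY0, fromBlocks_multiply]
    simp only [Matrix.mul_zero, Matrix.zero_mul, add_zero, zero_add]
    rw [h2, ← transpose_mul, h2, transpose_one, fromBlocks_one]
  have hXr : X0 ^ r = 1 := by
    rw [hX0, fromBlocks_diag_pow, hsr, ← transpose_pow, hs'r, transpose_one, fromBlocks_one]
  have hrstc : rstar (RingHom.id F) c = rstar (RingHom.id F) P * (X - C 1) ^ (d - i) := by
    rw [hc, rstar_mul, rstar_pow', rstar_X_sub_one]
  have hXcp : X0.charpoly = P * ((X - C 1) ^ (d - i) *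
      (rstar (RingHom.id F) P * (X - C 1) ^ (d - i))) := by
    rw [hX0, Matrix.charpoly_fromBlocks_zero₁₂, Matrix.charpoly_transpose,
      ← rstar_charpoly_inv s s' h1, hsc, hrstc, hc, mul_assoc]
  have hPp : Prime P := hPirr.prime
  have hPL : ¬ P ∣ (X - C (1 : F)) ^ (d - i) := by
    intro h
    have h3 := hPp.dvd_of_dvd_pow h
    have h4 := hPirr.associated_of_dvd hLirr h3
    exact hPne (eq_of_monic_of_associated hPm hLm h4)
  have hPR : ¬ P ∣ (X - C 1) ^ (d - i) * (rstar (RingHom.id F) P * (X - C 1) ^ (d - i)) := by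
    intro h
    rcases hPp.dvd_or_dvd h with h3 | h3
    · exact hPL h3
    · rcases hPp.dvd_or_dvd h3 with h4 | h4
      · have h5 := hPirr.associated_of_dvd
          (rstar_irreducible (RingHom.id F) hid2 P hPirr hPm hP0) h4
        exact hPstar (eq_of_monic_of_associated hPm (rstar_monic (RingHom.id F) P hP0) h5).symm
      · exact hPL h4
  obtain ⟨X1, hX1⟩ : ∃ X1 : Matrix ((Fin d ⊕ Fin d) ⊕ Fin 2) ((Fin d ⊕ Fin d) ⊕ Fin 2) F,
      X1 = fromBlocks X0 0 0 1 := ⟨_, rfl⟩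
  obtain ⟨Y1, hY1⟩ : ∃ Y1 : Matrix ((Fin d ⊕ Fin d) ⊕ Fin 2) ((Fin d ⊕ Fin d) ⊕ Fin 2) F,
      Y1 = fromBlocks Y0 0 0 1 := ⟨_, rfl⟩
  have hXY1 : X1 * Y1 = 1 := by
    rw [hX1, hY1, fromBlocks_multiply]
    simp only [Matrix.mul_zero, Matrix.zero_mul, add_zero, zero_add, Matrix.mul_one]
    rw [hXY, fromBlocks_one]
  have hYX1 : Y1 * X1 = 1 := by
    rw [hX1, hY1, fromBlocks_multiply]
    simp only [Matrix.mul_zero, Matrix.zero_mul, add_zero, zero_add, Matrix.mul_one]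
    rw [hYX, fromBlocks_one]
  have hX1r : X1 ^ r = 1 := by
    rw [hX1, fromBlocks_diag_pow, hXr, one_pow, fromBlocks_one]
  have hX1cp : X1.charpoly = P * ((X - C 1) ^ (d - i) *
      (rstar (RingHom.id F) P * (X - C 1) ^ (d - i)) * (X - C 1) ^ 2) := by
    rw [hX1, Matrix.charpoly_fromBlocks_zero₁₂, hXcp, Matrix.charpoly_one, Fintype.card_fin,
      ← C_1, mul_assoc]
  have hPR1 : ¬ P ∣ (X - C 1) ^ (d - i) * (rstar (RingHom.id F) P * (X - C 1) ^ (d - i)) *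
      (X - C 1) ^ 2 := by
    intro h
    rcases hPp.dvd_or_dvd h with h3 | h3
    · exact hPR h3
    · have h4 := hPp.dvd_of_dvd_pow h3
      have h5 := hPirr.associated_of_dvd hLirr h4
      exact hPne (eq_of_monic_of_associated hPm hLm h5)
  subst hd
  refine ⟨⟨X1, Y1, hXY1, hYX1⟩, P, _, ?_, hX1r, ?_, hPirr, hPm, hX1cp, hPR1, hPdeg ▸ hiodd⟩
  · intro u _
    show Cfsg.quadFormMinus (d0 - 1) F a0 b0 (X1 *ᵥ u) = Cfsg.quadFormMinus (d0 - 1) F a0 b0 u
    obtain ⟨u₁, hu₁⟩ : ∃ u₁ : Fin (d0 - 1) → F, u₁ = u ∘ Sum.inl ∘ Sum.inl := ⟨_, rfl⟩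
    obtain ⟨u₂, hu₂⟩ : ∃ u₂ : Fin (d0 - 1) → F, u₂ = u ∘ Sum.inl ∘ Sum.inr := ⟨_, rfl⟩
    obtain ⟨u₃, hu₃⟩ : ∃ u₃ : Fin 2 → F, u₃ = u ∘ Sum.inr := ⟨_, rfl⟩
    have hu : u = Sum.elim (Sum.elim u₁ u₂) u₃ := by
      rw [hu₁, hu₂, hu₃]
      funext x
      rcases x with (x | x) | x <;> rfl
    have hXu : X1 *ᵥ u = Sum.elim (Sum.elim (s *ᵥ u₁) (s'ᵀ *ᵥ u₂)) u₃ := by
      rw [hX1, hu, fromBlocks_mulVec, hX0, fromBlocks_mulVec]
      simp
    have hQ : ∀ (a b : Fin (d0 - 1) → F) (c : Fin 2 → F),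
        Cfsg.quadFormMinus (d0 - 1) F a0 b0 (Sum.elim (Sum.elim a b) c) =
          a ⬝ᵥ b + (c 0 ^ 2 + a0 * c 0 * c 1 + b0 * c 1 ^ 2) := by
      intro a b c
      unfold Cfsg.quadFormMinus
      rfl
    rw [hXu, hQ, hu, hQ, dotProduct_mulVec, vecMul_transpose, mulVec_mulVec, h2, one_mulVec]
  · intro z hz
    have hXz : X1 = z • 1 := hz
    have hz1 : z = 1 := by
      have h3 := congrFun (congrFun hXz (Sum.inr 0)) (Sum.inr 0)
      rw [hX1] at h3
      simpa using h3.symm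
    rw [hz1, one_smul] at hXz
    have hs : s = 1 := by
      ext a b
      have h3 := congrFun (congrFun hXz (Sum.inl (Sum.inl a))) (Sum.inl (Sum.inl b))
      rw [hX1, hX0] at h3
      simpa [Matrix.one_apply] using h3
    rw [hs, Matrix.charpoly_one, Fintype.card_fin] at hsc
    have h5 : P ∣ (X - C (1 : F)) ^ (d0 - 1) := by
      rw [← C_1] at hsc
      rw [hsc, hc]
      exact dvd_mul_right _ _
    have h3 := hPp.dvd_of_dvd_pow h5
    have h4 := hPirr.associated_of_dvd hLirr h3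
    exact hPne (eq_of_monic_of_associated hPm hLm h4)

end Cfsg.Agent.Lib.Helper59.OMMELTODD
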