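import Mathlib
import Cfsg.Agent.Lib.Helper16.P2pStmt
import Cfsg.Agent.Lib.CT.NormOne
import Cfsg.Agent.Lib.CT.Ops

/-! Piece [CUBE] of S4707: `∑ χ(g)³ = |G|` for the character `χ` of degree `p - 1`. -/

set_option autoImplicit false
set_option maxHeartbeats 800000

namespace Cfsg.Agent.Lib.Helper59.P2CUBE

open Cfsg Subgroup MulAction
open Cfsg.Agent.Lib.CT.Wedderburn Cfsg.Agent.Lib.CT.Orth Cfsg.Agent.Lib.CT.NormOne
open Cfsg.Agent.Lib.Helper17.ExcMain Cfsg.Agent.Lib.Helper17.ExcCor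
open Cfsg.Agent.Lib.Helper16.P2pStmt
open scoped ComplexConjugate

universe u

/-- the arithmetic behind `s ≤ 1` -/
theorem s_le_one (n s : ℕ) (hn : 1 ≤ n)
    (hl : 1 + (1 + s) * (n * 2 + 1 - 1) + n * (s * (n * 2 + 1 - 2))
      ≤ (n * 2 + 1) * (n * 2 + 1 - 1)) : s ≤ 1 := by
  by_contra hcon
  push Not at hcon
  have e1 : n * 2 + 1 - 1 = 2 * n := by omega
  have e2 : n * 2 + 1 - 2 = 2 * n - 1 := by omega
  rw [e1, e2] at hl
  have h1 : 3 * (2 * n) ≤ (1 + s) * (2 * n) := Nat.mul_le_mul_right _ (by omega)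
  have h2 : 2 * (2 * n - 1) ≤ s * (2 * n - 1) := Nat.mul_le_mul_right _ hcon
  have h3 : n * (2 * (2 * n - 1)) ≤ n * (s * (2 * n - 1)) := Nat.mul_le_mul_left _ h2
  have h4 : n * (2 * (2 * n - 1)) = 4 * (n * n) - 2 * n := by
    have : 2 * n - 1 + 1 = 2 * n := by omega
    have h5 : n * (2 * (2 * n - 1)) + 2 * n = 4 * (n * n) := by
      calc n * (2 * (2 * n - 1)) + 2 * n = 2 * n * (2 * n - 1 + 1) := by ring
        _ = 2 * n * (2 * n) := by rw [this]
        _ = 4 * (n * n) := by ring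
    omega
  have h6 : (n * 2 + 1) * (2 * n) = 4 * (n * n) + 2 * n := by ring
  have h7 : 2 * n ≤ 4 * (n * n) := by nlinarith
  omega

theorem main : Cfsg.Agent.Lib.Helper16.P2pStmt.Cube.{u} := by
  intro G _ _ _ P p hp hp5 hP n θ χ i₀ hE hdχ hdθ
  classical
  obtain ⟨hn, hθinj, hother, hε, hδ, hχT, hθχ, hθT, ⟨a, ha⟩, heq, hθvan, hθone, hform⟩ := hE
  obtain ⟨y, hyP, hy1⟩ := exists_mem_ne_one P hp hP
  have hGne : (Nat.card G : ℂ) ≠ 0 := Nat.cast_ne_zero.mpr Nat.card_pos.ne'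
  have hχc := isCharacter_of_irr χ.2
  have hθc := isCharacter_of_irr (θ i₀).2
  have hcl := irr_isClassFunction χ
  -- the values of `χ` on the conjugates of `P ∖ 1`
  have hP1 : ∀ y ∈ P, y ≠ 1 → (χ : G → ℂ) y = -1 := by
    intro y hy hy1
    have h1 := hform y hy hy1 (fun ψ => if ψ = χ then 1 else 0)
      (by intro i j; rw [if_neg (hθχ i), if_neg (hθχ j)])
    have h2 : ∑ ψ : IrrCharacter G, (if ψ = χ then (1 : ℂ) else 0) * conj ((ψ : G → ℂ) y)
        = conj ((χ : G → ℂ) y) := by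
      rw [Finset.sum_eq_single χ]
      · rw [if_pos rfl, one_mul]
      · intro ψ _ hψ
        rw [if_neg hψ, zero_mul]
      · intro h
        exact absurd (Finset.mem_univ _) h
    rw [h2, if_neg hχT.symm, if_pos rfl, if_neg (hθχ i₀)] at h1
    have h3 : conj ((χ : G → ℂ) y) = -1 := by
      rw [h1]
      push_cast
      ring
    have h4 := congrArg conj h3
    rw [Complex.conj_conj, map_neg, map_one] at h4
    exact h4
  have hχP : ∀ g u : G, u⁻¹ * g * u ∈ P → g ≠ 1 → (χ : G → ℂ) g = -1 := by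
    intro g u hu hg1
    have h1 : (χ : G → ℂ) (u⁻¹ * g * u) = (χ : G → ℂ) g := by
      have := hcl g u⁻¹
      rwa [inv_inv] at this
    have h2 : u⁻¹ * g * u ≠ 1 := by
      intro h
      apply hg1
      have h3 : g = u * (u⁻¹ * g * u) * u⁻¹ := by group
      rw [h3, h]
      group
    rw [← h1]
    exact hP1 _ hu h2
  -- degrees
  have hdθall : ∀ i, charDegree ((θ i : IrrCharacter G) : G → ℂ) = p - 2 := by
    intro i
    unfold charDegree
    rw [hθone i i₀]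
    exact hdθ
  have hdT : charDegree ((trivIrr G : IrrCharacter G) : G → ℂ) = 1 := by
    have h1 := deg_eq (trivIrr G)
    rw [trivIrr_apply] at h1
    exact_mod_cast h1.symm
  have hident1 : ∀ ψ : IrrCharacter G, charDegree (ψ : G → ℂ) = p - 1 → ψ = χ := by
    intro ψ hψdeg
    by_contra hne
    by_cases hT : ψ = trivIrr G
    · rw [hT, hdT] at hψdeg
      omega
    · by_cases hθ : ∃ i, θ i = ψ
      · obtain ⟨i, hi⟩ := hθ
        rw [← hi, hdθall i] at hψdeg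
        omega
      · push Not at hθ
        obtain ⟨b, hb⟩ := hother ψ hT hne hθ
        rw [hψdeg] at hb
        push_cast [Nat.cast_sub hp.one_lt.le] at hb
        have h3 : (p : ℤ) ∣ 1 := ⟨1 - b, by linarith⟩
        have h4 := Int.le_of_dvd one_pos h3
        omega
  have hident2 : ∀ ψ : IrrCharacter G, charDegree (ψ : G → ℂ) = p - 2 → ∃ j, θ j = ψ := by
    intro ψ hψdeg
    by_contra hθ
    push Not at hθ
    have hT : ψ ≠ trivIrr G := by
      rintro rfl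
      rw [hdT] at hψdeg
      omega
    have hne : ψ ≠ χ := by
      rintro rfl
      rw [hdχ] at hψdeg
      omega
    obtain ⟨b, hb⟩ := hother ψ hT hne hθ
    rw [hψdeg] at hb
    push_cast [Nat.cast_sub (show 2 ≤ p by omega)] at hb
    have h3 : (p : ℤ) ∣ 2 := ⟨1 - b, by linarith⟩
    have h4 := Int.le_of_dvd (by norm_num) h3
    omega
  -- complex conjugate characters
  have hconjirr : ∀ ψ : IrrCharacter G, ∃ ψ' : IrrCharacter G,
      (∀ g, (ψ' : G → ℂ) g = conj ((ψ : G → ℂ) g)) ∧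
        charDegree (ψ' : G → ℂ) = charDegree (ψ : G → ℂ) := by
    intro ψ
    have hval : ∀ g, (fun g => (ψ : G → ℂ) g⁻¹) g = conj ((ψ : G → ℂ) g) :=
      fun g => char_apply_inv (isCharacter_of_irr ψ.2) g
    refine ⟨⟨fun g => (ψ : G → ℂ) g⁻¹, Cfsg.Agent.Lib.CT.Ops.isIrrCharacter_inv_arg ψ.2⟩,
      hval, ?_⟩
    have h1 := deg_eq (⟨fun g => (ψ : G → ℂ) g⁻¹,
      Cfsg.Agent.Lib.CT.Ops.isIrrCharacter_inv_arg ψ.2⟩ : IrrCharacter G)
    have h2 : (fun g => (ψ : G → ℂ) g⁻¹) 1 = (ψ : G → ℂ) 1 := by simp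
    have h3 : ((charDegree (fun g => (ψ : G → ℂ) g⁻¹) : ℕ) : ℂ)
        = ((charDegree (ψ : G → ℂ) : ℕ) : ℂ) := by
      rw [← deg_eq ψ, ← h2]
      exact h1.symm
    exact_mod_cast h3
  have hreal : ∀ g, conj ((χ : G → ℂ) g) = (χ : G → ℂ) g := by
    obtain ⟨ψ', h1, h2⟩ := hconjirr χ
    have h3 := hident1 ψ' (by rw [h2, hdχ])
    intro g
    rw [← h1 g, h3]
  obtain ⟨j₀, hj₀⟩ : ∃ j, ∀ g, (θ j : G → ℂ) g = conj ((θ i₀ : G → ℂ) g) := by
    obtain ⟨ψ', h1, h2⟩ := hconjirr (θ i₀)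
    obtain ⟨j, hj⟩ := hident2 ψ' (by rw [h2, hdθ])
    exact ⟨j, fun g => by rw [hj]; exact h1 g⟩
  -- general analysis of a character vanishing on the conjugates of `P ∖ 1`
  have hconst : ∀ F : G → ℂ, (∀ g u : G, u⁻¹ * g * u ∈ P → g ≠ 1 → F g = 0) →
      ∀ i j, classInner F (θ i : G → ℂ) = classInner F (θ j : G → ℂ) := by
    intro F hF i j
    unfold classInner
    congr 1
    apply Finset.sum_congr rfl
    intro g _
    by_cases hg : ∀ u : G, u⁻¹ * g * u ∉ P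
    · rw [hθvan i j g hg]
    · push Not at hg
      obtain ⟨u, hu⟩ := hg
      by_cases hg1 : g = 1
      · rw [hg1, hθone i j]
      · rw [hF g u hu hg1, zero_mul, zero_mul]
  have hgen : ∀ Φ : G → ℂ, IsCharacter G Φ →
      (∀ g u : G, u⁻¹ * g * u ∈ P → g ≠ 1 → Φ g = 0) →
      ∃ m : IrrCharacter G → ℕ, (∀ ψ : IrrCharacter G, classInner Φ (ψ : G → ℂ) = m ψ) ∧
        (∀ g, Φ g = ∑ ψ : IrrCharacter G, (m ψ : ℂ) * (ψ : G → ℂ) g) ∧
        ((m (trivIrr G) : ℤ) - m χ + m (θ i₀) = 0) ∧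
        (∀ i, m (θ i) = m (θ i₀)) := by
    intro Φ hΦ hΦ0
    obtain ⟨m, hm, hexp⟩ := exists_mult_sum hΦ
    have hmθ : ∀ i j, m (θ i) = m (θ j) := by
      intro i j
      have h1 := hconst Φ hΦ0 i j
      rw [hm, hm] at h1
      exact_mod_cast h1
    have hexp' : ∀ g, Φ g = ∑ ψ : IrrCharacter G, (m ψ : ℂ) * (ψ : G → ℂ) g := by
      intro g
      have h1 := congrFun hexp g
      rw [Finset.sum_apply] at h1
      simpa using h1
    refine ⟨m, hm, hexp', ?_, fun i => hmθ i i₀⟩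
    have h1 := hform y hyP hy1 (fun ψ => (m ψ : ℂ)) (fun i j => by rw [hmθ i j])
    have h2 : ∑ ψ : IrrCharacter G, (m ψ : ℂ) * conj ((ψ : G → ℂ) y) = conj (Φ y) := by
      rw [hexp' y, map_sum]
      apply Finset.sum_congr rfl
      intro ψ _
      rw [map_mul, Complex.conj_natCast]
    rw [h2, hΦ0 y 1 (by simpa using hyP) hy1, map_zero] at h1
    have h3 : ((m (trivIrr G) : ℤ) : ℂ) - ((m χ : ℤ) : ℂ) + ((m (θ i₀) : ℤ) : ℂ) = 0 := by
      push_cast
      push_cast at h1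
      rw [h1]
      ring
    exact_mod_cast h3
  have hdeg : ∀ (Φ : G → ℂ) (m : IrrCharacter G → ℕ) (D : ℕ),
      (∀ g, Φ g = ∑ ψ : IrrCharacter G, (m ψ : ℂ) * (ψ : G → ℂ) g) → Φ 1 = D →
      ∑ ψ : IrrCharacter G, m ψ * charDegree (ψ : G → ℂ) = D := by
    intro Φ m D hexp hD
    have h1 := hexp 1
    rw [hD] at h1
    have h2 : ((∑ ψ : IrrCharacter G, m ψ * charDegree (ψ : G → ℂ) : ℕ) : ℂ) = D := by
      rw [h1]
      push_cast
      apply Finset.sum_congr rfl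
      intro ψ _
      rw [deg_eq]
    exact_mod_cast h2
  have hlow : ∀ m : IrrCharacter G → ℕ, (∀ i, m (θ i) = m (θ i₀)) →
      m (trivIrr G) + m χ * (p - 1) + n * (m (θ i₀) * (p - 2))
        ≤ ∑ ψ : IrrCharacter G, m ψ * charDegree (ψ : G → ℂ) := by
    intro m hmθ
    rw [sum_split θ hθinj (fun ψ => m ψ * charDegree (ψ : G → ℂ))]
    have h1 : ∑ i, m (θ i) * charDegree ((θ i : IrrCharacter G) : G → ℂ)
        = n * (m (θ i₀) * (p - 2)) := by
      rw [Finset.sum_congr rfl (fun i _ => by rw [hmθ i, hdθall i])]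
      simp
    rw [h1]
    have h2 : m (trivIrr G) + m χ * (p - 1)
        ≤ ∑ ψ : IrrCharacter G,
          (if ∃ i, θ i = ψ then 0 else m ψ * charDegree (ψ : G → ℂ)) := by
      calc m (trivIrr G) + m χ * (p - 1)
          = ∑ ψ ∈ ({trivIrr G, χ} : Finset (IrrCharacter G)),
              (if ∃ i, θ i = ψ then 0 else m ψ * charDegree (ψ : G → ℂ)) := by
            rw [Finset.sum_pair hχT.symm, if_neg (fun ⟨i, hi⟩ => hθT i hi),
              if_neg (fun ⟨i, hi⟩ => hθχ i hi), hdT, mul_one, hdχ]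
        _ ≤ _ := Finset.sum_le_sum_of_subset (Finset.subset_univ _)
    omega
  -- orthogonality facts
  have hoχχ : classInner (χ : G → ℂ) (χ : G → ℂ) = 1 := by
    rw [irr_orthonormal χ χ, if_pos rfl]
  have hoχT : classInner (χ : G → ℂ) ((trivIrr G : IrrCharacter G) : G → ℂ) = 0 := by
    rw [irr_orthonormal χ (trivIrr G), if_neg hχT]
  have hoχθ : ∀ j, classInner (χ : G → ℂ) ((θ j : IrrCharacter G) : G → ℂ) = 0 := by
    intro j
    rw [irr_orthonormal χ (θ j), if_neg (fun h => hθχ j h.symm)]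
  have hoθχ : classInner ((θ i₀ : IrrCharacter G) : G → ℂ) (χ : G → ℂ) = 0 := by
    rw [irr_orthonormal (θ i₀) χ, if_neg (hθχ i₀)]
  have hoθT : classInner ((θ i₀ : IrrCharacter G) : G → ℂ)
      ((trivIrr G : IrrCharacter G) : G → ℂ) = 0 := by
    rw [irr_orthonormal (θ i₀) (trivIrr G), if_neg (hθT i₀)]
  have hoθθ : classInner ((θ i₀ : IrrCharacter G) : G → ℂ)
      ((θ i₀ : IrrCharacter G) : G → ℂ) = 1 := by
    rw [irr_orthonormal (θ i₀) (θ i₀), if_pos rfl]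
  -- Step (a): the character `χ² + χ`
  have hΦ : IsCharacter G ((χ : G → ℂ) * (χ : G → ℂ) + (χ : G → ℂ)) :=
    Cfsg.Agent.Lib.CT.Ops.isCharacter_add (Cfsg.Agent.Lib.CT.Ops.isCharacter_mul hχc hχc) hχc
  have hΦ0 : ∀ g u : G, u⁻¹ * g * u ∈ P → g ≠ 1 →
      ((χ : G → ℂ) * (χ : G → ℂ) + (χ : G → ℂ)) g = 0 := by
    intro g u hu hg1
    simp only [Pi.add_apply, Pi.mul_apply]
    rw [hχP g u hu hg1]
    ring
  obtain ⟨m1, hm1, hexp1, hrel1, hmθ1⟩ := hgen _ hΦ hΦ0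
  have hΦ1 : ((χ : G → ℂ) * (χ : G → ℂ) + (χ : G → ℂ)) 1 = ((p * (p - 1) : ℕ) : ℂ) := by
    simp only [Pi.add_apply, Pi.mul_apply]
    rw [deg_eq, hdχ]
    push_cast [Nat.cast_sub hp.one_lt.le]
    ring
  have hsum1 := hdeg _ m1 (p * (p - 1)) hexp1 hΦ1
  have hl1 := hlow m1 hmθ1
  rw [hsum1] at hl1
  have hm1T : m1 (trivIrr G) = 1 := by
    have h1 := hm1 (trivIrr G)
    have h2 : classInner ((χ : G → ℂ) * (χ : G → ℂ) + (χ : G → ℂ))
        ((trivIrr G : IrrCharacter G) : G → ℂ) = 1 := by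
      rw [classInner_add_left, hoχT, add_zero, ← hoχχ]
      unfold classInner
      congr 1
      apply Finset.sum_congr rfl
      intro g _
      rw [trivIrr_apply, map_one, mul_one, hreal g]
      rfl
    rw [h2] at h1
    exact_mod_cast h1.symm
  -- `∑ χ³ = |G| (m1 χ - 1)`
  have hcube : ∑ g : G, (χ : G → ℂ) g ^ 3 = (Nat.card G : ℂ) * ((m1 χ : ℂ) - 1) := by
    have h1 := hm1 χ
    rw [classInner_add_left, hoχχ] at h1
    have h2 : classInner ((χ : G → ℂ) * (χ : G → ℂ)) (χ : G → ℂ) = (m1 χ : ℂ) - 1 := by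
      rw [← h1]; ring
    rw [← h2]
    unfold classInner
    rw [← mul_assoc, mul_inv_cancel₀ hGne, one_mul]
    apply Finset.sum_congr rfl
    intro g _
    rw [hreal g]
    simp only [Pi.mul_apply]
    ring
  -- the multiplicity of `θ j₀` in `χ² + χ`
  have hm1θ : (m1 (θ j₀) : ℂ) = (Nat.card G : ℂ)⁻¹ *
      ∑ g : G, (χ : G → ℂ) g * (χ : G → ℂ) g * ((θ i₀ : IrrCharacter G) : G → ℂ) g := by
    rw [← hm1 (θ j₀), classInner_add_left, hoχθ j₀, add_zero]
    unfold classInner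
    congr 1
    apply Finset.sum_congr rfl
    intro g _
    rw [hj₀ g, Complex.conj_conj]
    rfl
  -- Step (b): the character `θ χ + θ`
  have hΨ : IsCharacter G (((θ i₀ : IrrCharacter G) : G → ℂ) * (χ : G → ℂ)
      + ((θ i₀ : IrrCharacter G) : G → ℂ)) :=
    Cfsg.Agent.Lib.CT.Ops.isCharacter_add (Cfsg.Agent.Lib.CT.Ops.isCharacter_mul hθc hχc) hθc
  have hΨ0 : ∀ g u : G, u⁻¹ * g * u ∈ P → g ≠ 1 →
      (((θ i₀ : IrrCharacter G) : G → ℂ) * (χ : G → ℂ)
        + ((θ i₀ : IrrCharacter G) : G → ℂ)) g = 0 := by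
    intro g u hu hg1
    simp only [Pi.add_apply, Pi.mul_apply]
    rw [hχP g u hu hg1]
    ring
  obtain ⟨m2, hm2, hexp2, hrel2, hmθ2⟩ := hgen _ hΨ hΨ0
  have hm2T : m2 (trivIrr G) = 0 := by
    have h1 := hm2 (trivIrr G)
    have h2 : classInner (((θ i₀ : IrrCharacter G) : G → ℂ) * (χ : G → ℂ)
        + ((θ i₀ : IrrCharacter G) : G → ℂ))
        ((trivIrr G : IrrCharacter G) : G → ℂ) = 0 := by
      rw [classInner_add_left, hoθT, add_zero, ← hoθχ]
      unfold classInner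
      congr 1
      apply Finset.sum_congr rfl
      intro g _
      rw [trivIrr_apply, map_one, mul_one, hreal g]
      rfl
    rw [h2] at h1
    exact_mod_cast h1.symm
  have hm2χ : m2 χ = m1 (θ j₀) := by
    have h1 := hm2 χ
    rw [classInner_add_left, hoθχ, add_zero] at h1
    have h2 : ((m2 χ : ℕ) : ℂ) = ((m1 (θ j₀) : ℕ) : ℂ) := by
      rw [hm1θ, ← h1]
      unfold classInner
      congr 1
      apply Finset.sum_congr rfl
      intro g _
      rw [hreal g]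
      simp only [Pi.mul_apply]
      ring
    exact_mod_cast h2
  have hm2θ : 1 ≤ m2 (θ i₀) := by
    obtain ⟨k, hk⟩ := Cfsg.Agent.Lib.CT.Clifford.classInner_char_nat
      (Cfsg.Agent.Lib.CT.Ops.isCharacter_mul hθc hχc) hθc
    have h1 := hm2 (θ i₀)
    rw [classInner_add_left, hoθθ, hk] at h1
    have h2 : m2 (θ i₀) = k + 1 := by exact_mod_cast h1.symm
    omega
  -- conclusion
  obtain ⟨s, hs⟩ : ∃ s : ℕ, s = m1 (θ i₀) := ⟨_, rfl⟩
  have hs1 : 1 ≤ s := by
    rw [hs, ← hmθ1 j₀, ← hm2χ]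
    rw [hm2T] at hrel2
    push_cast at hrel2
    omega
  have hm1χ : m1 χ = 1 + s := by
    rw [hm1T, ← hs] at hrel1
    push_cast at hrel1
    omega
  have hs2 : s ≤ 1 := by
    rw [hm1T, hm1χ, ← hs] at hl1
    obtain rfl : p = n * 2 + 1 := hn.symm
    exact s_le_one n s (by omega) hl1
  have hs_eq : s = 1 := by omega
  rw [hcube, hm1χ, hs_eq]
  push_cast
  ring

end Cfsg.Agent.Lib.Helper59.P2CUBE
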