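import Mathlib
import Cfsg.Agent.Lib.Helper87.PCStmt

/-! Piece [INVD] of S5243: the subsystem `D` is invariant under `Aut_F(S)`. -/

set_option autoImplicit false

namespace Cfsg.Agent.Lib.Helper59.PCINVD

open Cfsg Cfsg.FusionSystem Cfsg.Agent.H85 Cfsg.Agent.Lib.Helper87.PCStmt

universe u

section

variable {Ω : Type*} [Group Ω] {S T : Subgroup Ω}

theorem autImage_autImage_inv (γ : MulAut T) {R : Subgroup Ω} (hRT : R ≤ T) :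
    autImage γ (autImage γ⁻¹ R) = R := by
  ext z
  constructor
  · intro hz
    obtain ⟨y, hy⟩ := exists_of_mem_autImage γ (autImage_le γ⁻¹ R) hz
    obtain ⟨r, hr⟩ := exists_of_mem_autImage γ⁻¹ hRT y.2
    have e : (⟨(y : Ω), autImage_le γ⁻¹ R y.2⟩ : T) = γ⁻¹ ⟨r, hRT r.2⟩ := Subtype.ext hr.symm
    rw [e, MulAut.apply_inv_self] at hy
    rw [← hy]
    exact r.2
  · intro hz
    have h1 := mem_autImage γ (autImage_le γ⁻¹ R)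
      ⟨((γ⁻¹ ⟨z, hRT hz⟩ : T) : Ω), mem_autImage γ⁻¹ hRT ⟨z, hz⟩⟩
    have e2 : ((γ (γ⁻¹ ⟨z, hRT hz⟩) : T) : Ω) = z := by rw [MulAut.apply_inv_self]
    rw [← e2]
    exact h1

/-- the conjugate by `γ ∈ Aut_F(T)` of a map in `K ∘ E` is in `K ∘ E` -/
theorem conjGood {p : ℕ} {F : FusionSystem S} {E : FusionSystem T} {K : Subgroup (MulAut T)}
    (c : Ctx p F E K) {γ : MulAut T} (hγ : γ ∈ F.autGroup T) {R₀ : Subgroup Ω} (hR₀T : R₀ ≤ T)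
    {ψ : R₀ →* Ω} (hψ : GoodA E K ψ) :
    ∃ χ₂ : autImage γ R₀ →* Ω, GoodA E K χ₂ ∧
      ∀ (y : R₀) (hψy : ψ y ∈ T), χ₂ (autRes γ hR₀T y) = ((γ ⟨ψ y, hψy⟩ : T) : Ω) := by
  obtain ⟨κ, hκ, e, he, hψκ⟩ := hψ
  have heT : ∀ x, e x ∈ T := (E.le_of_mem he).2
  obtain ⟨χ₁, hχ₁, h1⟩ := c.hinv R₀ hR₀T e he γ hγ
  have hχ₁T : ∀ x, χ₁ x ∈ T := (E.le_of_mem hχ₁).2
  refine ⟨(T.subtype.comp (γ * κ * γ⁻¹).toMonoidHom).comp (χ₁.codRestrict T hχ₁T),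
    ⟨γ * κ * γ⁻¹, c.hKn γ hγ κ hκ, χ₁, hχ₁, fun x hx => rfl⟩, fun y hψy => ?_⟩
  have h2 := h1 y (heT y) (mem_autImage γ hR₀T y)
  have e1 : (⟨χ₁ (autRes γ hR₀T y), hχ₁T _⟩ : T) = γ ⟨e y, heT y⟩ := Subtype.ext h2
  show (((γ * κ * γ⁻¹) ⟨χ₁ (autRes γ hR₀T y), hχ₁T _⟩ : T) : Ω) = _
  rw [e1]
  show ((γ (κ (γ⁻¹ (γ ⟨e y, heT y⟩))) : T) : Ω) = _
  rw [MulAut.inv_apply_self]
  have e3 : κ ⟨e y, heT y⟩ = ⟨ψ y, hψy⟩ := Subtype.ext (hψκ y (heT y)).symm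
  rw [e3]

end

theorem main : Cfsg.Agent.Lib.Helper87.PCStmt.InvD.{u} := by
  intro Ω _ S T _ p _ F E K c hHC
  apply invCond_of_le_invSys
  have hle : c.D ≤ invSys c.D (F.autGroup S) := by
    apply c.D_min
    intro Q hQ φ hφ
    refine ⟨hφ, fun hQS α hα => ?_⟩
    have hφB : φ ∈ c.B.Hom Q := c.D_le_B Q hφ
    have hφF : φ ∈ F.Hom Q := hφB.1
    have hφS : ∀ x, φ x ∈ S := (F.le_of_mem hφF).2
    obtain ⟨γ, hγ, hγα⟩ := exists_resT F c.hT hα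
    have hε : IsIso F (autRes α hQS) := isIso_autRes F le_rfl hα hQS
    have hQ' : autImage α Q ∈ famH F E := hHC Q _ hQ (isConj_of_isIso F hε)
    obtain ⟨χ, hχdef⟩ : ∃ χ : autImage α Q →* Ω, χ = (S.subtype.comp α.toMonoidHom).comp
        ((φ.codRestrict S hφS).comp (autRes α hQS).symm.toMonoidHom) := ⟨_, rfl⟩
    have hχx : ∀ x : Q, χ (autRes α hQS x) = ((α ⟨φ x, hφS x⟩ : S) : Ω) := by
      intro x
      rw [hχdef]
      show ((α ⟨φ ((autRes α hQS).symm (autRes α hQS x)), hφS _⟩ : S) : Ω) = _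
      simp only [MulEquiv.symm_apply_apply]
    have hχF : χ ∈ F.Hom (autImage α Q) := by
      have h1 : IsIso F (autRes α hQS).symm := isIso_symm F hε
      have h2 : φ.comp (autRes α hQS).symm.toMonoidHom ∈ F.Hom (autImage α Q) :=
        comp_mem' F h1 hφF (fun x => ((autRes α hQS).symm x).2) (fun x => rfl)
      have hα' := (mem_autGroup_iff F le_rfl α).mp hα
      exact comp_mem' F h2 hα' (fun x => hφS _) (fun x => by rw [hχdef]; rfl)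
    refine ⟨χ, c.mem_D_of_mem_B hQ' ((c.mem_B_iff χ).mpr ⟨hχF, fun R hRQ' hRT => ?_⟩),
      fun x hφx => hχx x⟩
    obtain ⟨R₀, hR₀Q, hR₀T, rfl⟩ : ∃ R₀ : Subgroup Ω, R₀ ≤ Q ∧ R₀ ≤ T ∧ R = autImage γ R₀ := by
      refine ⟨autImage γ⁻¹ R, ?_, autImage_le γ⁻¹ R, (autImage_autImage_inv γ hRT).symm⟩
      intro y hy
      obtain ⟨r, hr⟩ := exists_of_mem_autImage γ⁻¹ hRT hy
      obtain ⟨q, hq⟩ := exists_of_mem_autImage α hQS (hRQ' r.2)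
      have h3 := hγα (γ⁻¹ ⟨r, hRT r.2⟩)
      rw [MulAut.apply_inv_self] at h3
      have h4 : α ⟨((γ⁻¹ ⟨r, hRT r.2⟩ : T) : Ω), c.hTS (γ⁻¹ ⟨r, hRT r.2⟩).2⟩ =
          α ⟨q, hQS q.2⟩ := Subtype.ext (h3.symm.trans hq.symm)
      have h5 : ((γ⁻¹ ⟨r, hRT r.2⟩ : T) : Ω) = q :=
        congrArg (fun z : S => (z : Ω)) (α.injective h4)
      rw [← hr, h5]
      exact q.2
    have hψ := hφB.2 R₀ hR₀Q hR₀T
    obtain ⟨χ₂, hχ₂, hχ₂x⟩ := conjGood c hγ hR₀T hψ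
    refine hχ₂.congr (fun r => ?_)
    obtain ⟨y, rfl⟩ := (autRes γ hR₀T).surjective r
    have hψT : (φ.comp (Subgroup.inclusion hR₀Q)) y ∈ T := (mem_ksys_aux E K hψ).1.2 y
    rw [hχ₂x y hψT]
    have e : Subgroup.inclusion hRQ' (autRes γ hR₀T y) =
        autRes α hQS (Subgroup.inclusion hR₀Q y) := Subtype.ext (hγα ⟨y, hR₀T y.2⟩)
    show χ (Subgroup.inclusion hRQ' (autRes γ hR₀T y)) = _
    rw [e, hχx]
    exact (hγα ⟨φ (Subgroup.inclusion hR₀Q y), hψT⟩).symm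
  exact hle

end Cfsg.Agent.Lib.Helper59.PCINVD
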