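import Mathlib
import Cfsg.Agent.Lib.Helper10.PUDefs

/-! Piece [CFG] of S2772: a maximal subgroup of a simple group with a subgroup of index `3`
normalized by an element outside is a Sims–Wong configuration. -/

set_option autoImplicit false

namespace Cfsg.Agent.Lib.Helper59.PUCFG

open Pointwise Cfsg.Agent.Lib.Helper10.SWDefs Cfsg.Agent.Lib.Helper10.PUDefs

universe u

variable {H : Type u} [Group H]

theorem conj_eq_of_le [Finite H] {G : Subgroup H} {g : H} (h : MulAut.conj g • G ≤ G) :
    MulAut.conj g • G = G :=
  Subgroup.eq_of_le_of_card_ge h (le_of_eq (card_conj_smul g G).symm)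

theorem not_normalizes [Finite H] [IsSimpleGroup H] {G : Subgroup H} (hG : IsCoatom G)
    (hbot : G ≠ ⊥) {g : H} (hg : g ∉ G) (h : MulAut.conj g • G = G) : False := by
  have hgN : g ∈ Subgroup.normalizer (G : Set H) := by
    rw [Subgroup.mem_normalizer_iff]
    intro y
    constructor
    · intro hy
      have h1 := conj_mem_conj_smul (g := g) hy
      rwa [h] at h1
    · intro hy
      rw [← h, mem_conj_smul] at hy
      have e : g⁻¹ * (g * y * g⁻¹) * g = y := by group
      rwa [e] at hy
  have hle : G ≤ Subgroup.normalizer (G : Set H) := Subgroup.le_normalizer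
  have htop : Subgroup.normalizer (G : Set H) = ⊤ := by
    rcases hG.le_iff.mp hle with h1 | h1
    · exact h1
    · rw [h1] at hgN
      exact absurd hgN hg
  have hnorm : G.Normal := Subgroup.normalizer_eq_top_iff.mp htop
  rcases hnorm.eq_bot_or_eq_top with h1 | h1
  · exact hbot h1
  · exact hG.1 h1

theorem main : StCFG.{u} := by
  intro H _ _ _ G S x hG hSG hidx hxS hxG
  have hbot : G ≠ ⊥ := by
    intro h
    have hS : S = ⊥ := by
      rw [h] at hSG
      exact le_bot_iff.mp hSG
    rw [h, hS, Subgroup.relIndex_bot_left, Subgroup.card_bot] at hidx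
    exact absurd hidx (by norm_num)
  refine ⟨?_, ?_, ?_⟩
  · intro g hg
    have hle : G ≤ G ⊔ MulAut.conj g • G := le_sup_left
    rcases hG.le_iff.mp hle with h1 | h1
    · exact h1
    · exfalso
      have h2 : MulAut.conj g • G ≤ G := by
        calc MulAut.conj g • G ≤ G ⊔ MulAut.conj g • G := le_sup_right
          _ = G := h1
      exact not_normalizes hG hbot hg (conj_eq_of_le h2)
  · intro N hN hNG
    rcases hN.eq_bot_or_eq_top with h1 | h1
    · exact h1
    · exfalso
      rw [h1] at hNG
      exact hG.1 (top_le_iff.mp hNG)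
  · refine ⟨x, ?_⟩
    have hST : S ≤ G ⊓ MulAut.conj x • G := by
      refine le_inf hSG ?_
      calc S = MulAut.conj x • S := hxS.symm
        _ ≤ MulAut.conj x • G := Subgroup.pointwise_smul_le_pointwise_smul_iff.2 hSG
    have hmul := Subgroup.relIndex_mul_relIndex S (G ⊓ MulAut.conj x • G) G hST inf_le_left
    rw [hidx] at hmul
    have hdvd : (G ⊓ MulAut.conj x • G).relIndex G ∣ 3 := Dvd.intro_left _ hmul
    rcases (Nat.dvd_prime Nat.prime_three).mp hdvd with h1 | h1
    · exfalso
      rw [Subgroup.relIndex_eq_one] at h1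
      have h2 : G ≤ MulAut.conj x • G := le_trans h1 inf_le_right
      have h3 : MulAut.conj x • G = G :=
        (Subgroup.eq_of_le_of_card_ge h2 (le_of_eq (card_conj_smul x G))).symm
      exact not_normalizes hG hbot hxG h3
    · exact h1

end Cfsg.Agent.Lib.Helper59.PUCFG
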