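import Mathlib
import Cfsg.Agent.Lib.Helper10.PUDefs

/-! Piece [FF1] of S2772: `C_G(Ω₁ Z(Q)) ≤ Q` in the pushing-up setting. -/

set_option autoImplicit false

namespace Cfsg.Agent.Lib.Helper59.PUFF1

open Pointwise Cfsg.Agent.Lib.Helper10.SWDefs Cfsg.Agent.Lib.Helper10.PUDefs

universe u

variable {H : Type u} [Group H]

theorem nrm_of_forall {P N : Subgroup H} (h : ∀ p ∈ P, ∀ x ∈ N, p * x * p⁻¹ ∈ N) : Nrm P N := by
  intro p hp
  ext x
  rw [mem_conj_smul]
  constructor
  · intro hx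
    have h1 := h p hp _ hx
    have e : p * (p⁻¹ * x * p) * p⁻¹ = x := by group
    rwa [e] at h1
  · intro hx
    have h1 := h p⁻¹ (P.inv_mem hp) x hx
    rwa [inv_inv] at h1

/-- `Ω₁ Z(L) ≠ 1` for a nontrivial `2`-group `L`. -/
theorem OZ_ne_bot_of_two [Finite H] {L : Subgroup H} (hL2 : IsPGroup 2 L) (hLne : L ≠ ⊥) :
    OZ L ≠ ⊥ := by
  have : Nontrivial L := (Subgroup.nontrivial_iff_ne_bot L).2 hLne
  have : Fact (Nat.Prime 2) := ⟨Nat.prime_two⟩
  have hc : Nontrivial (Subgroup.center L) := hL2.center_nontrivial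
  obtain ⟨⟨z, hzc⟩, hz1⟩ := exists_ne (1 : Subgroup.center L)
  have hz1' : z ≠ 1 := fun h => hz1 (Subtype.ext h)
  obtain ⟨j, hj⟩ := (IsPGroup.iff_orderOf.1 hL2) z
  have hj0 : j ≠ 0 := by
    rintro rfl
    rw [pow_zero, orderOf_eq_one_iff] at hj
    exact hz1' hj
  have h2 : (2 : ℕ) ∣ orderOf z := by rw [hj]; exact dvd_pow_self 2 hj0
  have hw2 : orderOf (z ^ (orderOf z / 2)) = 2 :=
    orderOf_pow_orderOf_div (orderOf_pos z).ne' h2
  have hwc : z ^ (orderOf z / 2) ∈ Subgroup.center L := (Subgroup.center L).pow_mem hzc _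
  generalize z ^ (orderOf z / 2) = w at hw2 hwc
  intro hbot
  have hw : (w : H) ∈ OZ L := by
    refine ⟨w.2, ?_, ?_⟩
    · have h3 : w ^ 2 = 1 := by rw [← hw2]; exact pow_orderOf_eq_one w
      have h4 : ((w ^ 2 : L) : H) = 1 := by rw [h3]; rfl
      rw [Subgroup.coe_pow, pow_two] at h4
      exact h4
    · intro s hs
      have h3 := (Subgroup.mem_center_iff.1 hwc) ⟨s, hs⟩
      have h4 := congrArg (Subtype.val) h3
      exact h4
  rw [hbot, Subgroup.mem_bot] at hw
  have hw1 : w = 1 := Subtype.ext hw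
  rw [hw1, orderOf_one] at hw2
  exact absurd hw2 (by norm_num)

theorem main : StFF1.{u} := by
  intro H _ _ G Q S x q h g hgG hgW
  have hq : q.Prime := h.prime
  have : Fact q.Prime := ⟨hq⟩
  have : Fact (Nat.Prime 2) := ⟨Nat.prime_two⟩
  have hQG : Q ≤ G := h.hQS.trans h.hSG
  have hQ2 : IsPGroup 2 Q := h.two.to_le h.hQS
  obtain ⟨a, ha⟩ := IsPGroup.iff_card.mp hQ2
  have hNrmW : Nrm G (OZ Q) := by
    intro p hp
    rw [← OZ_conj, h.nrm p hp]
  obtain ⟨N, hNdef⟩ : ∃ N : Subgroup H, N = G ⊓ Subgroup.centralizer (OZ Q : Set H) := ⟨_, rfl⟩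
  have hNG : N ≤ G := by rw [hNdef]; exact inf_le_left
  have hNrmN : Nrm G N := by
    apply nrm_of_forall
    intro p hp y hy
    rw [hNdef] at hy ⊢
    rw [Subgroup.mem_inf] at hy
    refine Subgroup.mem_inf.mpr ⟨G.mul_mem (G.mul_mem hp hy.1) (G.inv_mem hp), ?_⟩
    rw [Subgroup.mem_centralizer_iff]
    intro w hw
    have hw' : p⁻¹ * w * p ∈ OZ Q := by
      have h1 := hNrmW p hp
      rw [← h1] at hw
      exact mem_conj_smul.mp hw
    have h2 := (Subgroup.mem_centralizer_iff.mp hy.2) _ hw'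
    calc w * (p * y * p⁻¹) = p * ((p⁻¹ * w * p) * y) * p⁻¹ := by group
      _ = p * (y * (p⁻¹ * w * p)) * p⁻¹ := by rw [h2]
      _ = p * y * p⁻¹ * w := by group
  have hgN : g ∈ N := by
    rw [hNdef]
    refine Subgroup.mem_inf.mpr ⟨hgG, ?_⟩
    rw [Subgroup.mem_centralizer_iff]
    intro w hw
    exact (hgW w hw).symm
  by_cases hqN : q ∣ Nat.card N
  · exfalso
    obtain ⟨d', hd'⟩ := exists_prime_orderOf_dvd_card' q hqN
    have hdord : orderOf (d' : H) = q := by rw [Subgroup.orderOf_coe]; exact hd'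
    have hdN : (d' : H) ∈ N := d'.2
    generalize (d' : H) = d at hdord hdN
    have hdG : d ∈ G := hNG hdN
    have hdW : d ∈ Subgroup.centralizer (OZ Q : Set H) := by
      rw [hNdef] at hdN; exact (Subgroup.mem_inf.mp hdN).2
    have hKG : S ⊔ Subgroup.zpowers d ≤ G := sup_le h.hSG (Subgroup.zpowers_le.mpr hdG)
    have hcardS : Nat.card S = 2 ^ (a + 1) := by rw [h.cardS, ha]; ring
    have h1 : Nat.card S ∣ Nat.card (S ⊔ Subgroup.zpowers d : Subgroup H) :=
      Subgroup.card_dvd_of_le le_sup_left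
    have h2 : q ∣ Nat.card (S ⊔ Subgroup.zpowers d : Subgroup H) := by
      have h3 := Subgroup.card_dvd_of_le (le_sup_right : Subgroup.zpowers d ≤ S ⊔ Subgroup.zpowers d)
      rwa [Nat.card_zpowers, hdord] at h3
    have hq2 : Nat.Coprime q (Nat.card S) := by
      rw [hcardS]
      apply Nat.Coprime.pow_right
      rw [Nat.coprime_primes hq Nat.prime_two]
      exact h.odd
    have h3 : q * Nat.card S ∣ Nat.card (S ⊔ Subgroup.zpowers d : Subgroup H) :=
      hq2.mul_dvd_of_dvd_of_dvd h2 h1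
    have hGcard : Nat.card G = q * Nat.card S := by rw [h.cardG, h.cardS]; ring
    have hKeq : S ⊔ Subgroup.zpowers d = G := by
      apply Subgroup.eq_of_le_of_card_ge hKG
      rw [hGcard]
      exact Nat.le_of_dvd Nat.card_pos h3
    have hOZ : OZ S ≤ OZ Q := by
      intro z hz
      obtain ⟨hzS, hz2, hzc⟩ := hz
      have hzQ : z ∈ Q := h.cent z (h.hSG hzS) (fun b hb => (hzc b (h.hQS hb)).symm)
      exact ⟨hzQ, hz2, fun s hs => hzc s (h.hQS hs)⟩
    have hcent : G ≤ Subgroup.centralizer (OZ S : Set H) := by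
      rw [← hKeq]
      refine sup_le ?_ (Subgroup.zpowers_le.mpr ?_)
      · intro s hs
        rw [Subgroup.mem_centralizer_iff]
        intro z hz
        exact (hz.2.2 s hs).symm
      · rw [Subgroup.mem_centralizer_iff]
        intro z hz
        exact (Subgroup.mem_centralizer_iff.mp hdW) z (hOZ hz)
    have hNrmZ : Nrm G (OZ S) := by
      apply nrm_of_forall
      intro p hp z hz
      have h4 := (Subgroup.mem_centralizer_iff.mp (hcent hp)) z hz
      have e : p * z * p⁻¹ = z := by rw [← h4]; group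
      rw [e]; exact hz
    have hxZ : MulAut.conj x • OZ S = OZ S := by rw [← OZ_conj, h.xS]
    have hbot := h.noN (OZ S) (fun z hz => hz.1) hNrmZ hxZ
    have hSne : S ≠ ⊥ := by
      intro hS
      have h5 := hcardS
      rw [hS, Subgroup.card_bot] at h5
      have h6 : 2 ∣ 2 ^ (a + 1) := dvd_pow_self 2 (Nat.succ_ne_zero a)
      rw [← h5] at h6
      exact absurd h6 (by norm_num)
    exact OZ_ne_bot_of_two h.two hSne hbot
  · have hdvd : Nat.card N ∣ 2 * q * Nat.card Q := by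
      rw [← h.cardG]; exact Subgroup.card_dvd_of_le hNG
    have hcop : Nat.Coprime (Nat.card N) q :=
      Nat.Coprime.symm ((Nat.Prime.coprime_iff_not_dvd hq).mpr hqN)
    have hdvd2 : Nat.card N ∣ 2 ^ (a + 1) := by
      have e : 2 * q * Nat.card Q = q * 2 ^ (a + 1) := by rw [ha]; ring
      rw [e] at hdvd
      exact hcop.dvd_of_dvd_mul_left hdvd
    obtain ⟨b, -, hb⟩ := (Nat.dvd_prime_pow Nat.prime_two).mp hdvd2
    have hN2 : IsPGroup 2 N := IsPGroup.of_card hb
    exact h.maxQ N hNG hNrmN hN2 hgN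

end Cfsg.Agent.Lib.Helper59.PUFF1
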