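import Mathlib
import Cfsg.Agent.Lib.Helper41.TMStmt
import Cfsg.Agent.Lib.Helper59.GenBFE

/-!
# S5987 / BFE (call by helper41)

`main : BlockFindE`: the minus-form case of `GenBFE.gen` (char-free block finding).
-/

set_option autoImplicit false

namespace Cfsg.Agent.Lib.Helper59.TMBFE

open Cfsg.Agent.Lib.Helper41.TMStmt
open Cfsg.Agent.Lib.Helper45.OMiStmt (M Aniso FxM NDegM StabM)

universe u

theorem main : BlockFindE.{u} := by
  intro F _ _ a₀ b₀ _ p _ _ d r _ hr2 hrp hev x hx hxr Y hYs hYnd hYfix hYne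
  exact Cfsg.Agent.Lib.Helper59.GenBFE.gen F p
    (Cfsg.Agent.Lib.Helper44.NegPairs.minusQ (d - 1) F a₀ b₀) r hr2 hrp hev x hx hxr Y hYs hYnd
    hYfix hYne

end Cfsg.Agent.Lib.Helper59.TMBFE
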